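import Cfsg.Agent.Lib.Geometric.SUSix.Basic
import Cfsg.Agent.Lib.Geometric.UnitaryMonomial.Quot

/-!
A coordinate line fixed by a non-monomial element in dimension six, except over the field with
twenty-five elements.
-/

set_option autoImplicit false

namespace CfsgLib.SUSix

open CfsgLib.Geometric CfsgLib.UMon Finset Matrix

variable {ι : Type} [Fintype ι] [DecidableEq ι] {F : Type*} [Field F] [Fintype F] [DecidableEq F]
variable {σ : F ≃+* F} {q : ℕ}

local notation "e[" j "]" => (Pi.single j (1 : _) : ι → _)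

variable {X : Subgroup (GL ι F)}

lemma rf_single_mem (hM : MonSix σ X) (a : ι) {t : F} (ht : t ∈ cir σ) :
    rf σ e[a] (t ^ 6) ∈ X := by
  have h6 := pow_mem_cir ht 6
  rw [rf_single h6]
  refine hM 1 _ (fun i => ?_) t ht ?_
  · by_cases h : i = a
    · subst h; simpa using h6
    · simp [h, one_mem_cir]
  · rw [Finset.prod_update_of_mem (mem_univ a)]
    simp

omit [Fintype F] in
lemma wt_rest (u : ι → F) (j : ι) : wt u ≤ wt (rest u j) + 1 := by
  refine (card_le_card (t := insert j (univ.filter fun i => rest u j i ≠ 0)) fun i hi => ?_).trans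
    (card_insert_le _ _)
  by_cases h : i = j
  · simp [h]
  · simp only [mem_filter, mem_univ, true_and] at hi
    simp [rest_ne h, hi]

/-- An isotropic perpendicular part gives a transvection fixing the coordinate line. -/
lemma fixLine_of_isotropic (hσ : IsConj σ q) {u : ι → F} {j : ι} (hu : hb σ u u = 1) {μ : F}
    (hμ : μ ∈ cir σ) (hμ2 : μ ^ 2 ≠ 1) (huj : u j ≠ 0) (hp : u j * σ (u j) = 1)
    (hw : 3 ≤ wt (rest u j)) (hDX : rf σ e[j] μ ∈ X) (hRX : rf σ u μ ∈ X) : FixLine X := by
  set f := rest u j with hf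
  have hμ0 := ne_zero_of_mem_cir hμ
  have hμ1 : μ - 1 ≠ 0 := fun e => hμ2 (by rw [sub_eq_zero.mp e, one_pow])
  have hfj : f j = 0 := rest_self
  have hff : hb σ f f = 0 := by rw [hb_rest_self hu, hp, sub_self]
  have hu' : u = u j • e[j] + f := by rw [hf, rest]; abel
  have hD : ∀ (ν : F), ν ∈ cir σ → ∀ x, ap (rf σ e[j] ν) x = x + ((ν - 1) * x j) • e[j] :=
    fun ν hν x => by rw [ap_rf (hb_single_self j) hν, hb_single_right, map_one, mul_one]
  set A := rf σ u μ * rf σ e[j] μ⁻¹ with hAdef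
  set b := (μ - 1) * u j with hb'
  set a := (1 - μ⁻¹) * σ (u j) with ha'
  set κ := μ - 1 with hκ
  have hA : ∀ x, ap A x = x + (b * hb σ x f) • e[j] + (a * x j + κ * hb σ x f) • f := by
    intro x
    have e1 : hb σ (x + ((μ⁻¹ - 1) * x j) • e[j]) u = μ⁻¹ * x j * σ (u j) + hb σ x f := by
      rw [hb_add_left, hb_smul_left, hb_single_left, hf, hb_rest]
      ring
    rw [hAdef, ap_mul, hD _ (inv_mem_cir hμ), ap_rf hu hμ, e1]
    conv_lhs => arg 2; arg 2; rw [hu']
    simp only [ha', hb', hκ]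
    match_scalars
    · rfl
    · field_simp
      linear_combination (x j * (μ - 1)) * hp
    · field_simp
  set B := rf σ e[j] μ * A * rf σ e[j] μ⁻¹ with hBdef
  have hB : ∀ x, ap B x = x + (μ * b * hb σ x f) • e[j] +
      (a * μ⁻¹ * x j + κ * hb σ x f) • f := by
    intro x
    have e1 : hb σ (x + ((μ⁻¹ - 1) * x j) • e[j]) f = hb σ x f := by
      rw [hb_add_left, hb_smul_left, hb_single_left, hfj, map_zero]
      ring
    rw [hBdef, ap_mul, ap_mul, hD _ (inv_mem_cir hμ), hA, e1, hD μ hμ]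
    simp only [Pi.add_apply, Pi.smul_apply, smul_eq_mul, Pi.single_eq_same, hfj]
    match_scalars
    · rfl
    · field_simp
      ring
    · field_simp
      ring
  set δ := a * (μ * b) - a * μ⁻¹ * b with hδ
  have hδ0 : δ ≠ 0 := by
    rw [hδ, show a * (μ * b) - a * μ⁻¹ * b = a * b * (μ - μ⁻¹) by ring]
    refine mul_ne_zero (mul_ne_zero (mul_ne_zero ?_ ((map_ne_zero σ).mpr huj))
      (mul_ne_zero hμ1 huj)) ?_
    · intro e
      apply hμ1
      field_simp at e
      linear_combination e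
    · intro e
      apply hμ2
      field_simp at e
      linear_combination e
  set T := (B * A)⁻¹ * (A * B) with hTdef
  have hT : ∀ x, ap T x = x + (δ * hb σ x f) • f := by
    intro x
    apply ap_injective (B * A)
    rw [hTdef, ← ap_mul, mul_inv_cancel_left, ap_mul A B, ap_mul B A, hA, hB, hA, hB]
    have hjf : hb σ e[j] f = 0 := by rw [hb_single_left, hfj, map_zero, mul_zero]
    simp only [hb_add_left, hb_smul_left, hff, hjf, Pi.add_apply, Pi.smul_apply, smul_eq_mul,
      Pi.single_eq_same, hfj, hδ]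
    match_scalars <;> ring
  have hAX : A ∈ X := mul_mem hRX (by
    rw [show rf σ e[j] μ⁻¹ = (rf σ e[j] μ)⁻¹ from eq_inv_of_mul_eq_one_left (by
      rw [rf_mul (hb_single_self j) (inv_mem_cir hμ) hμ, inv_mul_cancel₀ hμ0]
      exact gl_ext fun x => by rw [hD 1 one_mem_cir, ap_one]; simp)]
    exact inv_mem hDX)
  have hBX : B ∈ X := by
    rw [hBdef, show rf σ e[j] μ⁻¹ = (rf σ e[j] μ)⁻¹ from eq_inv_of_mul_eq_one_left (by
      rw [rf_mul (hb_single_self j) (inv_mem_cir hμ) hμ, inv_mul_cancel₀ hμ0]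
      exact gl_ext fun x => by rw [hD 1 one_mem_cir, ap_one]; simp)]
    exact mul_mem (mul_mem hDX hAX) (inv_mem hDX)
  refine ⟨T, mul_mem (inv_mem (mul_mem hBX hAX)) (mul_mem hAX hBX),
    not_isMon_shift (σ := σ) (f := f) hδ0 (fun i _ => ?_) hw, j, 1, ?_⟩
  · rw [hT, hb_single_left, one_mul]
  · rw [hT, hb_single_left, hfj]
    simp

/-- The product of two reflections of determinant `-1`, powered to a scalar. -/
lemma fixLine_of_power (hσ : IsConj σ q) (h2 : (2 : F) ≠ 0) {u : ι → F} {j : ι}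
    (hu : hb σ u u = 1) (hs : 1 - u j * σ (u j) ≠ 0) (hw : 3 ≤ wt (rest u j))
    (hDX : rf σ e[j] (-1) ∈ X) (hRX : rf σ u (-1) ∈ X)
    {m : ℕ} (hm : ((fun c : F × F => (c.1 * (4 * (u j * σ (u j)) - 2) + c.2, -c.1))^[m]) (0, 1) =
      (0, -1)) : FixLine X := by
  obtain ⟨D, hD, R, hR, hDm, hRm⟩ := exists_generators (j := j) hu
    (neg_mem_cir (σ := σ) one_mem_cir) hDX hRX
  set M : Matrix (Fin 2) (Fin 2) F := ((R * D : GL (Fin 2) F) : Matrix (Fin 2) (Fin 2) F) with hM
  set t := 4 * (u j * σ (u j)) - 2 with ht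
  have hM2 : M * M = t • M - (1 : Matrix (Fin 2) (Fin 2) F) := by
    rw [hM, Units.val_mul, hDm, hRm]
    ext i k
    fin_cases i <;> fin_cases k <;> simp [ht, Matrix.mul_apply, Fin.sum_univ_two] <;> ring
  have hpow : ∀ n : ℕ, M ^ n =
      (((fun c : F × F => (c.1 * t + c.2, -c.1))^[n]) (0, 1)).1 • M +
      (((fun c : F × F => (c.1 * t + c.2, -c.1))^[n]) (0, 1)).2 • (1 : Matrix (Fin 2) (Fin 2) F) := by
    intro n
    induction n with
    | zero => simp
    | succ n ih =>
      rw [pow_succ, ih, Function.iterate_succ_apply']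
      simp only [add_mul, smul_mul_assoc, one_mul, hM2]
      module
  refine fixLine_of_scalar hσ hu hs hw (A := (R * D) ^ m) (pow_mem (mul_mem hR hD) m) (c := -1)
    (fun e => h2 (by linear_combination -e)) ?_
  rw [Units.val_pow_eq_pow_val, ← hM, hpow, hm]
  simp

lemma two_ne_zero_eleven : (2 : ZMod 11) ≠ 0 := by decide

/-- The rotations by good angles over the prime field with eleven elements. -/
lemma exists_iterate_eleven : ∀ P : ZMod 11, (∃ m : Fin 7,
    ((fun c : ZMod 11 × ZMod 11 => (c.1 * (4 * P - 2) + c.2, -c.1))^[(m : ℕ)])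
      ((0, 1) : ZMod 11 × ZMod 11) = ((0, -1) : ZMod 11 × ZMod 11)) ∨
    P = 0 ∨ P = 1 ∨ P = 3 ∨ P = 4 ∨ P = 5 := by
  decide

variable (hσ : IsConj σ q) (hq : 3 ≤ q) (hn : Fintype.card ι = 6) (hX : X ≤ GUs σ)
  (hM : MonSix σ X) {g₀ : GL ι F} (hg₀ : g₀ ∈ X) (hg₀n : ¬ IsMon g₀) (hN : ¬ FixLine X)
include hσ hq hn hX hM hN

/-- Columns of non-monomial elements have weight five or more. -/
lemma five_le_wt {g : GL ι F} (hg : g ∈ X) (hgn : ¬ IsMon g) (j : ι) : 5 ≤ wt (ap g e[j]) := by
  have hZ := noTwoZeros hσ hn hX hM.monIn hq hN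
  have h := card_filter_add_card_filter_not (s := (univ : Finset ι)) (fun i => ap g e[j] i ≠ 0)
  rw [card_univ, hn] at h
  have : (univ.filter fun i => ¬ ap g e[j] i ≠ 0).card ≤ 1 := card_le_one.mpr fun x hx y hy => by
    by_contra hne
    simp only [mem_filter, mem_univ, true_and, not_not] at hx hy
    exact hZ g hg hgn j x y hne hx hy
  change 5 ≤ (univ.filter fun i => ap g e[j] i ≠ 0).card
  omega

include hg₀ hg₀n

/-- A unit vector of weight five or more with its quasi-reflections in `X`. -/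
lemma exists_vector : ∃ u : ι → F, hb σ u u = 1 ∧ 5 ≤ wt u ∧
    ∀ t ∈ cir σ, rf σ u (t ^ 6) ∈ X := by
  obtain ⟨a⟩ : Nonempty ι := Fintype.card_pos_iff.mp (by omega)
  refine ⟨ap g₀⁻¹ e[a], (hb_ap (inv_mem (hX hg₀)) _ _).trans (hb_single_self a),
    five_le_wt hσ hq hn hX hM hN (inv_mem hg₀) (not_isMon_inv hg₀n) a, fun t ht => ?_⟩
  rw [← conj_rf (inv_mem (hX hg₀)) (hb_single_self a) (pow_mem_cir ht 6), inv_inv]
  exact mul_mem (mul_mem (inv_mem hg₀) (rf_single_mem hM a ht)) hg₀

/-- Some element of order more than two among the sixth powers. -/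
lemma false_of_order (h12 : ∃ t ∈ cir σ, (t ^ 6) ^ 2 ≠ (1 : F)) : False := by
  obtain ⟨t, ht, hμ2⟩ := h12
  obtain ⟨u, hu, hw, hR⟩ := exists_vector hσ hq hn hX hM hg₀ hg₀n hN
  set μ := t ^ 6 with hμdef
  have hμ : μ ∈ cir σ := pow_mem_cir ht 6
  obtain ⟨j, hj⟩ := card_pos.mp (show 0 < (univ.filter fun i => u i ≠ 0).card from
    Nat.lt_of_lt_of_le (by norm_num) hw)
  simp only [mem_filter, mem_univ, true_and] at hj
  have hw3 : 3 ≤ wt (rest u j) := by have := wt_rest u j; omega
  have hDX := rf_single_mem hM j ht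
  by_cases hp : u j * σ (u j) = 1
  · exact hN (fixLine_of_isotropic hσ hu hμ hμ2 hj hp hw3 hDX (hR t ht))
  obtain ⟨D, hD, R, hRm', hDm, hRm⟩ := exists_generators (j := j) hu hμ hDX (hR t ht)
  have hμ1 : μ - 1 ≠ 0 := fun e => hμ2 (by rw [sub_eq_zero.mp e, one_pow])
  have htr : (R : Matrix (Fin 2) (Fin 2) F) 0 0 + (R : Matrix (Fin 2) (Fin 2) F) 1 1 ≠ 0 := by
    rw [hRm]
    simp
    intro e
    exact hμ2 (by linear_combination (μ - 1) * e)
  have hoff : ¬((R : Matrix (Fin 2) (Fin 2) F) 0 1 = 0 ∧ (R : Matrix (Fin 2) (Fin 2) F) 1 0 = 0) := by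
    rw [hRm]
    simp [hμ1, hj]
  obtain ⟨A, hA, c, hc, hAc⟩ := exists_scalar_mem hσ (s := 1 - u j * σ (u j))
    (by simp [hσ.invol, mul_comm]) (sub_ne_zero.mpr (Ne.symm hp)) (planeGroup σ X u j)
    (fun A hA => planeGroup_isUn hσ hX hu hA) hμ2 hD hRm' hDm htr hoff
  exact hN (fixLine_of_scalar hσ hu (sub_ne_zero.mpr (Ne.symm hp)) hw3 hA hc hAc)

lemma false_of_three (h3 : q = 3) : False := by
  obtain ⟨u, hu, hw, hR⟩ := exists_vector hσ hq hn hX hM hg₀ hg₀n hN
  have h30 : (3 : F) = 0 := by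
    have h9 := FiniteField.cast_card_eq_zero F
    rw [hσ.card, h3] at h9
    exact mul_self_eq_zero.mp (show (3 : F) * 3 = 0 by push_cast at h9; linear_combination h9)
  have h2 : (2 : F) ≠ 0 := fun e => one_ne_zero (α := F) (by linear_combination h30 - e)
  have hfxd : fxd σ = {0, 1, -1} := (eq_of_subset_of_card_le (fun x hx => by
    simp at hx; rcases hx with rfl | rfl | rfl <;> simp [fxd]) (by
    rw [card_fxd hσ, h3, card_eq_three.mpr ⟨0, 1, -1, zero_ne_one, by simp,
      fun e => h2 (by linear_combination e), rfl⟩])).symm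
  obtain ⟨j, hj⟩ : ∃ j, u j * σ (u j) = -1 := by
    by_contra h
    push Not at h
    have hall : ∀ i, u i * σ (u i) = if u i ≠ 0 then 1 else 0 := fun i => by
      have hmem : u i * σ (u i) ∈ fxd σ := by simp [fxd, hσ.invol, mul_comm]
      rw [hfxd] at hmem
      simp only [mem_insert, mem_singleton] at hmem
      split_ifs with h0
      · rcases hmem with e | e | e
        · exact absurd e (mul_ne_zero h0 ((map_ne_zero σ).mpr h0))
        · exact e
        · exact absurd e (h i)
      · simp [not_not.mp h0]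
    rw [hb, Finset.sum_congr rfl fun i _ => hall i, ← Finset.sum_filter, sum_const,
      nsmul_eq_mul, mul_one] at hu
    have h6 : wt u ≤ 6 := hn ▸ card_le_univ _
    rcases (show wt u = 5 ∨ wt u = 6 by omega) with e | e
    all_goals
      unfold wt at e
      rw [e] at hu
      push_cast at hu
    · exact one_ne_zero (α := F) (by linear_combination hu - h30)
    · exact one_ne_zero (α := F) (by linear_combination 2 * h30 - hu)
  obtain ⟨c, hc, hc6⟩ : ∃ t ∈ cir σ, t ^ 6 = (-1 : F) := by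
    obtain ⟨t, ht, ht2⟩ := exists_sq_ne_one hσ
    refine ⟨t, ht, ?_⟩
    have h4 := pow_card_cir hσ ht
    rw [h3] at h4
    have : t ^ 2 = -1 := (sq_eq_one_iff.mp (show (t ^ 2) ^ 2 = 1 by linear_combination h4)).resolve_left ht2
    linear_combination (t ^ 4 - t ^ 2 + 1) * this
  have hDX := rf_single_mem hM j hc
  have hRX := hR c hc
  rw [hc6] at hDX hRX
  refine hN (fixLine_of_power hσ h2 hu (fun e => h2 (by linear_combination e + hj))
    (by have := wt_rest u j; omega) hDX hRX (m := 2) ?_)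
  simp only [Function.iterate_succ_apply, Function.iterate_zero_apply, hj]
  refine Prod.ext ?_ ?_
  · simp; linear_combination (-2 : F) * h30
  · simp

lemma false_of_eleven (h11 : q = 11) : False := by
  obtain ⟨u, hu, hw, hR⟩ := exists_vector hσ hq hn hX hM hg₀ hg₀n hN
  have hz : ((11 : ℕ) : F) = 0 := by
    have h9 := FiniteField.cast_card_eq_zero F
    rw [hσ.card, h11] at h9
    push_cast at h9 ⊢
    exact mul_self_eq_zero.mp (show (11 : F) * 11 = 0 by linear_combination h9)
  have : Fact (Nat.Prime 11) := ⟨by norm_num⟩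
  have : CharP F 11 := (CharP.charP_iff_prime_eq_zero (by norm_num)).mpr hz
  set φ : ZMod 11 →+* F := ZMod.castHom dvd_rfl F with hφ
  have h2 : (2 : F) ≠ 0 := fun e => by
    exact absurd (φ.injective (show φ 2 = φ 0 by simp [map_ofNat, e]))
      two_ne_zero_eleven
  have hsurj : ∀ x ∈ fxd σ, ∃ P, φ P = x := fun x hx => by
    have he : univ.image φ = fxd σ := eq_of_subset_of_card_le (fun y hy => by
      obtain ⟨P, -, rfl⟩ := mem_image.mp hy
      simpa [fxd] using RingHom.congr_fun (Subsingleton.elim ((σ : F →+* F).comp φ) φ) P) (by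
      rw [card_image_of_injective _ φ.injective, card_fxd hσ, h11, card_univ, ZMod.card])
    rw [← he] at hx
    obtain ⟨P, -, hP⟩ := mem_image.mp hx
    exact ⟨P, hP⟩
  obtain ⟨c, hc, hc6⟩ : ∃ t ∈ cir σ, t ^ 6 = (-1 : F) := by
    by_contra h
    push Not at h
    have hsub : cir σ ⊆ univ.filter fun x : F => x ^ 6 = 1 := fun x hx => by
      have h12 := pow_card_cir hσ hx
      rw [h11] at h12
      simpa using (sq_eq_one_iff.mp (show (x ^ 6) ^ 2 = 1 by rw [← pow_mul]; exact h12)).resolve_right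
        (h x hx)
    have := card_le_card hsub
    rw [card_cir hσ, hσ.card_roots (d := 6) (by rw [h11]; norm_num) (by norm_num), h11] at this
    omega
  have hm1 : (-1 : F) ∈ cir σ := neg_mem_cir one_mem_cir
  -- a good coordinate gives a fixed line
  have key : ∀ (v : ι → F) (j : ι), hb σ v v = 1 → rf σ v (-1) ∈ X → 3 ≤ wt (rest v j) →
      ∀ P : ZMod 11, φ P = v j * σ (v j) → P ≠ 0 → P ≠ 1 → P ≠ 3 → P ≠ 4 → P ≠ 5 → False := by
    intro v j hv hvX hvw P hP h0 h1 h3 h4 h5
    obtain ⟨m, hm⟩ := (exists_iterate_eleven P).resolve_right (by simp [h0, h1, h3, h4, h5])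
    refine hN (fixLine_of_power hσ h2 hv (fun e => h1 (φ.injective ?_)) hvw
      (hc6 ▸ rf_single_mem hM j hc) hvX (m := m) ?_)
    · rw [map_one, hP]; linear_combination -e
    · rw [← hP]
      have e1 : Function.Semiconj (Prod.map φ φ)
          (fun c : ZMod 11 × ZMod 11 => (c.1 * (4 * P - 2) + c.2, -c.1))
          (fun c : F × F => (c.1 * (4 * φ P - 2) + c.2, -c.1)) := fun c => by
        simp [Prod.map, map_ofNat]
      have := (e1.iterate_right m).eq (0, 1)
      rw [hm] at this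
      simpa [Prod.map] using this.symm
  have hRu : rf σ u (-1) ∈ X := hc6 ▸ hR c hc
  -- every norm is bad
  have hbad : ∀ i, u i ≠ 0 → ∃ P : ZMod 11, φ P = u i * σ (u i) ∧
      (P = 1 ∨ P = 3 ∨ P = 4 ∨ P = 5) := by
    intro i hi
    obtain ⟨P, hP⟩ := hsurj (u i * σ (u i)) (by simp [fxd, hσ.invol, mul_comm])
    refine ⟨P, hP, ?_⟩
    by_contra h
    push Not at h
    refine key u i hu hRu (by have := wt_rest u i; omega) P hP (fun e => ?_) h.1 h.2.1 h.2.2.1 h.2.2.2
    rw [e, map_zero] at hP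
    exact mul_ne_zero hi ((map_ne_zero σ).mpr hi) hP.symm
  set S := univ.filter fun i => u i ≠ 0
  have hS : 5 ≤ S.card := hw
  obtain ⟨i, k, l, hi, hk, hl, hik, hil, hkl⟩ := two_lt_card_iff.mp (show 2 < S.card by omega)
  simp only [S, mem_filter, mem_univ, true_and] at hi hk hl
  obtain ⟨ν, hν⟩ := exists_norm hσ (show σ (2⁻¹ : F) = 2⁻¹ by simp [map_ofNat])
  -- choose the angle
  set P' : F → F := fun δ => nv σ (σ (u i)) (-σ (u k)) δ with hP'
  set bad : Finset F := ({0, 1, 3, 4, 5} : Finset (ZMod 11)).image φ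
  obtain ⟨δ, hδ, hδk, hgood⟩ : ∃ δ ∈ cir σ, δ ≠ -u k / u i ∧
      2 * (u l * σ (u l)) * P' δ ∉ bad := by
    by_contra h
    push Not at h
    have hs2 : 11 ≤ ((cir σ).erase (-u k / u i)).card := by
      have := pred_card_le_card_erase (s := cir σ) (a := -u k / u i)
      rw [card_cir hσ, h11] at this
      omega
    have h1 := card_le_two_mul_image (σ := σ) ((map_ne_zero σ).mpr hi)
      (neg_ne_zero.mpr ((map_ne_zero σ).mpr hk)) (s := (cir σ).erase (-u k / u i)) (erase_subset _ _)
    have hne : (2 : F) * (u l * σ (u l)) ≠ 0 := mul_ne_zero h2 (mul_ne_zero hl ((map_ne_zero σ).mpr hl))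
    have h3 : ((((cir σ).erase (-u k / u i)).image P').image fun x => 2 * (u l * σ (u l)) * x) ⊆
        bad := fun x hx => by
      obtain ⟨y, hy, rfl⟩ := mem_image.mp hx
      obtain ⟨δ, hδ, rfl⟩ := mem_image.mp hy
      exact h δ (mem_of_mem_erase hδ) (ne_of_mem_erase hδ)
    have h4 := card_le_card h3
    rw [card_image_of_injective _ (mul_right_injective₀ hne)] at h4
    have h5 : bad.card ≤ 5 := card_image_le.trans card_le_five
    change 11 ≤ _ at hs2
    change _ ≤ 2 * (((cir σ).erase (-u k / u i)).image P').card at h1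
    omega
  -- the reflected vector
  set r : ι → F := ν • (e[i] - δ • e[k]) with hr
  have hr1 : hb σ r r = 1 := by
    simp only [hr, hb_smul_left, hb_smul_right, hb_sub_left, hb_sub_right, hb_single_left]
    simp [hik, hik.symm]
    field_simp at hν ⊢
    linear_combination hν + (ν * σ ν) * mem_cir.mp hδ
  have hrX : rf σ r (-1) ∈ X := by
    set d : ι → F := Function.update (Function.update 1 i (σ δ)) k δ with hd
    have hσδ : σ δ ∈ cir σ := by rw [← inv_eq_of_mem_cir hδ]; exact inv_mem_cir hδ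
    have hdc : ∀ m, d m ∈ cir σ := fun m => by
      by_cases h1 : m = k
      · subst h1; simpa [hd] using hδ
      by_cases h2 : m = i
      · subst h2; simpa [hd, h1] using hσδ
      · simp [hd, h1, h2, one_mem_cir]
    have he : rf σ r (-1) = mo (Equiv.swap i k) d := by
      refine gl_ext fun x => funext fun m => ?_
      rw [ap_rf hr1 hm1, ap_mo fun m => ne_zero_of_mem_cir (hdc m), Equiv.symm_swap]
      simp only [hr, hb_smul_right, hb_sub_right, hb_single_right, map_one, mul_one]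
      field_simp at hν
      have hδ' := mem_cir.mp hδ
      by_cases h1 : m = k
      · subst h1
        simp [hd, hik.symm]
        linear_combination (δ * x i - δ * σ δ * x m) * hν - x m * hδ'
      by_cases h2 : m = i
      · subst h2
        simp [hd, hik]
        linear_combination (σ δ * x k - x m) * hν
      · simp [hd, h1, h2, Equiv.swap_apply_of_ne_of_ne h2 h1]
    rw [he]
    refine hM _ _ hdc c hc ?_
    rw [hc6, hd, Finset.prod_update_of_mem (mem_univ k),
      Finset.prod_update_of_mem (show i ∈ univ \ {k} by simp [hik]), Equiv.Perm.sign_swap hik]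
    simp
    linear_combination -(mem_cir.mp hδ)
  set v := ap (rf σ u (-1)) r with hv
  have hvX : rf σ v (-1) ∈ X := by
    rw [hv, ← conj_rf (hX hRu) hr1 hm1]
    exact mul_mem (mul_mem hRu hrX) (inv_mem hRu)
  have hA : hb σ r u = ν * (σ (u i) - δ * σ (u k)) := by
    simp [hr, hb_smul_left, hb_sub_left, hb_single_left]
  have hvm : ∀ m, v m = r m - 2 * hb σ r u * u m := fun m => by
    rw [hv, ap_rf hu hm1]; simp; ring
  have hrl : r l = 0 := by simp [hr, hil.symm, hkl.symm]
  have hvl : v l * σ (v l) = 2 * (u l * σ (u l)) * P' δ := by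
    rw [hvm, hrl, hA]
    simp only [hP', nv, map_sub, map_zero, map_mul, map_add, map_neg, map_ofNat, hσ.invol]
    field_simp at hν
    linear_combination (2 * (u l * σ (u l)) * (σ (u i) - δ * σ (u k)) *
      (u i - σ δ * u k)) * hν
  obtain ⟨P, hP⟩ := hsurj (v l * σ (v l)) (by simp [fxd, hσ.invol, mul_comm])
  have hP5 : P ∉ ({0, 1, 3, 4, 5} : Finset (ZMod 11)) := fun h => hgood
    (by rw [← hvl, ← hP]; exact mem_image_of_mem φ h)
  simp only [mem_insert, mem_singleton, not_or] at hP5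
  obtain ⟨h0, h1, h3, h4, h5⟩ := hP5
  refine key v l ((hb_ap (hX hRu) r r).trans hr1) hvX ?_ P hP h0 h1 h3 h4 h5
  -- enough non-zero coordinates
  have hA0 : hb σ r u ≠ 0 := fun e => by
    apply h0
    apply φ.injective
    rw [hP, map_zero, hvm, hrl, e]
    simp
  have hmain : (S \ {i, k, l}) ⊆ univ.filter fun m => rest v l m ≠ 0 := fun m hm => by
    simp [S] at hm
    rw [mem_filter, rest_ne hm.2.2.2, hvm, show r m = 0 by simp [hr, hm.2.1, hm.2.2.1]]
    simp [h2, hA0, hm.1]
  have hik' : v i ≠ 0 ∨ v k ≠ 0 := by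
    by_contra h
    push Not at h
    refine hδk ?_
    have e1 := h.1
    have e2 := h.2
    rw [hvm, hr] at e1 e2
    simp [hik, hik.symm] at e1 e2
    have hν0 : ν ≠ 0 := fun e => by simp [e] at hν; exact h2 hν.symm
    rw [← hr, hA] at e1 e2
    field_simp
    refine mul_left_cancel₀ hν0 ?_
    linear_combination (u k) * e1 - (u i) * e2
  obtain ⟨m₀, hm₀, hm₀'⟩ : ∃ m₀ ∈ ({i, k} : Finset ι), rest v l m₀ ≠ 0 := by
    rcases hik' with h | h
    · exact ⟨i, by simp, by rwa [rest_ne hil]⟩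
    · exact ⟨k, by simp, by rwa [rest_ne hkl]⟩
  have hsub : insert m₀ (S \ {i, k, l}) ⊆ univ.filter fun m => rest v l m ≠ 0 :=
    insert_subset (by simp [hm₀']) hmain
  have hc1 := card_le_card hsub
  rw [card_insert_of_notMem (by
    intro h
    simp at h hm₀
    rcases hm₀ with rfl | rfl <;> simp at h)] at hc1
  have hc2 := le_card_sdiff ({i, k, l} : Finset ι) S
  have hc3 : ({i, k, l} : Finset ι).card ≤ 3 := card_le_three
  change _ ≤ wt (rest v l) at hc1
  omega

omit hq hn hX hM hg₀ hg₀n hN in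
/-- A generator of the norm-one elements. -/
lemma exists_generator : ∃ c ∈ cir σ, orderOf c = q + 1 := by
  obtain ⟨u, hu⟩ := IsCyclic.exists_ofOrder_eq_natCard (α := Fˣ)
  rw [hσ.card_units] at hu
  have h2 := hσ.two_le
  have ho : orderOf ((u : F) ^ (q - 1)) = q + 1 := by
    rw [orderOf_pow_of_dvd (by omega) (by rw [orderOf_units, hu]; exact Dvd.intro _ rfl),
      orderOf_units, hu, Nat.mul_div_cancel_left _ (by omega)]
  refine ⟨_, ?_, ho⟩
  rw [mem_cir, hσ.pow, ← pow_succ', ← ho]
  exact pow_orderOf_eq_one _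

/-- Only the field with twenty-five elements remains. -/
theorem false_of_ne_five (h5 : q ≠ 5) : False := by
  by_cases h : ∃ t ∈ cir σ, (t ^ 6) ^ 2 ≠ (1 : F)
  · exact false_of_order hσ hq hn hX hM hg₀ hg₀n hN h
  push Not at h
  obtain ⟨c, hc, ho⟩ := exists_generator hσ
  have hd : q + 1 ∣ 12 := ho ▸ orderOf_dvd_of_pow_eq_one (by
    rw [show (12 : ℕ) = 6 * 2 from rfl, pow_mul]; exact h c hc)
  have hle := Nat.le_of_dvd (by norm_num) hd
  rcases (show q = 3 ∨ q = 11 by
    have : q < 12 := by omega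
    interval_cases q <;> first | omega | (revert hd; norm_num)) with e | e
  · exact false_of_three hσ hq hn hX hM hg₀ hg₀n hN e
  · exact false_of_eleven hσ hq hn hX hM hg₀ hg₀n hN e

end CfsgLib.SUSix
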