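import Cfsg.Agent.Lib.Geometric.UnitaryMonomial.Circle

/-!
A group of unitary `2 × 2` matrices containing `diag (μ, 1)` with `μ² ≠ 1` and a non-monomial
element with the same kind of spectrum contains a scalar other than one.
-/

set_option autoImplicit false

namespace CfsgLib.SUSix

open Matrix CfsgLib.UMon

variable {F : Type*} [Field F] [Fintype F] [DecidableEq F] {σ : F ≃+* F} {q : ℕ}

local notation "M₂" => Matrix (Fin 2) (Fin 2) F

omit [Fintype F] [DecidableEq F] in
/-- A matrix commuting with a non-scalar matrix is a scalar plus a multiple of it. -/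
lemma eq_of_commute {z A : M₂} (hz : z 0 1 ≠ 0 ∨ z 1 0 ≠ 0 ∨ z 0 0 ≠ z 1 1)
    (hA : A * z = z * A) :
    ∃ a b : F, A = a • (1 : M₂) + b • z := by
  have a00 := congrFun (congrFun hA 0) 0
  have a01 := congrFun (congrFun hA 0) 1
  have a10 := congrFun (congrFun hA 1) 0
  simp [Matrix.mul_apply, Fin.sum_univ_two] at a00 a01 a10
  suffices h : ∃ b, A 0 1 = b * z 0 1 ∧ A 1 0 = b * z 1 0 ∧ A 0 0 - A 1 1 = b * (z 0 0 - z 1 1) by
    obtain ⟨b, h1, h2, h3⟩ := h
    refine ⟨A 0 0 - b * z 0 0, b, ?_⟩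
    ext i j
    fin_cases i <;> fin_cases j <;> simp [h1, h2]
    linear_combination -h3
  rcases hz with h | h | h
  · refine ⟨A 0 1 / z 0 1, by field_simp, ?_, ?_⟩ <;> field_simp
    · linear_combination -a00
    · linear_combination a01
  · refine ⟨A 1 0 / z 1 0, ?_, by field_simp, ?_⟩ <;> field_simp
    · linear_combination a00
    · linear_combination -a10
  · have h' := sub_ne_zero.mpr h
    refine ⟨(A 0 0 - A 1 1) / (z 0 0 - z 1 1), ?_, ?_, by field_simp⟩ <;> field_simp
    · linear_combination -a01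
    · linear_combination a10

omit [Fintype F] [DecidableEq F] in
/-- Two matrices commuting with a non-scalar matrix commute. -/
lemma commute_of_commute {z A B : M₂} (hz : z 0 1 ≠ 0 ∨ z 1 0 ≠ 0 ∨ z 0 0 ≠ z 1 1)
    (hA : A * z = z * A) (hB : B * z = z * B) : A * B = B * A := by
  obtain ⟨a, b, rfl⟩ := eq_of_commute hz hA
  obtain ⟨c, d, rfl⟩ := eq_of_commute hz hB
  simp only [add_mul, mul_add, smul_mul_assoc, mul_smul_comm, one_mul, mul_one, smul_smul]
  module

/-- A finite group of odd order in which centralisers are abelian and conjugates commuting with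
an element are that element or its inverse is abelian. -/
lemma commutative_of_inverting {K : Type*} [Group K] [Finite K] (hodd : Odd (Nat.card K))
    (hC : ∀ z : K, z ≠ 1 → ∀ x y, Commute x z → Commute y z → Commute x y)
    (hN : ∀ z n : K, z ≠ 1 → Commute (n * z * n⁻¹) z → n * z * n⁻¹ = z ∨ n * z * n⁻¹ = z⁻¹)
    (x y : K) : Commute x y := by
  classical
  have : Fintype K := Fintype.ofFinite K
  by_cases hx : x = 1
  · subst hx; exact Commute.one_left y
  -- an element normalising a centraliser lies in it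
  have hself : ∀ z n : K, z ≠ 1 → Commute (n * z * n⁻¹) z → Commute n z := by
    intro z n hz h
    have h2 : Commute (n ^ 2) z := by
      rcases hN z n hz h with e | e
      · have : Commute n z := mul_inv_eq_iff_eq_mul.mp e
        exact this.pow_left 2
      · refine mul_inv_eq_iff_eq_mul.mp ?_
        calc n ^ 2 * z * (n ^ 2)⁻¹ = n * (n * z * n⁻¹) * n⁻¹ := by
              rw [pow_two, _root_.mul_inv_rev]; simp only [mul_assoc]
          _ = (n * z * n⁻¹)⁻¹ := by
              nth_rewrite 1 [e]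
              simp only [_root_.mul_inv_rev, inv_inv, mul_assoc]
          _ = z := by rw [e, inv_inv]
    obtain ⟨m, hm⟩ := hodd
    have hn : n = (n ^ 2) ^ (m + 1) := by
      rw [← pow_mul, show 2 * (m + 1) = Nat.card K + 1 by omega, pow_succ, pow_card_eq_one',
        one_mul]
    rw [hn]
    exact h2.pow_left _
  -- the conjugates of the non-trivial part of one centraliser
  set S : K → Finset K := fun z => Finset.univ.filter fun w => w ≠ 1 ∧
    ∃ g, Commute (g * w * g⁻¹) z with hS
  have hsize : ∀ z : K, z ≠ 1 → 2 * Fintype.card K ≤ 3 * (S z).card ∧ ((S z).card = Fintype.card K - 1 → ∀ w, Commute w z) := by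
    intro z hz
    set C := Subgroup.centralizer ({z} : Set K) with hCdef
    have hmem : ∀ w, w ∈ C ↔ Commute w z := fun w =>
      Subgroup.mem_centralizer_singleton_iff
    set D : Finset K := Finset.univ.filter fun w => w ∈ C ∧ w ≠ 1 with hD
    set f : (K ⧸ C) × D → K := fun p => p.1.out * (p.2 : K) * p.1.out⁻¹ with hf
    have hinj : Function.Injective f := by
      rintro ⟨a, b⟩ ⟨a', b'⟩ e
      obtain ⟨hb1, hb2⟩ : (b : K) ∈ C ∧ (b : K) ≠ 1 := (Finset.mem_filter.mp b.2).2
      obtain ⟨hb1', hb2'⟩ : (b' : K) ∈ C ∧ (b' : K) ≠ 1 := (Finset.mem_filter.mp b'.2).2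
      set k := a'.out⁻¹ * a.out with hk
      have hkb : k * (b : K) * k⁻¹ = b' := by
        simp only [hf] at e
        rw [hk, show a'.out⁻¹ * a.out * (b : K) * (a'.out⁻¹ * a.out)⁻¹ =
          a'.out⁻¹ * (a.out * (b : K) * a.out⁻¹) * a'.out by group, e]
        group
      have h1 : Commute (k * z * k⁻¹) (k * (b : K) * k⁻¹) :=
        Commute.map (((hmem _).mp hb1).symm) (MulAut.conj k).toMonoidHom
      rw [hkb] at h1
      have h2 := hC b' hb2' _ _ h1 ((hmem _).mp hb1').symm
      have h3 : k ∈ C := (hmem k).mpr (hself z k hz h2)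
      have haa : a' = a := by
        rw [← QuotientGroup.out_eq' a', ← QuotientGroup.out_eq' a, QuotientGroup.eq]
        exact h3
      subst haa
      refine Prod.ext rfl (Subtype.ext ?_)
      simpa [hf] using e
    have hdec : Fintype.card K = Fintype.card (K ⧸ C) * Fintype.card C := by
      simp only [← Nat.card_eq_fintype_card]
      exact Subgroup.card_eq_card_quotient_mul_card_subgroup C
    have hDc : D.card + 1 = Fintype.card C := by
      have e : D = (Finset.univ.filter fun w => w ∈ C).erase 1 := by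
        ext w; simp [hD, and_comm]
      rw [e, Finset.card_erase_of_mem (by simp [one_mem]), Fintype.card_subtype]
      have : 0 < (Finset.univ.filter fun w => w ∈ C).card :=
        Finset.card_pos.mpr ⟨1, by simp [one_mem]⟩
      omega
    have hlow : Fintype.card (K ⧸ C) * D.card ≤ (S z).card := by
      rw [← Fintype.card_coe D, ← Fintype.card_prod,
        ← Finset.card_univ, ← Finset.card_image_of_injective _ hinj]
      refine Finset.card_le_card fun w hw => ?_
      obtain ⟨⟨a, b⟩, -, rfl⟩ := Finset.mem_image.mp hw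
      obtain ⟨hb1, hb2⟩ : (b : K) ∈ C ∧ (b : K) ≠ 1 := (Finset.mem_filter.mp b.2).2
      refine Finset.mem_filter.mpr ⟨Finset.mem_univ _, fun e => hb2 ?_, a.out⁻¹, ?_⟩
      · simpa [hf] using e
      · convert (hmem _).mp hb1 using 1
        simp only [hf]; group
    have h3 : 3 ≤ Fintype.card C := by
      have hd : Fintype.card C ∣ Fintype.card K := Dvd.intro_left _ hdec.symm
      obtain ⟨m, hm⟩ := hodd
      rw [Nat.card_eq_fintype_card] at hm
      have h1 : 1 < Fintype.card C := Fintype.one_lt_card_iff.mpr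
        ⟨⟨z, (hmem z).mpr (Commute.refl z)⟩, 1, fun e => hz (congrArg Subtype.val e)⟩
      rcases Nat.lt_or_ge 2 (Fintype.card C) with h | h
      · omega
      · obtain ⟨r, hr⟩ := hd
        have : Fintype.card C = 2 := by omega
        rw [this] at hr
        omega
    have hle : (S z).card ≤ Fintype.card (K ⧸ C) * D.card := by
      rw [← Fintype.card_coe D, ← Fintype.card_prod,
        ← Finset.card_univ, ← Finset.card_image_of_injective _ hinj]
      refine Finset.card_le_card fun w hw => ?_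
      obtain ⟨-, hw1, g, hg⟩ := Finset.mem_filter.mp hw
      set a : K ⧸ C := QuotientGroup.mk g⁻¹
      obtain ⟨c, hc⟩ := QuotientGroup.mk_out_eq_mul C g⁻¹
      have hgw : g * w * g⁻¹ ≠ 1 := by simpa using hw1
      have hcc := (hC z hz _ _ ((hmem _).mp c.2) hg)
      refine Finset.mem_image.mpr ⟨(a, ⟨g * w * g⁻¹, ?_⟩), Finset.mem_univ _, ?_⟩
      · simp only [hD, Finset.mem_filter, Finset.mem_univ, true_and]
        exact ⟨(hmem _).mpr hg, hgw⟩
      · simp only [hf, a, hc]
        rw [mul_assoc g⁻¹ (c : K), hcc.eq]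
        group
    refine ⟨?_, fun hfull w => ?_⟩
    · nlinarith
    · have hi : Fintype.card (K ⧸ C) = 1 := by
        have hpos : 0 < Fintype.card (K ⧸ C) := Fintype.card_pos
        have hK : 0 < Fintype.card K := Fintype.card_pos
        nlinarith [Nat.sub_add_cancel hK]
      refine (hmem w).mp ?_
      have := Fintype.card_le_one_iff_subsingleton.mp hi.le
      have hw := (QuotientGroup.eq (s := C)).mp (Subsingleton.elim ((1 : K) : K ⧸ C) (w : K ⧸ C))
      simpa using hw
  obtain ⟨h2, hall⟩ := hsize x hx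
  refine (hall ?_ y).symm
  have hSsub : S x ⊆ Finset.univ.erase 1 := fun w hw =>
    Finset.mem_erase.mpr ⟨(Finset.mem_filter.mp hw).2.1, Finset.mem_univ _⟩
  have hcard : (Finset.univ.erase (1 : K)).card = Fintype.card K - 1 := by
    rw [Finset.card_erase_of_mem (Finset.mem_univ _), Finset.card_univ]
  rw [← hcard]
  refine le_antisymm (Finset.card_le_card hSsub) (Finset.card_le_card fun w hw => ?_)
  have hw1 := Finset.ne_of_mem_erase hw
  obtain ⟨hw2, -⟩ := hsize w hw1
  have hwsub : S w ⊆ Finset.univ.erase 1 := fun v hv =>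
    Finset.mem_erase.mpr ⟨(Finset.mem_filter.mp hv).2.1, Finset.mem_univ _⟩
  obtain ⟨v, hv⟩ : (S x ∩ S w).Nonempty := by
    rw [← Finset.card_pos]
    have h4 := Finset.card_union_add_card_inter (S x) (S w)
    have h5 := Finset.card_le_card (Finset.union_subset hSsub hwsub)
    rw [hcard] at h5
    have hK : 0 < Fintype.card K := Fintype.card_pos
    omega
  obtain ⟨hv1, hv2⟩ := Finset.mem_inter.mp hv
  obtain ⟨-, hv0, a, ha⟩ := Finset.mem_filter.mp hv1
  obtain ⟨-, -, b, hb⟩ := Finset.mem_filter.mp hv2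
  refine Finset.mem_filter.mpr ⟨Finset.mem_univ _, hw1, a * b⁻¹, ?_⟩
  have hv' : a * v * a⁻¹ ≠ 1 := by simpa using hv0
  have h6 : Commute (a * b⁻¹ * w * (a * b⁻¹)⁻¹) (a * v * a⁻¹) := by
    have := Commute.map hb (MulAut.conj (a * b⁻¹)).toMonoidHom
    simp only [MulEquiv.coe_toMonoidHom, MulAut.conj_apply] at this
    have e : a * b⁻¹ * (b * v * b⁻¹) * (a * b⁻¹)⁻¹ = a * v * a⁻¹ := by group
    rw [e] at this
    exact this.symm
  exact hC _ hv' _ _ h6 ha.symm

/-- The matrix preserves the form with Gram matrix `diag (1, s)`. -/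
structure IsUn (σ : F ≃+* F) (s : F) (A : M₂) : Prop where
  h00 : A 0 0 * σ (A 0 0) + s * (A 1 0 * σ (A 1 0)) = 1
  h01 : A 0 0 * σ (A 0 1) + s * (A 1 0 * σ (A 1 1)) = 0
  h11 : A 0 1 * σ (A 0 1) + s * (A 1 1 * σ (A 1 1)) = s

section Unitary

variable {s : F} {G : Subgroup (GL (Fin 2) F)}

omit [DecidableEq F] in
lemma IsUn.flip (hσ : IsConj σ q) (hs : σ s = s) {A : M₂} (h : IsUn σ s A) :
    A 0 1 * σ (A 0 0) + s * (A 1 1 * σ (A 1 0)) = 0 := by
  have := congrArg σ h.h01
  simp only [map_add, map_mul, map_zero, hσ.invol, hs] at this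
  linear_combination this

omit [DecidableEq F] in
/-- The shape of a matrix of determinant one. -/
lemma IsUn.shape (hσ : IsConj σ q) (hs : σ s = s) {A : M₂} (h : IsUn σ s A) (hd : A.det = 1) :
    A 1 1 = σ (A 0 0) ∧ σ (A 0 1) = -(s * A 1 0) := by
  rw [Matrix.det_fin_two] at hd
  constructor
  · linear_combination σ (A 0 0) * hd - A 1 1 * h.h00 + A 1 0 * h.flip hσ hs
  · linear_combination -σ (A 0 1) * hd + A 1 1 * h.h01 - A 1 0 * h.h11

omit [DecidableEq F] in
/-- An element fixing an isotropic line has a power which is its determinant. -/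
lemma scalar_of_fixes_isotropic (hσ : IsConj σ q) (hs : σ s = s) (hs0 : s ≠ 0) {A : GL (Fin 2) F}
    (hA : IsUn σ s A) {v : Fin 2 → F} (hv : v ≠ 0)
    (hiso : v 0 * σ (v 0) + s * (v 1 * σ (v 1)) = 0) {lam : F}
    (hAv : (A : M₂) *ᵥ v = lam • v) :
    ((A ^ ((q - 1) * q) : GL (Fin 2) F) : M₂) = (A : M₂).det • (1 : M₂) := by
  set a := (A : M₂) 0 0 with ha
  set c := (A : M₂) 1 0 with hc
  have hv1 : v 1 ≠ 0 := by
    intro h
    apply hv
    rw [h, zero_mul, mul_zero, add_zero] at hiso
    have h0 : v 0 = 0 := (mul_eq_zero.mp hiso).elim id (fun e => (map_eq_zero σ).mp e)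
    funext i; fin_cases i <;> simp [h, h0]
  have hσv1 : σ (v 1) ≠ 0 := (map_ne_zero σ).mpr hv1
  have hv0 : v 0 ≠ 0 := by
    intro h
    rw [h, zero_mul, zero_add] at hiso
    exact mul_ne_zero hs0 (mul_ne_zero hv1 hσv1) hiso
  have e0 := congrFun hAv 0
  have e1 := congrFun hAv 1
  simp [Matrix.mulVec, dotProduct, Fin.sum_univ_two] at e0 e1
  set ν := a - v 0 * c / v 1 with hν
  -- the second eigenvalue
  have hlν : lam * σ ν = 1 := by
    have h1 : lam * v 0 * σ a + s * (lam * v 1 * σ c) = v 0 := by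
      linear_combination (-σ a) * e0 - (s * σ c) * e1 + v 0 * hA.h00 + v 1 * hA.flip hσ hs
    rw [hν, map_sub, map_div₀, map_mul]
    field_simp
    refine mul_left_cancel₀ hv0 ?_
    linear_combination σ (v 1) * h1 - lam * σ c * hiso
  have hlam : lam ≠ 0 := fun e => by rw [e, zero_mul] at hlν; exact zero_ne_one hlν
  have hσlam : σ lam * ν = 1 := by
    have := congrArg σ hlν
    rwa [map_mul, hσ.invol, map_one] at this
  have hdet : (A : M₂).det = lam * ν := by
    rw [Matrix.det_fin_two, hν, ← ha, ← hc]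
    field_simp
    linear_combination a * e1 - c * e0
  -- triangular powers
  set w : Fin 2 → F := ![1, 0] with hw
  have hAw : (A : M₂) *ᵥ w = ν • w + (c / v 1) • v := by
    funext i
    fin_cases i <;> simp [hw, hν, ha, hc, Matrix.mulVec, dotProduct, Fin.sum_univ_two] <;>
      field_simp <;> ring
  have hpow : ∀ n : ℕ, ((A ^ n : GL (Fin 2) F) : M₂) *ᵥ v = lam ^ n • v ∧
      ∃ γ : F, ((A ^ n : GL (Fin 2) F) : M₂) *ᵥ w = ν ^ n • w + γ • v := by
    intro n
    induction n with
    | zero => exact ⟨by simp, 0, by simp⟩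
    | succ n ih =>
      obtain ⟨h1, γ, h2⟩ := ih
      constructor
      · rw [pow_succ', Units.val_mul, ← Matrix.mulVec_mulVec, h1, Matrix.mulVec_smul, hAv,
          smul_smul, pow_succ]
      · refine ⟨ν ^ n * (c / v 1) + γ * lam, ?_⟩
        rw [pow_succ', Units.val_mul, ← Matrix.mulVec_mulVec, h2, Matrix.mulVec_add,
          Matrix.mulVec_smul, Matrix.mulVec_smul, hAw, hAv, pow_succ]
        module
  obtain ⟨hBv, γ, hBw⟩ := hpow (q - 1)
  set ρ := lam ^ (q - 1) with hρ
  have h2 := hσ.two_le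
  have hcardpow : lam ^ ((q - 1) * (q + 1)) = 1 := by
    have h3 := FiniteField.pow_card_sub_one_eq_one lam hlam
    rw [hσ.card] at h3
    rw [← h3, mul_comm]
    congr 1
    rw [show q ^ 2 - 1 = (q + 1) * (q - 1) by rw [← Nat.sq_sub_sq, one_pow]]
  have hνρ : ν ^ (q - 1) = ρ := by
    have h4 : (lam ^ q) ^ (q - 1) * ν ^ (q - 1) = 1 := by
      rw [← mul_pow, ← hσ.pow, hσlam, one_pow]
    refine mul_left_cancel₀ (pow_ne_zero (q - 1) (pow_ne_zero q hlam)) ?_
    rw [h4, hρ, ← pow_mul, ← pow_add, ← hcardpow]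
    congr 1
    ring
  rw [hνρ] at hBw
  have hB : ∀ n : ℕ, (((A ^ (q - 1)) ^ n : GL (Fin 2) F) : M₂) *ᵥ v = ρ ^ n • v ∧
      (((A ^ (q - 1)) ^ n : GL (Fin 2) F) : M₂) *ᵥ w =
        ρ ^ n • w + ((n : F) * ρ ^ (n - 1) * γ) • v := by
    intro n
    induction n with
    | zero => exact ⟨by simp, by simp⟩
    | succ n ih =>
      obtain ⟨h1, h3⟩ := ih
      constructor
      · rw [pow_succ', Units.val_mul, ← Matrix.mulVec_mulVec, h1, Matrix.mulVec_smul, hBv,
          smul_smul, pow_succ]
      · rw [pow_succ', Units.val_mul, ← Matrix.mulVec_mulVec, h3, Matrix.mulVec_add,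
          Matrix.mulVec_smul, Matrix.mulVec_smul, hBw, hBv]
        cases n with
        | zero => simp
        | succ n =>
          simp only [Nat.add_sub_cancel, Nat.cast_add, Nat.cast_one, pow_succ]
          module
  have hρdet : ρ ^ q = (A : M₂).det := by
    rw [hdet]
    refine mul_right_cancel₀ (show σ lam ≠ 0 from (map_ne_zero σ).mpr hlam) ?_
    rw [mul_assoc, mul_comm ν, hσlam, mul_one, hσ.pow, hρ, ← pow_mul, ← pow_add]
    have e : (q - 1) * q + q = (q - 1) * (q + 1) + 1 := by
      obtain ⟨r, rfl⟩ : ∃ r, q = r + 1 := ⟨q - 1, by omega⟩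
      simp only [Nat.add_sub_cancel]; ring
    rw [e, pow_succ, hcardpow, one_mul]
  have hq0 : ((q : ℕ) : F) = 0 := by
    have h4 := FiniteField.cast_card_eq_zero F
    rw [hσ.card, Nat.cast_pow] at h4
    exact pow_eq_zero_iff two_ne_zero |>.mp h4
  obtain ⟨h1, h3⟩ := hB q
  rw [← pow_mul, hq0, zero_mul, zero_mul, zero_smul, add_zero] at h3
  rw [← pow_mul] at h1
  rw [hρdet] at h1 h3
  set B := ((A ^ ((q - 1) * q) : GL (Fin 2) F) : M₂)
  have h30 := congrFun h3 0
  have h31 := congrFun h3 1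
  have h10 := congrFun h1 0
  have h11 := congrFun h1 1
  simp [hw, Matrix.mulVec, dotProduct, Fin.sum_univ_two] at h30 h31 h10 h11
  ext i j
  fin_cases i <;> fin_cases j <;> simp [h30, h31]
  · exact (mul_eq_zero.mp (show B 0 1 * v 1 = 0 by linear_combination h10 - v 0 * h30))
      |>.resolve_right hv1
  · exact mul_right_cancel₀ hv1 (by linear_combination h11 - v 0 * h31)

omit [Fintype F] [DecidableEq F] in
lemma inv_eq_adjugate {A : GL (Fin 2) F} (hd : (A : M₂).det = 1) :
    ((A⁻¹ : GL (Fin 2) F) : M₂) = !![(A : M₂) 1 1, -(A : M₂) 0 1; -(A : M₂) 1 0, (A : M₂) 0 0] := by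
  rw [Matrix.coe_units_inv, Matrix.inv_def, hd, Ring.inverse_one, one_smul,
    Matrix.adjugate_fin_two]

omit [Fintype F] [DecidableEq F] in
lemma eq_one_or_neg_one_of_scalar {A : M₂} (h01 : A 0 1 = 0) (h10 : A 1 0 = 0)
    (h : A 0 0 = A 1 1) (hd : A.det = 1) : A = 1 ∨ A = -1 := by
  rw [Matrix.det_fin_two, h01, h10, ← h, mul_zero, sub_zero] at hd
  rcases mul_self_eq_one_iff.mp hd with e | e
  · exact Or.inl (by ext i j; fin_cases i <;> fin_cases j <;> simp [h01, h10, ← h, e])
  · exact Or.inr (by ext i j; fin_cases i <;> fin_cases j <;> simp [h01, h10, ← h, e])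

/-- An abelian normal subgroup of determinant one forces monomial generators. -/
lemma monomial_of_normalised (hσ : IsConj σ q) (hs : σ s = s) (hs0 : s ≠ 0) {z R zD zR : M₂}
    (hzU : IsUn σ s z) (hzd : z.det = 1) (hz1 : z ≠ 1) (hz2 : z ≠ -1)
    {μ : F} (hμ0 : μ ≠ 0) (hμ2 : μ ^ 2 ≠ 1)
    (hD : zD * !![μ, 0; 0, 1] = !![μ, 0; 0, 1] * z) (hDc : zD * z = z * zD)
    (hR : zR * R = R * z) (hRc : zR * z = z * zR) (hRtr : R 0 0 + R 1 1 ≠ 0) (hRd : R.det ≠ 0) :
    R 0 1 = 0 ∧ R 1 0 = 0 := by
  obtain ⟨-, hsh⟩ := hzU.shape hσ hs hzd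
  have d00 := congrFun (congrFun hD 0) 0
  have d01 := congrFun (congrFun hD 0) 1
  have d10 := congrFun (congrFun hD 1) 0
  have c00 := congrFun (congrFun hDc 0) 0
  simp [Matrix.mul_apply, Fin.sum_univ_two] at d00 d01 d10 c00
  have h00 : zD 0 0 = z 0 0 := mul_right_cancel₀ hμ0 (by linear_combination d00)
  have hbc : z 0 1 * z 1 0 = 0 := by
    refine (mul_eq_zero.mp (show (μ ^ 2 - 1) * (z 0 1 * z 1 0) = 0 from ?_)).resolve_left
      (sub_ne_zero.mpr hμ2)
    rw [h00, d01] at c00
    linear_combination μ * c00 + z 0 1 * d10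
  have hbc' : z 0 1 = 0 ∧ z 1 0 = 0 := by
    rcases mul_eq_zero.mp hbc with h | h
    · refine ⟨h, ?_⟩
      rw [h, map_zero, eq_comm, neg_eq_zero] at hsh
      exact (mul_eq_zero.mp hsh).resolve_left hs0
    · refine ⟨?_, h⟩
      rw [h, mul_zero, neg_zero] at hsh
      exact (map_eq_zero σ).mp hsh
  have hne : z 0 0 ≠ z 1 1 := fun e => by
    rcases eq_one_or_neg_one_of_scalar hbc'.1 hbc'.2 e hzd with h | h
    exacts [hz1 h, hz2 h]
  have r01 := congrFun (congrFun hRc 0) 1
  have r10 := congrFun (congrFun hRc 1) 0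
  have e00 := congrFun (congrFun hR 0) 0
  have e01 := congrFun (congrFun hR 0) 1
  have e10 := congrFun (congrFun hR 1) 0
  have e11 := congrFun (congrFun hR 1) 1
  simp [Matrix.mul_apply, Fin.sum_univ_two, hbc'.1, hbc'.2] at r01 r10 e00 e01 e10 e11
  have hne' := sub_ne_zero.mpr hne
  have hw01 : zR 0 1 = 0 := (mul_eq_zero.mp
    (show zR 0 1 * (z 0 0 - z 1 1) = 0 by linear_combination -r01)).resolve_right hne'
  have hw10 : zR 1 0 = 0 := (mul_eq_zero.mp
    (show zR 1 0 * (z 0 0 - z 1 1) = 0 by linear_combination r10)).resolve_right hne'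
  rw [hw01, zero_mul, add_zero] at e00 e01
  rw [hw10, zero_mul, zero_add] at e10 e11
  rw [Matrix.det_fin_two] at hRd
  by_cases hA : R 0 0 = 0
  · have hB : R 1 1 ≠ 0 := fun h => hRtr (by rw [hA, h, add_zero])
    have h1 : zR 1 1 = z 1 1 := mul_right_cancel₀ hB (by linear_combination e11)
    have h10 : R 1 0 = 0 := by
      refine (mul_eq_zero.mp (show (z 0 0 - z 1 1) * R 1 0 = 0 from ?_)).resolve_left hne'
      linear_combination R 1 0 * h1 - e10
    simp [hA, h10] at hRd
  · have h0 : zR 0 0 = z 0 0 := mul_right_cancel₀ hA (by linear_combination e00)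
    have h01 : R 0 1 = 0 := by
      refine (mul_eq_zero.mp (show (z 0 0 - z 1 1) * R 0 1 = 0 from ?_)).resolve_left hne'
      linear_combination e01 - R 0 1 * h0
    refine ⟨h01, ?_⟩
    have hB : R 1 1 ≠ 0 := fun h => by simp [h, h01] at hRd
    have h1 : zR 1 1 = z 1 1 := mul_right_cancel₀ hB (by linear_combination e11)
    refine (mul_eq_zero.mp (show (z 0 0 - z 1 1) * R 1 0 = 0 from ?_)).resolve_left hne'
    linear_combination R 1 0 * h1 - e10

omit [DecidableEq F] in
/-- A nontrivial element of determinant one fixes only isotropic vectors. -/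
lemma isotropic_of_fixed (hσ : IsConj σ q) (hs : σ s = s) (hs0 : s ≠ 0) {A : M₂} (hA : IsUn σ s A)
    (hd : A.det = 1) (hA1 : A ≠ 1) {v : Fin 2 → F} (hv : v ≠ 0) (hAv : A *ᵥ v = v) :
    v 0 * σ (v 0) + s * (v 1 * σ (v 1)) = 0 := by
  obtain ⟨h11, h01⟩ := hA.shape hσ hs hd
  have e0 := congrFun hAv 0
  have e1 := congrFun hAv 1
  simp [Matrix.mulVec, dotProduct, Fin.sum_univ_two] at e0 e1
  have e1' := congrArg σ e1
  rw [map_add, map_mul, map_mul, h11, hσ.invol] at e1'
  have h01' : A 0 1 = -(s * σ (A 1 0)) := by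
    have := congrArg σ h01
    rwa [hσ.invol, map_neg, map_mul, hs] at this
  rw [h01'] at e0
  refine (mul_eq_zero.mp (show (A 0 0 - 1) *
    (v 0 * σ (v 0) + s * (v 1 * σ (v 1))) = 0 from ?_)).resolve_left fun h => hA1 ?_
  · linear_combination σ (v 0) * e0 + (s * v 1) * e1'
  · have ha : A 0 0 = 1 := sub_eq_zero.mp h
    rw [ha, map_one] at h11
    rw [ha] at e0
    rw [h11] at e1
    have hc : A 1 0 = 0 := by
      by_cases h0 : v 0 = 0
      · have h1 : v 1 ≠ 0 := fun e => hv (funext fun i => by fin_cases i <;> simp [h0, e])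
        have : s * σ (A 1 0) * v 1 = 0 := by linear_combination -e0
        simpa [hs0, h1] using this
      · exact (mul_eq_zero.mp (show A 1 0 * v 0 = 0 by linear_combination e1)).resolve_right h0
    rw [hc, map_zero, mul_zero, neg_zero] at h01'
    ext i j
    fin_cases i <;> fin_cases j <;> simp [ha, h11, hc, h01']

omit [Fintype F] [DecidableEq F] in
/-- A matrix with a double eigenvalue `e = ±1` has order dividing twice the characteristic. -/
lemma pow_two_mul_char_eq_one {p : ℕ} [CharP F p] {A : M₂} {e : F} (he : e ^ 2 = 1)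
    (hd : A.det = 1) (htr : A 0 0 + A 1 1 = 2 * e) : A ^ (2 * p) = 1 := by
  rw [Matrix.det_fin_two] at hd
  set N := A - e • (1 : M₂) with hN
  have hNN : N * N = 0 := by
    ext i j
    fin_cases i <;> fin_cases j <;> simp [hN, Matrix.mul_apply, Fin.sum_univ_two]
    · linear_combination A 0 0 * htr - hd + he
    · linear_combination A 0 1 * htr
    · linear_combination A 1 0 * htr
    · linear_combination A 1 1 * htr - hd + he
  have hA : A = e • (1 : M₂) + N := by rw [hN]; abel
  have hpow : ∀ n : ℕ, A ^ n = e ^ n • (1 : M₂) + ((n : F) * e ^ (n - 1)) • N := by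
    intro n
    induction n with
    | zero => simp
    | succ n ih =>
      rw [pow_succ, ih, hA]
      simp only [add_mul, mul_add, smul_mul_assoc, mul_smul_comm, one_mul, mul_one, smul_smul,
        hNN, smul_zero, add_zero]
      cases n with
      | zero => simp
      | succ n =>
        simp only [Nat.add_sub_cancel, Nat.cast_add, Nat.cast_one, pow_succ]
        module
  rw [hpow, pow_mul, he, one_pow, one_smul, Nat.cast_mul, CharP.cast_eq_zero F p]
  simp

/-- **A scalar in a group generated by two reflections of the same determinant.** -/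
theorem exists_scalar_mem (hσ : IsConj σ q) (hs : σ s = s) (hs0 : s ≠ 0)
    (G : Subgroup (GL (Fin 2) F)) (hG : ∀ A ∈ G, IsUn σ s (A : M₂)) {μ : F} (hμ2 : μ ^ 2 ≠ 1)
    {D R : GL (Fin 2) F} (hDG : D ∈ G) (hRG : R ∈ G) (hDm : (D : M₂) = !![μ, 0; 0, 1])
    (hRtr : (R : M₂) 0 0 + (R : M₂) 1 1 ≠ 0)
    (hoff : ¬((R : M₂) 0 1 = 0 ∧ (R : M₂) 1 0 = 0)) :
    ∃ A ∈ G, ∃ c : F, c ≠ 1 ∧ (A : M₂) = c • (1 : M₂) := by
  classical
  have hDd : (D : M₂).det = μ := by rw [hDm, Matrix.det_fin_two_of]; ring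
  have hμ0 : μ ≠ 0 := hDd ▸ (Matrix.GeneralLinearGroup.det D).ne_zero
  have hμ1 : μ ≠ 1 := fun e => hμ2 (by rw [e, one_pow])
  obtain ⟨p, hchar⟩ := CharP.exists F
  have hp : p.Prime := CharP.char_is_prime F p
  have : Fact p.Prime := ⟨hp⟩
  set N : Subgroup G := ((Matrix.GeneralLinearGroup.det).comp G.subtype).ker with hNdef
  have hNmem : ∀ x : G, x ∈ N ↔ ((x : GL (Fin 2) F) : M₂).det = 1 := fun x => by
    rw [hNdef, MonoidHom.mem_ker, ← Units.val_inj]; rfl
  have hval : ∀ x : N, ((x : G) : GL (Fin 2) F).val.det = 1 := fun x => (hNmem _).mp x.2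
  by_cases hpdvd : p ∣ Nat.card N
  · -- a Sylow subgroup fixes an isotropic line
    let P : Sylow p N := default
    have hP1 : (P : Subgroup N) ≠ ⊥ := P.ne_bot_of_dvd_card hpdvd
    let f : (P : Subgroup N) →* GL (Fin 2) F :=
      G.subtype.comp (N.subtype.comp (P : Subgroup N).subtype)
    letI : MulAction (P : Subgroup N) (Fin 2 → F) :=
      { smul := fun x v => (f x : M₂) *ᵥ v
        one_smul := fun v => by
          show (f 1 : M₂) *ᵥ v = v
          rw [map_one, Units.val_one, Matrix.one_mulVec]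
        mul_smul := fun x y v => by
          show (f (x * y) : M₂) *ᵥ v = (f x : M₂) *ᵥ ((f y : M₂) *ᵥ v)
          rw [map_mul, Units.val_mul, Matrix.mulVec_mulVec] }
    have hdiv : p ∣ Nat.card (Fin 2 → F) := by
      rw [Nat.card_eq_fintype_card, Fintype.card_fun, Fintype.card_fin]
      refine Dvd.dvd.pow ?_ two_ne_zero
      rw [← CharP.cast_eq_zero_iff F p]
      exact FiniteField.cast_card_eq_zero F
    have h0 : (0 : Fin 2 → F) ∈ MulAction.fixedPoints (P : Subgroup N) (Fin 2 → F) :=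
      fun x => Matrix.mulVec_zero _
    obtain ⟨v, hv, hv0⟩ :=
      P.2.exists_fixed_point_of_prime_dvd_card_of_fixed_point (Fin 2 → F) hdiv h0
    have hv0' : v ≠ 0 := fun e => hv0 e.symm
    obtain ⟨⟨x, hxP⟩, hx1⟩ := (Subgroup.ne_bot_iff_exists_ne_one).mp hP1
    have hxne : (((x : G) : GL (Fin 2) F) : M₂) ≠ 1 := fun e => hx1 (by
      apply Subtype.ext; apply Subtype.ext; apply Subtype.ext; exact Units.ext e)
    have hiso := isotropic_of_fixed hσ hs hs0 (hG _ (x : G).2) (hval x) hxne hv0' (hv ⟨x, hxP⟩)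
    -- the Frattini argument
    have hDtop : (⟨D, hDG⟩ : G) ∈ (⊤ : Subgroup G) := trivial
    rw [← Sylow.normalizer_sup_eq_top P, Subgroup.mem_sup_of_normal_right] at hDtop
    obtain ⟨n, hn, k, hk, hnk⟩ := hDtop
    have hnd : ((n : GL (Fin 2) F) : M₂).det = μ := by
      have e := congrArg (fun g : G => ((g : GL (Fin 2) F) : M₂).det) hnk
      simp only [Subgroup.coe_mul, Units.val_mul, Matrix.det_mul, (hNmem k).mp hk, mul_one] at e
      exact e.trans hDd
    set w := ((n : GL (Fin 2) F) : M₂) *ᵥ v with hw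
    -- it preserves the fixed line
    have hxw : (((x : G) : GL (Fin 2) F) : M₂) *ᵥ w = w := by
      have hy := (Subgroup.mem_normalizer_iff'.mp hn ((n⁻¹ * (x : G)))).mpr
        (by simpa [mul_assoc] using Subgroup.mem_map_of_mem N.subtype hxP)
      obtain ⟨y, hyP, hye⟩ := hy
      have e := hv ⟨y, hyP⟩
      change (((N.subtype y : G) : GL (Fin 2) F) : M₂) *ᵥ v = v at e
      rw [hye] at e
      have e' := congrArg (((n : GL (Fin 2) F) : M₂) *ᵥ ·) e
      simp only [Matrix.mulVec_mulVec, ← Units.val_mul, ← Subgroup.coe_mul] at e'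
      rw [show n * (n⁻¹ * (x : G) * n) = (x : G) * n by group, Subgroup.coe_mul,
        Units.val_mul, ← Matrix.mulVec_mulVec] at e'
      exact e'
    have hv1 : v 1 ≠ 0 := by
      intro h
      apply hv0'
      rw [h, zero_mul, mul_zero, add_zero] at hiso
      have h0 : v 0 = 0 := (mul_eq_zero.mp hiso).elim id (fun e => (map_eq_zero σ).mp e)
      funext i; fin_cases i <;> simp [h, h0]
    have hline : w = (w 1 / v 1) • v := by
      set u := w - (w 1 / v 1) • v with hu
      by_contra hne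
      have hu0 : u ≠ 0 := sub_ne_zero.mpr hne
      have hxu : (((x : G) : GL (Fin 2) F) : M₂) *ᵥ u = u := by
        rw [hu, Matrix.mulVec_sub, Matrix.mulVec_smul, hxw]
        exact congrArg (w - ·) (congrArg ((w 1 / v 1) • ·) (hv ⟨x, hxP⟩))
      have hu1 : u 1 = 0 := by simp [hu, div_mul_cancel₀ _ hv1]
      have hiu := isotropic_of_fixed hσ hs hs0 (hG _ (x : G).2) (hval x) hxne hu0 hxu
      rw [hu1, zero_mul, mul_zero, add_zero] at hiu
      have h0 : u 0 = 0 := (mul_eq_zero.mp hiu).elim id (fun e => (map_eq_zero σ).mp e)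
      exact hu0 (funext fun i => by fin_cases i <;> simp [hu1, h0])
    refine ⟨_, G.pow_mem n.2 ((q - 1) * q), μ, hμ1, ?_⟩
    rw [scalar_of_fixes_isotropic hσ hs hs0 (hG _ n.2) hv0' hiso hline, hnd]
  by_cases heven : 2 ∣ Nat.card N
  · -- the involution is a scalar
    obtain ⟨x, hx⟩ := exists_prime_orderOf_dvd_card' 2 heven
    have h2 : (2 : F) ≠ 0 := fun e => hpdvd (by
      have : p ∣ 2 := (CharP.cast_eq_zero_iff F p 2).mp (by exact_mod_cast e)
      rwa [(Nat.prime_dvd_prime_iff_eq hp Nat.prime_two).mp this])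
    have hxx : ((x : G) : GL (Fin 2) F)⁻¹ = ((x : G) : GL (Fin 2) F) := by
      have e : x * x = 1 := (pow_two x).symm.trans (orderOf_dvd_iff_pow_eq_one.mp hx.dvd)
      rw [inv_eq_iff_mul_eq_one, ← Subgroup.coe_mul, ← Subgroup.coe_mul, e]
      rfl
    have hA := inv_eq_adjugate (hval x)
    rw [hxx] at hA
    set A := (((x : G) : GL (Fin 2) F) : M₂)
    have a00 := congrFun (congrFun hA 0) 0
    have a01 := congrFun (congrFun hA 0) 1
    have a10 := congrFun (congrFun hA 1) 0
    simp at a00 a01 a10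
    have h01 : A 0 1 = 0 :=
      (mul_eq_zero.mp (show 2 * A 0 1 = 0 by linear_combination a01)).resolve_left h2
    have h10 : A 1 0 = 0 :=
      (mul_eq_zero.mp (show 2 * A 1 0 = 0 by linear_combination a10)).resolve_left h2
    refine ⟨_, (x : G).2, -1, fun e => h2 (by linear_combination -e), ?_⟩
    rw [neg_one_smul]
    refine (eq_one_or_neg_one_of_scalar h01 h10 a00 (hval x)).resolve_left fun e => ?_
    have : x = 1 := Subtype.ext (Subtype.ext (Units.ext e))
    rw [this, orderOf_one] at hx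
    omega
  -- otherwise the derived part is abelian, and the generators would be monomial
  exfalso
  have hodd : Odd (Nat.card N) := Nat.odd_iff.mpr (by omega)
  have hneg : ∀ x : N, (((x : G) : GL (Fin 2) F) : M₂) = -1 → x = 1 := by
    intro x e
    have h1 : x ^ 2 = 1 := by
      apply Subtype.ext; apply Subtype.ext; apply Units.ext
      simp [e, pow_two]
    refine orderOf_eq_one_iff.mp ?_
    have hd := orderOf_dvd_of_pow_eq_one h1
    rcases (Nat.dvd_prime Nat.prime_two).mp hd with h | h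
    · exact h
    · exact absurd (h.symm.dvd.trans (orderOf_dvd_natCard x)) heven
  have hns : ∀ x : N, x ≠ 1 → (((x : G) : GL (Fin 2) F) : M₂) 0 1 ≠ 0 ∨
      (((x : G) : GL (Fin 2) F) : M₂) 1 0 ≠ 0 ∨
      (((x : G) : GL (Fin 2) F) : M₂) 0 0 ≠ (((x : G) : GL (Fin 2) F) : M₂) 1 1 := by
    intro x hx
    by_contra h
    push Not at h
    rcases eq_one_or_neg_one_of_scalar h.1 h.2.1 h.2.2 (hval x) with e | e
    · exact hx (Subtype.ext (Subtype.ext (Units.ext e)))
    · exact hx (hneg x e)
  have hcomm : ∀ x y : N, Commute x y ↔ (((x : G) : GL (Fin 2) F) : M₂) *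
      (((y : G) : GL (Fin 2) F) : M₂) = (((y : G) : GL (Fin 2) F) : M₂) *
      (((x : G) : GL (Fin 2) F) : M₂) := fun x y => by
    constructor
    · intro h; exact congrArg (fun g : N => (((g : G) : GL (Fin 2) F) : M₂)) h
    · intro h; exact Subtype.ext (Subtype.ext (Units.ext h))
  have hC : ∀ z : N, z ≠ 1 → ∀ x y, Commute x z → Commute y z → Commute x y :=
    fun z hz x y hx hy => (hcomm x y).mpr
      (commute_of_commute (hns z hz) ((hcomm x z).mp hx) ((hcomm y z).mp hy))
  have hN' : ∀ z n : N, z ≠ 1 → Commute (n * z * n⁻¹) z →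
      n * z * n⁻¹ = z ∨ n * z * n⁻¹ = z⁻¹ := by
    intro z n hz h
    set z' := n * z * n⁻¹ with hz'
    have hnz : (((z' : G) : GL (Fin 2) F) : M₂) * (((n : G) : GL (Fin 2) F) : M₂) =
        (((n : G) : GL (Fin 2) F) : M₂) * (((z : G) : GL (Fin 2) F) : M₂) := by
      simp only [← Units.val_mul, ← Subgroup.coe_mul]
      rw [hz', inv_mul_cancel_right]
    set A := (((z' : G) : GL (Fin 2) F) : M₂) with hA
    set B := (((z : G) : GL (Fin 2) F) : M₂) with hB
    set C := (((n : G) : GL (Fin 2) F) : M₂) with hCn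
    obtain ⟨a, b, hab⟩ := eq_of_commute (hns z hz) ((hcomm z' z).mp h)
    rw [← hA, ← hB] at hab
    have hBd : B.det = 1 := hval z
    have hAd : A.det = 1 := hval z'
    have htr : A 0 0 + A 1 1 = B 0 0 + B 1 1 := by
      have hCd : IsUnit C.det := by rw [hCn, hval n]; exact isUnit_one
      have e : A = C * B * C⁻¹ := by
        rw [← hnz, Matrix.mul_nonsing_inv_cancel_right _ _ hCd]
      have := Matrix.trace_mul_cycle C B C⁻¹
      rw [← e, Matrix.nonsing_inv_mul _ hCd, Matrix.one_mul] at this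
      simpa [Matrix.trace_fin_two] using this
    rw [Matrix.det_fin_two] at hBd hAd
    have e00 : A 0 0 = a + b * B 0 0 := by simp [hab]
    have e01 : A 0 1 = b * B 0 1 := by simp [hab]
    have e10 : A 1 0 = b * B 1 0 := by simp [hab]
    have e11 : A 1 1 = a + b * B 1 1 := by simp [hab]
    rw [e00, e11] at htr
    rw [e00, e01, e10, e11] at hAd
    set t := B 0 0 + B 1 1 with ht
    have h4 : (b ^ 2 - 1) * (t ^ 2 - 4) = 0 := by
      rw [ht] at htr ⊢
      linear_combination -4 * hAd + (2 * a + (1 + b) * t) * htr + 4 * b ^ 2 * hBd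
    have hinv : (((z : G) : GL (Fin 2) F)⁻¹ : GL (Fin 2) F).val = t • (1 : M₂) - B := by
      rw [inv_eq_adjugate (hval z)]
      ext i j
      fin_cases i <;> fin_cases j <;> simp [ht, hB]
    have hz'z : z' = z ↔ A = B := ⟨fun e => by rw [hA, e], fun e =>
      Subtype.ext (Subtype.ext (Units.ext e))⟩
    have hz'i : z' = z⁻¹ ↔ A = t • (1 : M₂) - B := by
      rw [← hinv]
      exact ⟨fun e => by rw [hA, e]; rfl, fun e => Subtype.ext (Subtype.ext (Units.ext e))⟩
    have hzp : ∀ e : F, e ^ 2 = 1 → t ≠ 2 * e := by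
      intro e he hte
      have hpow := pow_two_mul_char_eq_one (p := p) he (hval z) hte
      have h1 : z ^ (2 * p) = 1 := by
        apply Subtype.ext; apply Subtype.ext; apply Units.ext
        simpa [hB] using hpow
      refine hz (orderOf_eq_one_iff.mp ?_)
      have hco : Nat.Coprime (Nat.card N) (2 * p) :=
        Nat.Coprime.mul_right ((Nat.prime_two.coprime_iff_not_dvd.mpr heven).symm)
          ((hp.coprime_iff_not_dvd.mpr hpdvd).symm)
      exact Nat.eq_one_of_dvd_coprimes hco (orderOf_dvd_natCard z) (orderOf_dvd_of_pow_eq_one h1)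
    have ht4 : t ^ 2 - 4 ≠ 0 := by
      intro e
      rcases mul_eq_zero.mp (show (t - 2 * 1) * (t - 2 * -1) = 0 by linear_combination e) with h | h
      · exact hzp 1 (one_pow 2) (sub_eq_zero.mp h)
      · exact hzp (-1) (by ring) (sub_eq_zero.mp h)
    have hneg' : ∀ w : N, A = -(((w : G) : GL (Fin 2) F) : M₂) → z' = w := by
      intro w hw
      have e : z' * w⁻¹ = 1 := hneg _ (by
        rw [Subgroup.coe_mul, Subgroup.coe_mul, Units.val_mul, ← hA, hw, neg_mul, ← Units.val_mul,
          ← Subgroup.coe_mul, ← Subgroup.coe_mul, mul_inv_cancel]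
        rfl)
      exact mul_inv_eq_one.mp e
    rcases mul_self_eq_one_iff.mp (show b * b = 1 by
      linear_combination (mul_eq_zero.mp h4).resolve_right ht4) with hb | hb
    · subst hb
      rcases mul_eq_zero.mp (show a * (a + t) = 0 by linear_combination hAd - hBd) with ha | ha
      · exact Or.inl (hz'z.mpr (by simp [hab, ha]))
      · refine Or.inr (hneg' z⁻¹ ?_)
        rw [Subgroup.coe_inv, Subgroup.coe_inv, hinv, hab, eq_neg_of_add_eq_zero_left ha]
        module
    · subst hb
      rcases mul_eq_zero.mp (show a * (a - t) = 0 by linear_combination hAd - hBd) with ha | ha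
      · exact Or.inl (hneg' z (by simp [hab, ha, hB]))
      · refine Or.inr (hz'i.mpr ?_)
        rw [hab, sub_eq_zero.mp ha]
        module
  have habel := commutative_of_inverting hodd hC hN'
  have hconj : ∀ (g : G) (z : G), z ∈ N → ∀ k : N, (k : G) = g * z * g⁻¹ →
      (((k : G) : GL (Fin 2) F) : M₂) * ((g : GL (Fin 2) F) : M₂) =
        ((g : GL (Fin 2) F) : M₂) * ((z : GL (Fin 2) F) : M₂) := by
    intro g z _ k hk
    rw [hk]
    simp only [← Units.val_mul, ← Subgroup.coe_mul, inv_mul_cancel_right]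
  by_cases hbot : ∀ z : N, z = 1
  · -- the generators commute
    set d : G := ⟨D, hDG⟩
    set r : G := ⟨R, hRG⟩
    have hmem : d * r * d⁻¹ * r⁻¹ ∈ N := by
      rw [hNdef, MonoidHom.mem_ker]
      simp only [map_mul, map_inv]
      exact mul_inv_eq_one.mpr (mul_inv_eq_iff_eq_mul.mpr (mul_comm _ _))
    have e1 : d * r = r * d := by
      have := congrArg Subtype.val (hbot ⟨_, hmem⟩)
      exact mul_inv_eq_iff_eq_mul.mp (mul_inv_eq_one.mp this)
    have e2 := congrArg (fun g : G => ((g : GL (Fin 2) F) : M₂)) e1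
    simp only [Subgroup.coe_mul, Units.val_mul] at e2
    rw [show ((d : GL (Fin 2) F) : M₂) = !![μ, 0; 0, 1] from hDm] at e2
    have e01 := congrFun (congrFun e2 0) 1
    have e10 := congrFun (congrFun e2 1) 0
    simp [Matrix.mul_apply, Fin.sum_univ_two, d, r] at e01 e10
    apply hoff
    have hμ' := sub_ne_zero.mpr hμ1
    exact ⟨(mul_eq_zero.mp (show (μ - 1) * (R : M₂) 0 1 = 0 by
      linear_combination e01)).resolve_left hμ',
      (mul_eq_zero.mp (show (μ - 1) * (R : M₂) 1 0 = 0 by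
      linear_combination -e10)).resolve_left hμ'⟩
  push Not at hbot
  obtain ⟨z, hz⟩ := hbot
  have hNn : ∀ g : G, g * (z : G) * g⁻¹ ∈ N := fun g => Subgroup.Normal.conj_mem inferInstance _ z.2 g
  set zD : N := ⟨_, hNn ⟨D, hDG⟩⟩
  set zR : N := ⟨_, hNn ⟨R, hRG⟩⟩
  refine hoff (monomial_of_normalised hσ hs hs0 (hG _ (z : G).2) (hval z)
    (fun e => hz (Subtype.ext (Subtype.ext (Units.ext e)))) (fun e => hz (hneg z e)) hμ0 hμ2
    (zD := (((zD : G) : GL (Fin 2) F) : M₂)) ?_ ((hcomm zD z).mp (habel zD z))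
    (zR := (((zR : G) : GL (Fin 2) F) : M₂)) ?_ ((hcomm zR z).mp (habel zR z)) hRtr ?_)
  · rw [← hDm]; exact hconj ⟨D, hDG⟩ z z.2 zD rfl
  · exact hconj ⟨R, hRG⟩ z z.2 zR rfl
  · exact (Matrix.GeneralLinearGroup.det R).ne_zero

end Unitary

end CfsgLib.SUSix
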