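import Cfsg.Agent.Lib.Geometric.UnitaryMonomial.FixedLine
import Cfsg.Agent.Lib.Geometric.SUSix.Dihedral

/-!
An overgroup of the monomial group in dimension six: scalars, zeros in columns, and elements
acting on the plane of a coordinate vector and another unit vector.
-/

set_option autoImplicit false

namespace CfsgLib.SUSix

open CfsgLib.Geometric CfsgLib.UMon Finset Matrix

variable {ι : Type} [Fintype ι] [DecidableEq ι] {F : Type*} [Field F] [Fintype F] [DecidableEq F]
variable {σ : F ≃+* F} {q : ℕ}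

local notation "e[" j "]" => (Pi.single j (1 : _) : ι → _)

/-- The monomial isometries whose determinant is a sixth power lie in `X`. -/
def MonSix (σ : F ≃+* F) (X : Subgroup (GL ι F)) : Prop :=
  ∀ π (d : ι → F), (∀ i, d i ∈ cir σ) → ∀ t ∈ cir σ,
    t ^ 6 = ((Equiv.Perm.sign π : ℤ) : F) * ∏ i, d i → mo π d ∈ X

lemma MonSix.monIn {X : Subgroup (GL ι F)} (h : MonSix σ X) : MonIn σ X := fun π c hc hd => by
  have e : mon π c = mo π (fun i => (c i : F)) :=
    gl_ext fun x => funext fun m => by rw [ap_mon, ap_mo fun i => (c i).ne_zero]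
  rw [e]
  exact h π _ hc 1 one_mem_cir (by rw [one_pow, ← det_mon, hd])

omit [DecidableEq ι] in
lemma scal_mem_cir {c : F} (hc : c ∈ cir σ) : ∀ _ : ι, c ∈ cir σ := fun _ => hc

/-- The elements which become members of `X` after multiplication by a scalar. -/
def scaled (σ : F ≃+* F) (X : Subgroup (GL ι F)) : Subgroup (GL ι F) where
  carrier := {h | h ∈ GUs σ ∧ ∃ k ∈ X, ∃ c ∈ cir σ, ∀ x, ap k x = c • ap h x}
  one_mem' := ⟨one_mem _, 1, one_mem _, 1, one_mem_cir, fun x => by simp⟩
  mul_mem' := by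
    rintro a b ⟨ha, k, hk, c, hc, he⟩ ⟨hb', k', hk', c', hc', he'⟩
    exact ⟨mul_mem ha hb', k * k', mul_mem hk hk', c * c', mul_mem_cir hc hc', fun x => by
      rw [ap_mul, ap_mul, he', he, ap_smul, smul_smul]⟩
  inv_mem' := by
    rintro a ⟨ha, k, hk, c, hc, he⟩
    refine ⟨inv_mem ha, k⁻¹, inv_mem hk, c⁻¹, inv_mem_cir hc, fun x => ap_injective k ?_⟩
    rw [ap_ap_inv, ap_smul, he, ap_ap_inv, smul_smul, inv_mul_cancel₀ (ne_zero_of_mem_cir hc),
      one_smul]

variable {X : Subgroup (GL ι F)}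

lemma scaled_le : scaled σ X ≤ GUs σ := fun _ h => h.1

lemma le_scaled (hX : X ≤ GUs σ) : X ≤ scaled σ X := fun h hh =>
  ⟨hX hh, h, hh, 1, one_mem_cir, fun _ => (one_smul _ _).symm⟩

lemma scaled_monSix (hn : Fintype.card ι = 6) (hM : MonIn σ X) : MonSix σ (scaled σ X) := by
  intro π d hd t ht he
  have hd0 := fun i => ne_zero_of_mem_cir (hd i)
  have hd' : ∀ i, t⁻¹ * d i ∈ cir σ := fun i => mul_mem_cir (inv_mem_cir ht) (hd i)
  refine ⟨mo_mem_GUs hd, _, mo_mem (π := π) hM hd' ?_, t⁻¹, inv_mem_cir ht, fun x => funext fun m => ?_⟩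
  · rw [prod_mul_distrib, prod_const, card_univ, hn, mul_left_comm, ← he, ← mul_pow,
      inv_mul_cancel₀ (ne_zero_of_mem_cir ht), one_pow]
  · rw [ap_mo fun i => ne_zero_of_mem_cir (hd' i), Pi.smul_apply, ap_mo hd0, smul_eq_mul, mul_assoc]

lemma fixLine_of_scaled (h : FixLine (scaled σ X)) : FixLine X := by
  obtain ⟨z, ⟨-, k, hk, c, hc, he⟩, hzn, o, γ, hγ⟩ := h
  refine ⟨k, hk, fun hm => hzn ?_, o, c * γ, by rw [he, hγ, smul_smul]⟩
  obtain ⟨π, d, rfl⟩ := hm
  refine isMon_of_cols π fun j i hi => ?_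
  have h1 := congrFun (he e[j]) i
  rw [ap_mon_single, Pi.single_eq_of_ne hi, Pi.smul_apply, smul_eq_mul] at h1
  exact (mul_eq_zero.mp h1.symm).resolve_left (ne_zero_of_mem_cir hc)

section Steps

variable (hσ : IsConj σ q) (hn : Fintype.card ι = 6) (hX : X ≤ GUs σ) (hM : MonIn σ X)

include hM in
/-- A non-monomial element mapping three coordinates to three coordinates. -/
lemma fixLine_of_block (hσ : IsConj σ q) (hn : Fintype.card ι = 6) (hq : 3 ≤ q)
    (hX : X ≤ GUs σ) {g : GL ι F} (hg : g ∈ X) (hgn : ¬ IsMon g) {Z T : Finset ι} (hZ : Z.card = 3)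
    (hT : T.card = 3) (hsupp : ∀ j ∈ Z, ∀ i, i ∉ T → ap g e[j] i = 0) : FixLine X := by
  by_contra hN
  have hw : ∀ j, 2 ≤ wt (ap g e[j]) := fun j => by
    by_contra h
    exact hN (fixLine_of_col hM hg hgn (j := j) (by omega))
  -- the other columns avoid the target
  have hout : ∀ j, j ∉ Z → ∀ t ∈ T, ap g e[j] t = 0 := by
    set W := Submodule.span F (Set.range fun c : Z => (e[(c : ι)] : ι → F))
    set V := Submodule.span F (Set.range fun c : T => (e[(c : ι)] : ι → F))
    have hfr : ∀ S : Finset ι, Module.finrank F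
        (Submodule.span F (Set.range fun c : S => (e[(c : ι)] : ι → F))) = S.card := fun S => by
      rw [finrank_span_eq_card, Fintype.card_coe]
      have := (Pi.basisFun F ι).linearIndependent.comp (Subtype.val : S → ι) Subtype.val_injective
      simpa [Function.comp_def] using this
    have hle : W.map (apEquiv g).toLinearMap ≤ V := by
      rw [Submodule.map_span, Submodule.span_le]
      rintro _ ⟨_, ⟨c, rfl⟩, rfl⟩
      change ap g e[(c : ι)] ∈ V
      have e1 : ap g e[(c : ι)] = ∑ t : T, ap g e[(c : ι)] t • e[(t : ι)] := by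
        funext i
        rw [Finset.sum_apply]
        by_cases hi : i ∈ T
        · rw [Finset.sum_eq_single (⟨i, hi⟩ : T)]
          · simp
          · intro t _ ht
            have : i ≠ (t : ι) := fun e => ht (Subtype.ext e.symm)
            simp [this]
          · simp
        · rw [hsupp c c.2 i hi]
          refine (Finset.sum_eq_zero fun t _ => ?_).symm
          have : i ≠ (t : ι) := fun e => hi (e ▸ t.2)
          simp [this]
      rw [e1]
      exact Submodule.sum_mem _ fun t _ => Submodule.smul_mem _ _ (Submodule.subset_span ⟨t, rfl⟩)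
    have heq : W.map (apEquiv g).toLinearMap = V := Submodule.eq_of_le_of_finrank_eq hle (by
      rw [← (Submodule.equivMapOfInjective _ (apEquiv g).injective W).finrank_eq, hfr, hfr, hZ, hT])
    intro j hj t ht
    obtain ⟨x, hx, hxt⟩ : (e[t] : ι → F) ∈ W.map (apEquiv g).toLinearMap :=
      heq ▸ Submodule.subset_span ⟨⟨t, ht⟩, rfl⟩
    change ap g x = e[t] at hxt
    have hx0 : x j = 0 := by
      clear hxt
      induction hx using Submodule.span_induction with
      | mem y hy =>
        obtain ⟨c, rfl⟩ := hy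
        exact Pi.single_eq_of_ne (fun e => hj (by rw [e]; exact c.2)) 1
      | zero => rfl
      | add y z _ _ hy hz => simp [hy, hz]
      | smul a y _ hy => simp [hy]
    rw [show x = ap g⁻¹ e[t] by rw [← hxt, ap_inv_ap], ap_inv_entry (hX hg)] at hx0
    exact (map_eq_zero σ).mp hx0
  obtain ⟨a, b, b', hab, hab', hbb, rfl⟩ := card_eq_three.mp hT
  obtain ⟨α, β, γ, hα, hβ, hγ, hprod, hsq, hsq', hcube⟩ : ∃ α β γ : F, α ∈ cir σ ∧ β ∈ cir σ ∧
      γ ∈ cir σ ∧ α * β * γ = 1 ∧ α ^ 2 ≠ β ^ 2 ∧ α ^ 2 ≠ γ ^ 2 ∧ α ^ 3 ≠ γ ^ 3 := by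
    obtain ⟨c, hc, hc2⟩ : ∃ c ∈ cir σ, ∀ m, 0 < m → m < q + 1 → c ^ m ≠ 1 := by
      obtain ⟨u, hu⟩ := IsCyclic.exists_ofOrder_eq_natCard (α := Fˣ)
      rw [hσ.card_units] at hu
      have ho : orderOf ((u : F) ^ (q - 1)) = q + 1 := by
        rw [orderOf_pow_of_dvd (by omega) (by rw [orderOf_units, hu]; exact Dvd.intro _ rfl),
          orderOf_units, hu, Nat.mul_div_cancel_left _ (by omega)]
      refine ⟨_, ?_, fun m hm hm' => pow_ne_one_of_lt_orderOf hm.ne' (by rw [ho]; exact hm')⟩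
      rw [mem_cir, hσ.pow, ← pow_succ', ← ho]
      exact pow_orderOf_eq_one _
    have hc0 := ne_zero_of_mem_cir hc
    by_cases h4 : 4 ≤ q
    · refine ⟨c, c⁻¹, 1, hc, inv_mem_cir hc, one_mem_cir, by field_simp, fun e => ?_,
        by rw [one_pow]; exact hc2 2 (by omega) (by omega),
        by rw [one_pow]; exact hc2 3 (by omega) (by omega)⟩
      refine hc2 4 (by omega) (by omega) ?_
      field_simp at e
      linear_combination e
    · have hq3 : q = 3 := by omega
      have h4' : c ^ 4 = 1 := by have := pow_card_cir hσ hc; rwa [hq3] at this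
      refine ⟨c⁻¹ ^ 2, c, c, pow_mem_cir (inv_mem_cir hc) 2, hc, hc, by field_simp, ?_, ?_, ?_⟩
      all_goals
        intro e
        field_simp at e
      · exact hc2 2 (by omega) (by omega) (by linear_combination -e - c ^ 2 * h4')
      · exact hc2 2 (by omega) (by omega) (by linear_combination -e - c ^ 2 * h4')
      · exact hc2 1 (by omega) (by omega) (by
          linear_combination -e - (c ^ 5 + c) * h4')
  set d : ι → F := Function.update (Function.update (Function.update 1 a α) b β) b' γ with hd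
  have hda : d a = α := by simp [hd, hab, hab']
  have hdb : d b = β := by simp [hd, hbb]
  have hdb' : d b' = γ := by simp [hd]
  have hdo : ∀ i, i ∉ ({a, b, b'} : Finset ι) → d i = 1 := fun i hi => by
    simp at hi; simp [hd, hi.1, hi.2.1, hi.2.2]
  have hdc : ∀ i, d i ∈ cir σ := fun i => by
    by_cases hi : i ∈ ({a, b, b'} : Finset ι)
    · simp at hi
      rcases hi with rfl | rfl | rfl
      exacts [hda ▸ hα, hdb ▸ hβ, hdb' ▸ hγ]
    · rw [hdo i hi]; exact one_mem_cir
  have hd0 := fun i => ne_zero_of_mem_cir (hdc i)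
  set z := g⁻¹ * dia d * g with hz
  have hzX : z ∈ X := mul_mem (mul_mem (inv_mem hg) (dia_mem hM hdc (by
    rw [← Finset.prod_subset (subset_univ {a, b, b'}) fun i _ hi => hdo i hi,
      prod_insert (by simp [hab, hab']), prod_pair hbb, hda, hdb, hdb', ← hprod]
    ring))) hg
  have hfix : ∀ l, l ∉ Z → ap z e[l] = (e[l] : ι → F) := fun l hl => by
    apply ap_injective g
    rw [hz, ← ap_mul, show g * (g⁻¹ * dia d * g) = dia d * g by group, ap_mul]
    funext i
    rw [ap_dia hd0]
    by_cases hi : i ∈ ({a, b, b'} : Finset ι)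
    · rw [hout l hl i hi, mul_zero]
    · rw [hdo i hi, one_mul]
  obtain ⟨l, hl⟩ : ∃ l, l ∉ Z := by
    by_contra h
    push Not at h
    have := card_le_card (show (univ : Finset ι) ⊆ Z from fun i _ => h i)
    rw [card_univ, hn] at this
    omega
  obtain ⟨π, δ, hπ⟩ : IsMon z := by_contra fun h => hN ⟨z, hzX, h, l, 1, by rw [hfix l hl, one_smul]⟩
  -- the intertwining relation
  have hrel : ∀ j t, ap g e[π j] t * (δ (π j) : F) = d t * ap g e[j] t := by
    intro j t
    have h1 : ap g (ap z e[j]) = ap (dia d) (ap g e[j]) := by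
      rw [hz, ← ap_mul, show g * (g⁻¹ * dia d * g) = dia d * g by group, ap_mul]
    have h2 := congrFun h1 t
    rw [hπ, ap_mon_single, mul_one, ap_dia hd0,
      show (Pi.single (π j) (δ (π j) : F) : ι → F) = (δ (π j) : F) • e[π j] by
        rw [← Pi.single_smul', smul_eq_mul, mul_one], ap_smul, Pi.smul_apply, smul_eq_mul] at h2
    rw [mul_comm]; exact h2
  have hπZ : ∀ j ∈ Z, π j ∈ Z := fun j hj => by
    by_contra h
    have h1 := hfix (π j) h
    rw [hπ, ap_mon_single, mul_one] at h1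
    have h2 : π (π j) = π j := by
      by_contra h3
      have := congrFun h1 (π (π j))
      simp [h3] at this
    exact h (by rwa [π.injective h2])
  -- a column meeting row `a`
  obtain ⟨j, hj, hja⟩ : ∃ j ∈ Z, ap g e[j] a ≠ 0 := by
    by_contra h
    push Not at h
    refine ap_ne_zero g⁻¹ (x := (e[a] : ι → F)) (by simp) (funext fun j => ?_)
    rw [ap_inv_entry (hX hg)]
    by_cases hj : j ∈ Z
    · rw [h j hj, map_zero]; rfl
    · rw [hout j hj a (by simp), map_zero]; rfl
  obtain ⟨t, hta, htj⟩ : ∃ t, t ≠ a ∧ ap g e[j] t ≠ 0 := by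
    obtain ⟨x, hx, y, hy, hxy⟩ := one_lt_card.mp (show 1 < (univ.filter fun i => ap g e[j] i ≠ 0).card
      from hw j)
    simp only [mem_filter, mem_univ, true_and] at hx hy
    by_cases h : x = a
    · exact ⟨y, fun e => hxy (h.trans e.symm), hy⟩
    · exact ⟨x, h, hx⟩
  have htT : t = b ∨ t = b' := by
    by_contra h
    exact htj (hsupp j hj t (by simpa [hta] using h))
  have hd2 : d t ^ 2 ≠ α ^ 2 := by
    rcases htT with rfl | rfl
    · rw [hdb]; exact hsq.symm
    · rw [hdb']; exact hsq'.symm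
  by_cases h1 : π j = j
  · have ea := hrel j a
    have et := hrel j t
    rw [h1] at ea et
    refine hd2 ?_
    rw [← hda, mul_right_cancel₀ htj (et.symm.trans (mul_comm _ _)),
      mul_right_cancel₀ hja (ea.symm.trans (mul_comm _ _))]
  by_cases h2 : π (π j) = j
  · have key : ∀ i, ap g e[j] i ≠ 0 → d i ^ 2 = (δ j : F) * δ (π j) := fun i hi => by
      have e1 := hrel j i
      have e2 := hrel (π j) i
      rw [h2] at e2
      refine mul_right_cancel₀ hi ?_
      linear_combination (-d i) * e1 - (δ (π j) : F) * e2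
    exact hd2 (by rw [← hda, key t htj, key a hja])
  -- a three-cycle
  have hπ3 : π (π j) ≠ π j := fun e => h1 (π.injective e)
  have hZeq : Z = {j, π j, π (π j)} := (eq_of_subset_of_card_le (fun i hi => by
    simp at hi; rcases hi with rfl | rfl | rfl
    exacts [hj, hπZ _ hj, hπZ _ (hπZ _ hj)]) (by
    rw [hZ, card_eq_three.mpr ⟨_, _, _, Ne.symm h1, Ne.symm h2, hπ3.symm, rfl⟩])).symm
  have h3 : π (π (π j)) = j := by
    have := hπZ _ (hπZ _ (hπZ _ hj))
    rw [hZeq] at this
    simp at this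
    rcases this with h | h | h
    · exact h
    · exact absurd h h2
    · exact absurd h h1
  have key : ∀ i, ap g e[j] i ≠ 0 → d i ^ 3 = (δ j : F) * δ (π j) * δ (π (π j)) := fun i hi => by
    have e1 := hrel j i
    have e2 := hrel (π j) i
    have e3 := hrel (π (π j)) i
    rw [h3] at e3
    refine mul_right_cancel₀ hi ?_
    linear_combination (-d i ^ 2) * e1 - (d i * (δ (π j) : F)) * e2 -
      ((δ (π j) : F) * δ (π (π j))) * e3
  -- every row meets the cycle, hence `j`
  have hrow : ap g e[j] b' ≠ 0 := by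
    intro h0
    refine ap_ne_zero g⁻¹ (x := (e[b'] : ι → F)) (by simp) (funext fun i => ?_)
    rw [ap_inv_entry (hX hg)]
    by_cases hi : i ∈ Z
    · have e1 := hrel j b'
      rw [h0, mul_zero] at e1
      have e1' := (mul_eq_zero.mp e1).resolve_right (δ _).ne_zero
      have e2 := hrel (π j) b'
      rw [e1', mul_zero] at e2
      have e2' := (mul_eq_zero.mp e2).resolve_right (δ _).ne_zero
      rw [hZeq] at hi
      simp at hi
      rcases hi with rfl | rfl | rfl <;> simp [h0, e1', e2']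
    · rw [hout i hi b' (by simp), map_zero]; rfl
  exact hcube (by rw [← hda, ← hdb', key a hja, key b' hrow])

include hσ hn hX hM in
/-- Without fixed lines no column of a non-monomial element has two zeros. -/
lemma noTwoZeros (hq : 3 ≤ q) (hN : ¬ FixLine X) : NoTwoZeros X := by
  intro g hg hgn j a b hab ha hb
  obtain ⟨S, hS, hS0⟩ := pair_support hσ hM hN hg hab ha hb
  set f : ι → Finset ι := fun c => univ.filter fun i => ap g e[c] i ≠ 0 with hf
  have hf2 : ∀ c, 2 ≤ (f c).card := fun c => by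
    by_contra h
    exact hN (fixLine_of_col hM hg hgn (j := c) (by change (f c).card ≤ 1; omega))
  have hpair : ∀ c ∈ Sᶜ, ∀ d ∈ Sᶜ, c ≠ d → (f c ∪ f d).card ≤ 3 := by
    intro c hc d hd hcd
    obtain ⟨T, hT, hT0⟩ := pair_support hσ hM hN (inv_mem hg) hcd (hS0 c (mem_compl.mp hc)).1
      (hS0 d (mem_compl.mp hd)).1
    rw [inv_inv] at hT0
    refine le_trans (card_le_card fun i hi => by_contra fun hiT => ?_) hT
    simp only [hf, mem_union, mem_filter, mem_univ, true_and] at hi
    rcases hi with h | h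
    exacts [h (hT0 i hiT).1, h (hT0 i hiT).2]
  have horth : ∀ c d, c ≠ d → (f c ∩ f d).card ≠ 1 := by
    intro c d hcd h1
    obtain ⟨t, ht⟩ := card_eq_one.mp h1
    have h := hb_ap (hX hg) (e[c] : ι → F) (e[d] : ι → F)
    rw [CfsgLib.UMon.hb, Finset.sum_eq_single t ?_ (by simp)] at h
    · rw [hb_single_left, Pi.single_eq_of_ne hcd, map_zero, mul_zero] at h
      have htm : t ∈ f c ∩ f d := by rw [ht]; simp
      simp only [hf, mem_inter, mem_filter, mem_univ, true_and] at htm
      exact mul_ne_zero htm.1 ((map_ne_zero σ).mpr htm.2) h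
    · intro i _ hi
      by_contra h0
      obtain ⟨h0', h0''⟩ := mul_ne_zero_iff.mp h0
      have : i ∈ f c ∩ f d := by simp [hf, h0', (map_ne_zero σ).mp h0'']
      rw [ht, mem_singleton] at this
      exact hi this
  obtain ⟨Z, hZ, hZ3⟩ := exists_subset_card_eq (s := Sᶜ) (n := 3) (by rw [card_compl]; omega)
  obtain ⟨T, hT, hTZ⟩ : ∃ T : Finset ι, T.card ≤ 3 ∧ ∀ c ∈ Z, f c ⊆ T := by
    by_cases h3 : ∃ c₀ ∈ Z, 3 ≤ (f c₀).card
    · obtain ⟨c₀, hc₀, h3⟩ := h3
      obtain ⟨c₁, hc₁, hne⟩ := exists_mem_ne (show 1 < Z.card by omega) c₀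
      refine ⟨f c₀, le_trans (card_le_card subset_union_left)
        (hpair c₀ (hZ hc₀) c₁ (hZ hc₁) hne.symm), fun c hc => ?_⟩
      by_cases hcc : c = c₀
      · rw [hcc]
      have h := hpair c₀ (hZ hc₀) c (hZ hc) (Ne.symm hcc)
      have he : f c₀ = f c₀ ∪ f c := eq_of_subset_of_card_le subset_union_left (by omega)
      rw [he]; exact subset_union_right
    · push Not at h3
      obtain ⟨c₀, hc₀⟩ := card_pos.mp (show 0 < Z.card by omega)
      refine ⟨f c₀, (h3 c₀ hc₀).le, fun c hc => ?_⟩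
      by_cases hcc : c = c₀
      · rw [hcc]
      have h := hpair c₀ (hZ hc₀) c (hZ hc) (Ne.symm hcc)
      have h' := card_union_add_card_inter (f c₀) (f c)
      have := h3 c₀ hc₀
      have := h3 c hc
      have := hf2 c₀
      have := hf2 c
      have := horth c₀ c (Ne.symm hcc)
      have he : f c₀ ∩ f c = f c := eq_of_subset_of_card_le inter_subset_right (by omega)
      rw [← he]; exact inter_subset_left
  have hsupp : ∀ c ∈ Z, ∀ i, i ∉ T → ap g e[c] i = 0 := fun c hc i hi =>
    by_contra fun h0 => hi (hTZ c hc (by simp [hf, h0]))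
  have := card_le_of_supp (g := g) (Z := Z) (T := T) hsupp
  exact hN (fixLine_of_block hM hσ hn hq hX hg hgn hZ3 (by omega) hsupp)

end Steps

section Plane

variable {u : ι → F} {j : ι}

/-- The part of `u` perpendicular to `e j`. -/
def rest (u : ι → F) (j : ι) : ι → F := u - u j • e[j]

omit [Fintype ι] [Fintype F] [DecidableEq F] in
lemma rest_self : rest u j j = 0 := by simp [rest]

omit [Fintype ι] [Fintype F] [DecidableEq F] in
lemma rest_ne {i : ι} (h : i ≠ j) : rest u j i = u i := by simp [rest, h]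

omit [Fintype F] [DecidableEq F] in
lemma hb_rest (x : ι → F) : hb σ x (rest u j) = hb σ x u - σ (u j) * x j := by
  rw [rest, hb_sub_right, hb_smul_right, hb_single_right, map_one, mul_one]

omit [Fintype F] [DecidableEq F] in
lemma hb_rest_self (hu : hb σ u u = 1) : hb σ (rest u j) (rest u j) = 1 - u j * σ (u j) := by
  rw [hb_rest, rest, hb_sub_left, hb_smul_left, hb_single_left, hu]
  simp

/-- The vector with coordinates `v` in the plane of `e j` and `u`. -/
def emb (u : ι → F) (j : ι) (v : Fin 2 → F) : ι → F := v 0 • e[j] + v 1 • rest u j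

/-- `h` acts as `A` on the plane and trivially on its perpendicular. -/
def Lifts (σ : F ≃+* F) (u : ι → F) (j : ι) (A : Matrix (Fin 2) (Fin 2) F) (h : GL ι F) : Prop :=
  (∀ v, ap h (emb u j v) = emb u j (A *ᵥ v)) ∧
    ∀ x, x j = 0 → hb σ x (rest u j) = 0 → ap h x = x

/-- The matrices lifting to `X`. -/
def planeGroup (σ : F ≃+* F) (X : Subgroup (GL ι F)) (u : ι → F) (j : ι) :
    Subgroup (GL (Fin 2) F) where
  carrier := {A | ∃ h ∈ X, Lifts σ u j A h}
  one_mem' := ⟨1, one_mem X, fun v => by simp, fun x _ _ => ap_one x⟩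
  mul_mem' := by
    rintro A B ⟨h, hh, h1, h2⟩ ⟨k, hk, k1, k2⟩
    exact ⟨h * k, mul_mem hh hk, fun v => by
      rw [ap_mul, k1, h1, Units.val_mul, Matrix.mulVec_mulVec],
      fun x a b => by rw [ap_mul, k2 x a b, h2 x a b]⟩
  inv_mem' := by
    rintro A ⟨h, hh, h1, h2⟩
    refine ⟨h⁻¹, inv_mem hh, fun v => ap_injective h ?_, fun x a b => ap_injective h ?_⟩
    · rw [ap_ap_inv, h1, Matrix.mulVec_mulVec, ← Units.val_mul, mul_inv_cancel, Units.val_one,
        Matrix.one_mulVec]
    · rw [ap_ap_inv, h2 x a b]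

lemma planeGroup_isUn (hσ : IsConj σ q) (hX : X ≤ GUs σ) (hu : hb σ u u = 1)
    {A : GL (Fin 2) F} (hA : A ∈ planeGroup σ X u j) :
    IsUn σ (1 - u j * σ (u j)) (A : Matrix (Fin 2) (Fin 2) F) := by
  obtain ⟨h, hh, h1, -⟩ := hA
  set s := 1 - u j * σ (u j) with hs
  have key : ∀ v w, hb σ (emb u j v) (emb u j w) = v 0 * σ (w 0) + s * (v 1 * σ (w 1)) := by
    intro v w
    simp only [emb, hb_add_left, hb_add_right, hb_smul_left, hb_smul_right, hb_rest_self hu,
      hb_single_self, ← hs]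
    rw [hb_single_left, hb_single_right, rest_self]
    simp
    ring
  have H : ∀ v w, hb σ (emb u j ((A : Matrix (Fin 2) (Fin 2) F) *ᵥ v))
      (emb u j ((A : Matrix (Fin 2) (Fin 2) F) *ᵥ w)) = v 0 * σ (w 0) + s * (v 1 * σ (w 1)) :=
    fun v w => by rw [← h1, ← h1, hb_ap (hX hh), key]
  have h00 := H ![1, 0] ![1, 0]
  have h01 := H ![1, 0] ![0, 1]
  have h11 := H ![0, 1] ![0, 1]
  simp [key, Matrix.mulVec, dotProduct, Fin.sum_univ_two] at h00 h01 h11
  exact ⟨h00, h01, h11⟩

/-- The element shifting by a multiple of the perpendicular part is not monomial. -/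
lemma not_isMon_shift {z : GL ι F} {f : ι → F} {κ : F} (hκ : κ ≠ 0)
    (hz : ∀ i, f i ≠ 0 → ap z e[i] = e[i] + (κ * σ (f i)) • f) (hf : 3 ≤ wt f) : ¬ IsMon z := by
  obtain ⟨i, a, b, hi, ha, hb', hia, hib, hab⟩ := two_lt_card_iff.mp hf
  simp only [mem_filter, mem_univ, true_and] at hi ha hb'
  refine not_isMon_of_two (j := i) hab ?_ ?_
  all_goals
    rw [hz i hi]
    simp [hia.symm, hib.symm, hκ, hi, ha, hb']

/-- A scalar on the plane gives a non-monomial element fixing a line. -/
lemma fixLine_of_scalar (hσ : IsConj σ q) (hu : hb σ u u = 1)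
    (hs : 1 - u j * σ (u j) ≠ 0) (hw : 3 ≤ wt (rest u j)) {A : GL (Fin 2) F}
    (hA : A ∈ planeGroup σ X u j) {c : F} (hc : c ≠ 1)
    (he : (A : Matrix (Fin 2) (Fin 2) F) = c • (1 : Matrix (Fin 2) (Fin 2) F)) : FixLine X := by
  obtain ⟨h, hh, h1, h2⟩ := hA
  set s := 1 - u j * σ (u j) with hsdef
  set f := rest u j with hf
  have hemb : ∀ v, ap h (emb u j v) = c • emb u j v := fun v => by
    rw [h1, he, Matrix.smul_mulVec, Matrix.one_mulVec, emb, emb, smul_add, smul_smul, smul_smul]
    simp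
  have hff : hb σ f f = s := hb_rest_self hu
  have hj : ap h e[j] = c • e[j] := by simpa [emb] using hemb ![1, 0]
  have hfc : ap h f = c • f := by simpa [emb] using hemb ![0, 1]
  refine ⟨h, hh, not_isMon_shift (σ := σ) (f := f) (κ := (c - 1) / s)
    (div_ne_zero (sub_ne_zero.mpr hc) hs) (fun i hi => ?_) hw, j, c, hj⟩
  have hij : i ≠ j := fun e => hi (e ▸ rest_self)
  set b := σ (f i) / s with hb'
  have hfix := h2 (e[i] - b • f) (by simp [hij.symm, hf, rest_self]) (by
    rw [hb_sub_left, hb_smul_left, hb_single_left, hff, one_mul, hb', div_mul_cancel₀ _ hs,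
      sub_self])
  rw [ap_sub, ap_smul, hfc, smul_smul, sub_eq_iff_eq_add] at hfix
  rw [hfix, hb', show (c - 1) / s * σ (f i) = σ (f i) / s * c - σ (f i) / s by ring, sub_smul]
  abel

lemma rf_lifts_single (hu : hb σ u u = 1) {μ : F} (hμ : μ ∈ cir σ) :
    Lifts σ u j !![μ, 0; 0, 1] (rf σ e[j] μ) := by
  constructor
  · intro v
    rw [ap_rf (hb_single_self j) hμ, hb_single_right]
    funext m
    simp [emb, rest_self, Matrix.mulVec, dotProduct, Fin.sum_univ_two]
    by_cases hm : m = j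
    · subst hm; simp [rest_self]; ring
    · simp [hm]
  · intro x hx _
    rw [ap_rf (hb_single_self j) hμ, hb_single_right, hx]
    simp

lemma rf_lifts (hu : hb σ u u = 1) {μ : F} (hμ : μ ∈ cir σ) :
    Lifts σ u j !![1 + (μ - 1) * (u j * σ (u j)), (μ - 1) * (1 - u j * σ (u j)) * u j;
      (μ - 1) * σ (u j), 1 + (μ - 1) * (1 - u j * σ (u j))] (rf σ u μ) := by
  constructor
  · intro v
    have hu' : u = u j • e[j] + rest u j := by rw [rest]; abel
    have h1 : hb σ (emb u j v) u = v 0 * σ (u j) + v 1 * (1 - u j * σ (u j)) := by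
      rw [emb, hb_add_left, hb_smul_left, hb_smul_left, hb_single_left, one_mul, rest, hb_sub_left,
        hb_smul_left, hb_single_left, one_mul, hu]
    rw [ap_rf hu hμ, h1]
    funext m
    by_cases hm : m = j
    · subst hm
      simp [emb, rest_self, Matrix.mulVec, dotProduct, Fin.sum_univ_two]
      ring
    · simp [emb, rest_ne hm, hm, Matrix.mulVec, dotProduct, Fin.sum_univ_two]
      ring
  · intro x hx hxf
    rw [hb_rest, hx, mul_zero, sub_zero] at hxf
    rw [ap_rf hu hμ, hxf]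
    simp

/-- The two generators of the plane group. -/
lemma exists_generators (hu : hb σ u u = 1) {μ : F} (hμ : μ ∈ cir σ)
    (hμX : rf σ e[j] μ ∈ X)
    (hRX : rf σ u μ ∈ X) :
    ∃ D ∈ planeGroup σ X u j, ∃ R ∈ planeGroup σ X u j,
      (D : Matrix (Fin 2) (Fin 2) F) = !![μ, 0; 0, 1] ∧
      (R : Matrix (Fin 2) (Fin 2) F) = !![1 + (μ - 1) * (u j * σ (u j)),
        (μ - 1) * (1 - u j * σ (u j)) * u j; (μ - 1) * σ (u j),
        1 + (μ - 1) * (1 - u j * σ (u j))] := by
  have h1 : (!![μ, 0; 0, 1] : Matrix (Fin 2) (Fin 2) F).det ≠ 0 := by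
    rw [Matrix.det_fin_two_of]; simpa using ne_zero_of_mem_cir hμ
  have h2 : (!![1 + (μ - 1) * (u j * σ (u j)), (μ - 1) * (1 - u j * σ (u j)) * u j;
      (μ - 1) * σ (u j), 1 + (μ - 1) * (1 - u j * σ (u j))] : Matrix (Fin 2) (Fin 2) F).det ≠ 0 := by
    rw [Matrix.det_fin_two_of]
    have e : (1 + (μ - 1) * (u j * σ (u j))) * (1 + (μ - 1) * (1 - u j * σ (u j))) -
        (μ - 1) * (1 - u j * σ (u j)) * u j * ((μ - 1) * σ (u j)) = μ := by ring
    rw [e]; exact ne_zero_of_mem_cir hμ
  exact ⟨Matrix.GeneralLinearGroup.mkOfDetNeZero _ h1, ⟨_, hμX, rf_lifts_single hu hμ⟩,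
    Matrix.GeneralLinearGroup.mkOfDetNeZero _ h2, ⟨_, hRX, rf_lifts hu hμ⟩, rfl, rfl⟩

end Plane

end CfsgLib.SUSix
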