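import Cfsg.Agent.Lib.Geometric.SUSix.Basic
import Cfsg.Agent.Lib.Geometric.UnitaryMonomial.Quot

/-!
The field with twenty-five elements in dimension six: every non-monomial element would have no
zero entry, and the norms in a row have neither three equal values nor three pairs.
-/

set_option autoImplicit false

namespace CfsgLib.SUSix

open CfsgLib.Geometric CfsgLib.UMon Finset Matrix

variable {ι : Type} [Fintype ι] [DecidableEq ι] {F : Type*} [Field F] [Fintype F] [DecidableEq F]
variable {σ : F ≃+* F} {q : ℕ}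

local notation "e[" j "]" => (Pi.single j (1 : _) : ι → _)

omit [DecidableEq F] in
lemma five_eq_zero (hσ : IsConj σ q) (h5 : q = 5) : (5 : F) = 0 := by
  have h := FiniteField.cast_card_eq_zero F
  rw [hσ.card, h5] at h
  exact mul_self_eq_zero.mp (show (5 : F) * 5 = 0 by push_cast at h; linear_combination h)

lemma five_consts (hσ : IsConj σ q) (h5 : q = 5) :
    (2 : F) ≠ 0 ∧ (3 : F) ≠ 0 ∧ fxd σ = {0, 1, 2, 3, 4} := by
  have hz := five_eq_zero hσ h5
  have : Fact (Nat.Prime 5) := ⟨by norm_num⟩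
  have : CharP F 5 := (CharP.charP_iff_prime_eq_zero (by norm_num)).mpr (by exact_mod_cast hz)
  set φ : ZMod 5 →+* F := ZMod.castHom dvd_rfl F
  have h2 : (2 : F) ≠ 0 := fun e => one_ne_zero (α := F) (by linear_combination hz - 2 * e)
  have h3 : (3 : F) ≠ 0 := fun e => one_ne_zero (α := F) (by linear_combination 2 * e - hz)
  refine ⟨h2, h3, ?_⟩
  have he : univ.image φ = fxd σ := eq_of_subset_of_card_le (fun y hy => by
    obtain ⟨P, -, rfl⟩ := mem_image.mp hy
    simpa [fxd] using RingHom.congr_fun (Subsingleton.elim ((σ : F →+* F).comp φ) φ) P) (by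
    rw [card_image_of_injective _ φ.injective, card_fxd hσ, h5, card_univ, ZMod.card])
  rw [← he]
  have hu : (univ : Finset (ZMod 5)) = {0, 1, 2, 3, 4} := rfl
  rw [hu]
  simp [Finset.image_insert, map_ofNat]

section Five

variable {X : Subgroup (GL ι F)} (hσ : IsConj σ q) (h5 : q = 5) (hn : Fintype.card ι = 6)
  (hX : X ≤ GUs σ) (hM : MonIn σ X) (hN : ¬ FixLine X)
include hσ h5 hn hX hM hN

omit hσ h5 hn hX hM in
/-- An element fixing a coordinate line is monomial. -/
lemma isMon_of_fix {z : GL ι F} (hz : z ∈ X) {o : ι} {γ : F} (h : ap z e[o] = γ • e[o]) :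
    IsMon z :=
  by_contra fun hn => hN ⟨z, hz, hn, o, γ, h⟩

/-- Non-monomial elements have no zero entry. -/
lemma no_zero {g : GL ι F} (hg : g ∈ X) (hgn : ¬ IsMon g) (j a : ι) : ap g e[j] a ≠ 0 := by
  intro hja
  have hZ := noTwoZeros hσ hn hX hM (by omega) hN
  obtain ⟨h2, -, hfxd⟩ := five_consts hσ h5
  have hu0 : ap g⁻¹ e[a] j = 0 := by rw [ap_inv_entry (hX hg), hja, map_zero]
  have hu : ∀ i, i ≠ j → ap g⁻¹ e[a] i ≠ 0 := fun i hi h =>
    hZ _ (inv_mem hg) (not_isMon_inv hgn) a i j hi h hu0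
  set u := ap g⁻¹ e[a] with hudef
  obtain ⟨p, hp, p', hp', hpp, he⟩ := exists_ne_map_eq_of_card_lt_of_maps_to
    (s := univ.erase j) (t := (fxd σ).erase 0) (f := fun i => u i * σ (u i)) (by
      rw [card_erase_of_mem (mem_univ _), card_erase_of_mem (by simp [fxd]), card_univ,
        card_fxd hσ, hn, h5]
      omega)
    (fun i hi => by
      have := hu i (ne_of_mem_erase hi)
      simp [fxd, hσ.invol, mul_comm, this])
  have hpj := ne_of_mem_erase hp
  have hpj' := ne_of_mem_erase hp'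
  set ε : ι → F := Function.update 1 j (-1) with hεdef
  have hεc : ∀ i, ε i ∈ cir σ := fun i => by
    by_cases hi : i = j
    · subst hi; simpa [hεdef] using neg_mem_cir (σ := σ) one_mem_cir
    · simp [hεdef, hi, one_mem_cir]
  obtain ⟨d, hdc, hdp, hdp', hdo, hwu, hprod⟩ := swap_data hpp (hu p hpj) (hu p' hpj') he hεc
    fun i _ _ => by
      by_cases hi : i = j
      · subst hi; rw [hu0, mul_zero]
      · simp [hεdef, hi]
  have hd0 := fun i => ne_zero_of_mem_cir (hdc i)
  set w := mo (Equiv.swap p p') d with hw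
  have hwX : w ∈ X := mo_mem hM hdc (by
    rw [hprod (by simp [hεdef, hpj]) (by simp [hεdef, hpj']), hεdef,
      Finset.prod_update_of_mem (mem_univ j), Equiv.Perm.sign_swap hpp]
    simp)
  set h := g * w * g⁻¹ with hhdef
  obtain ⟨π, c, hπc⟩ : IsMon h := isMon_of_fix hN (mul_mem (mul_mem hg hwX) (inv_mem hg))
    (o := a) (γ := 1) (by rw [ap_mul, ap_mul, ← hudef, hwu, hudef, ap_ap_inv, one_smul])
  have hwj : ap w e[j] = -e[j] := funext fun i => by
    rw [hw, ap_mo hd0, Equiv.symm_swap]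
    by_cases h1 : i = j
    · subst h1
      rw [Equiv.swap_apply_of_ne_of_ne (Ne.symm hpj) (Ne.symm hpj'),
        hdo i (Ne.symm hpj) (Ne.symm hpj')]
      simp [hεdef]
    · have : Equiv.swap p p' i ≠ j := fun e => h1 (by
        rw [← Equiv.swap_apply_self p p' i, e,
          Equiv.swap_apply_of_ne_of_ne (Ne.symm hpj) (Ne.symm hpj')])
      simp [h1, this]
  -- the moved part is two-dimensional
  set r : ι → F := e[p] - Pi.single p' (d p') with hr
  have hmove : ∀ x, ap w x - x = (d p * x p' - x p) • r + (-2 * x j) • e[j] := by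
    intro x
    funext i
    rw [Pi.sub_apply, hw, ap_mo hd0, Equiv.symm_swap]
    by_cases h1 : i = p
    · subst h1; simp [hr, hpp, hpj]
    by_cases h2 : i = p'
    · subst h2
      have hdd : d p * d i = 1 := by
        rw [hdp, hdp', div_mul_div_cancel₀ (hu i hpj'), div_self (hu p hpj)]
      simp [hr, h1, hpj']
      linear_combination (x i) * hdd
    by_cases h3 : i = j
    · subst h3
      simp [hr, h1, h2, Equiv.swap_apply_of_ne_of_ne h1 h2, hdo i h1 h2, hεdef]
      ring
    · simp [hr, h1, h2, h3, Equiv.swap_apply_of_ne_of_ne h1 h2, hdo i h1 h2, hεdef]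
  have hrank : Fintype.card ι ≤ Module.finrank F (fixSpace (mon π c)) + 2 := by
    set Φ : (ι → F) →ₗ[F] (ι → F) := (apEquiv h).toLinearMap - LinearMap.id with hΦ
    have hΦx : ∀ x, Φ x = ap h x - x := fun x => rfl
    set P := Submodule.span F ({ap g r, ap g e[j]} : Set (ι → F))
    have h1 := Φ.finrank_range_add_finrank_ker
    have h2' : Module.finrank F (LinearMap.range Φ) ≤ 2 := by
      refine (Submodule.finrank_mono (show LinearMap.range Φ ≤ P from ?_)).trans
        ((finrank_span_le_card _).trans (by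
          simp only [Set.toFinset_insert, Set.toFinset_singleton]; exact card_le_two))
      rintro _ ⟨x, rfl⟩
      refine Submodule.mem_span_pair.mpr ⟨d p * ap g⁻¹ x p' - ap g⁻¹ x p, -2 * ap g⁻¹ x j, ?_⟩
      rw [← ap_smul, ← ap_smul, ← ap_add, ← hmove, ap_sub, ap_ap_inv, hΦx, hhdef, ap_mul, ap_mul]
    have h3 : LinearMap.ker Φ ≤ fixSpace (mon π c) := fun x hx => by
      rw [mem_fixSpace, ← hπc]
      exact sub_eq_zero.mp ((hΦx x).symm.trans (LinearMap.mem_ker.mp hx))
    have h4 := Submodule.finrank_mono h3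
    rw [Module.finrank_fintype_fun_eq_card] at h1
    omega
  have hcard := card_fixed_mon (π := π) (c := c) hrank
    (s := univ.filter fun m => ap (mon π c) e[m] = (e[m] : ι → F)) (fun m hm => by simp [hm])
  have hzero : ∀ m ∈ univ.filter fun m => ap (mon π c) e[m] = (e[m] : ι → F),
      ap g e[j] m = 0 := by
    intro m hm
    simp only [mem_filter, mem_univ, true_and] at hm
    rw [ap_mon_single, mul_one] at hm
    have hπm : π m = m := by
      by_contra h0
      have := congrFun hm (π m)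
      simp [h0] at this
    have hcm : (c m : F) = 1 := by
      have := congrFun hm m
      simpa [hπm] using this
    have h1 : ap h (ap g e[j]) m = -(ap g e[j] m) := by
      rw [hhdef, ap_mul, ap_mul, ap_inv_ap, hwj, show (-e[j] : ι → F) = (-1 : F) • e[j] by simp,
        ap_smul]
      simp
    rw [hπc, ap_mon, show π.symm m = m by rw [Equiv.symm_apply_eq, hπm], hcm, one_mul] at h1
    exact (mul_eq_zero.mp (show (2 : F) * ap g e[j] m = 0 by linear_combination h1)).resolve_left h2
  obtain ⟨m, hm, m', hm', hne⟩ := one_lt_card.mp (show 1 <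
    (univ.filter fun m => ap (mon π c) e[m] = (e[m] : ι → F)).card by omega)
  exact hZ g hg hgn j m m' hne (hzero m hm) (hzero m' hm')

/-- An element with a zero entry is monomial. -/
lemma isMon_of_zero {g : GL ι F} (hg : g ∈ X) {j a : ι} (h : ap g e[j] a = 0) : IsMon g :=
  by_contra fun hgn => no_zero hσ h5 hn hX hM hN hg hgn j a h

variable {g : GL ι F} (hg : g ∈ X) (hgn : ¬ IsMon g)
include hg hgn

lemma row_ne_zero (o i : ι) : ap g⁻¹ e[o] i ≠ 0 :=
  no_zero hσ h5 hn hX hM hN (inv_mem hg) (not_isMon_inv hgn) o i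

omit h5 hn hM hN hgn in
lemma row_orth (o o' : ι) :
    hb σ (ap g⁻¹ e[o]) (ap g⁻¹ e[o']) = if o = o' then 1 else 0 := by
  rw [hb_ap (inv_mem (hX hg)), hb_single_left, one_mul]
  by_cases h : o = o'
  · subst h; simp
  · simp [h]

/-- No row has three entries of equal norm. -/
lemma no_triple (o a b c : ι) (hab : a ≠ b) (hac : a ≠ c) (hbc : b ≠ c)
    (eab : ap g⁻¹ e[o] a * σ (ap g⁻¹ e[o] a) = ap g⁻¹ e[o] b * σ (ap g⁻¹ e[o] b))
    (eac : ap g⁻¹ e[o] a * σ (ap g⁻¹ e[o] a) = ap g⁻¹ e[o] c * σ (ap g⁻¹ e[o] c)) : False := by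
  obtain ⟨h2, h3, hfxd⟩ := five_consts hσ h5
  have h50 := five_eq_zero hσ h5
  have hu := row_ne_zero hσ h5 hn hX hM hN hg hgn o
  set u := ap g⁻¹ e[o] with hudef
  set δb := u b / u a with hδb
  set δc := u c / u a with hδc
  have hδbc : δb ∈ cir σ := by
    rw [mem_cir, hδb, map_div₀, div_mul_div_comm, ← eab]
    exact div_self (mul_ne_zero (hu a) ((map_ne_zero σ).mpr (hu a)))
  have hδcc : δc ∈ cir σ := by
    rw [mem_cir, hδc, map_div₀, div_mul_div_comm, ← eac]
    exact div_self (mul_ne_zero (hu a) ((map_ne_zero σ).mpr (hu a)))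
  have hb0 := ne_zero_of_mem_cir hδbc
  have hc0 := ne_zero_of_mem_cir hδcc
  set d : ι → F := Function.update (Function.update (Function.update 1 a δc⁻¹) b δb) c (δc / δb)
    with hd
  have hda : d a = δc⁻¹ := by simp [hd, hab, hac]
  have hdb : d b = δb := by simp [hd, hbc]
  have hdc' : d c = δc / δb := by simp [hd]
  have hdl : ∀ i, i ≠ a → i ≠ b → i ≠ c → d i = 1 := fun i h1 h2 h3 => by simp [hd, h1, h2, h3]
  have hdc : ∀ i, d i ∈ cir σ := fun i => by
    by_cases h1 : i = a
    · subst h1; rw [hda]; exact inv_mem_cir hδcc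
    by_cases h2 : i = b
    · subst h2; rw [hdb]; exact hδbc
    by_cases h3 : i = c
    · subst h3; rw [hdc']; exact div_mem_cir hδcc hδbc
    rw [hdl i h1 h2 h3]; exact one_mem_cir
  have hd0 := fun i => ne_zero_of_mem_cir (hdc i)
  set ρ : Equiv.Perm ι := Equiv.swap a b * Equiv.swap b c with hρ
  set m := mo ρ d with hm
  have hρs : ∀ i, ρ.symm i = if i = a then c else if i = b then a else if i = c then b else i := by
    intro i
    rw [Equiv.symm_apply_eq, hρ]
    simp only [Equiv.Perm.mul_apply]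
    split_ifs with h1 h2 h3
    · subst h1; simp [Equiv.swap_apply_right]
    · subst h2; simp [Equiv.swap_apply_of_ne_of_ne, hab, hac]
    · subst h3
      rw [Equiv.swap_apply_left, Equiv.swap_apply_of_ne_of_ne (Ne.symm hac) (Ne.symm hbc)]
    · simp [Equiv.swap_apply_of_ne_of_ne, h1, h2, h3]
  have hma : ∀ x, ap m x a = δc⁻¹ * x c := fun x => by rw [hm, ap_mo hd0, hda, hρs, if_pos rfl]
  have hmb : ∀ x, ap m x b = δb * x a := fun x => by
    rw [hm, ap_mo hd0, hdb, hρs, if_neg (Ne.symm hab), if_pos rfl]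
  have hmc : ∀ x, ap m x c = δc / δb * x b := fun x => by
    rw [hm, ap_mo hd0, hdc', hρs, if_neg (Ne.symm hac), if_neg (Ne.symm hbc), if_pos rfl]
  have hml : ∀ x i, i ≠ a → i ≠ b → i ≠ c → ap m x i = x i := fun x i h1 h2 h3 => by
    rw [hm, ap_mo hd0, hdl i h1 h2 h3, hρs, if_neg h1, if_neg h2, if_neg h3, one_mul]
  have hmX : m ∈ X := mo_mem hM hdc (by
    rw [hρ, map_mul, Equiv.Perm.sign_swap hab, Equiv.Perm.sign_swap hbc, hd,
      Finset.prod_update_of_mem (mem_univ c),
      Finset.prod_update_of_mem (show b ∈ univ \ {c} by simp [hbc]),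
      Finset.prod_update_of_mem (show a ∈ (univ \ {c}) \ {b} by simp [hab, hac])]
    simp
    field_simp)
  have hmG : m ∈ GUs σ := hX hmX
  -- the fixed vectors
  have hfix : ∀ x, ap m x = x ↔ x b = δb * x a ∧ x c = δc * x a := by
    intro x
    constructor
    · intro h
      refine ⟨by rw [← hmb, h], ?_⟩
      have e1 := congrFun h a
      rw [hma] at e1
      rw [← e1]; field_simp
    · rintro ⟨e1, e2⟩
      funext i
      by_cases h1 : i = a
      · subst h1; rw [hma, e2]; field_simp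
      by_cases h2 : i = b
      · subst h2; rw [hmb, e1]
      by_cases h3 : i = c
      · subst h3; rw [hmc, e1, e2]; field_simp
      exact hml x i h1 h2 h3
  have hm3 : ∀ x, ap m (ap m (ap m x)) = x := fun x => funext fun i => by
    by_cases h1 : i = a
    · subst h1; rw [hma, hmc, hmb]; field_simp
    by_cases h2 : i = b
    · subst h2; rw [hmb, hma, hmc]; field_simp
    by_cases h3 : i = c
    · subst h3; rw [hmc, hmb, hma]; field_simp
    rw [hml _ i h1 h2 h3, hml _ i h1 h2 h3, hml _ i h1 h2 h3]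
  obtain ⟨k, hk⟩ : ∃ k, k ∉ ({a, b, c} : Finset ι) := by
    by_contra h
    push Not at h
    have := card_le_card (show (univ : Finset ι) ⊆ {a, b, c} from fun i _ => h i)
    have := card_le_three (a := a) (b := b) (c := c)
    rw [card_univ, hn] at *
    omega
  simp only [mem_insert, mem_singleton, not_or] at hk
  -- the conjugate is monomial
  set h := g * m * g⁻¹ with hhdef
  have hmu : ap m u = u := (hfix u).mpr ⟨by rw [hδb, div_mul_cancel₀ _ (hu a)],
    by rw [hδc, div_mul_cancel₀ _ (hu a)]⟩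
  have hho : ap h e[o] = e[o] := by rw [ap_mul, ap_mul, ← hudef, hmu, hudef, ap_ap_inv]
  obtain ⟨π, φ, hπ⟩ : IsMon h := isMon_of_fix hN (mul_mem (mul_mem hg hmX) (inv_mem hg))
    (o := o) (γ := 1) (by rw [hho, one_smul])
  have hcol : ∀ l, ap h e[l] = (φ (π l) : F) • e[π l] := fun l => by
    rw [hπ, ap_mon_single, mul_one, ← Pi.single_smul', smul_eq_mul, mul_one]
  have hh3 : ∀ x, ap h (ap h (ap h x)) = x := fun x => by
    simp only [hhdef, ap_mul, ap_inv_ap, hm3, ap_ap_inv]
  have hphase : ∀ l, π l = l → ap h e[l] = e[l] := by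
    intro l hl
    have h1 := hcol l
    rw [hl] at h1
    by_contra hne
    have hφ : (φ l : F) - 1 ≠ 0 := fun e => hne (by rw [h1, sub_eq_zero.mp e, one_smul])
    have h2' : ap m (ap g⁻¹ e[l]) = (φ l : F) • ap g⁻¹ e[l] := by
      rw [← ap_smul, ← h1, hhdef, ap_mul, ap_mul, ap_inv_ap]
    have h3' := congrFun h2' k
    rw [hml _ k hk.1 hk.2.1 hk.2.2, Pi.smul_apply, smul_eq_mul] at h3'
    refine row_ne_zero hσ h5 hn hX hM hN hg hgn l k ((mul_eq_zero.mp (show ((φ l : F) - 1) *
      ap g⁻¹ e[l] k = 0 by linear_combination -h3')).resolve_left hφ)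
  have hπ3 : ∀ l, π (π (π l)) = l := fun l => by
    have h1 := hh3 e[l]
    rw [hcol, ap_smul, hcol, ap_smul, ap_smul, hcol, smul_smul, smul_smul] at h1
    by_contra hne
    have := congrFun h1 l
    simp [Ne.symm hne] at this
  obtain ⟨i₁, hi₁⟩ : ∃ i, π i ≠ i := by
    by_contra hc
    push Not at hc
    have h1 : h = 1 := Units.ext (Matrix.ext_of_mulVec_single fun i => by
      rw [← ap_def, ← ap_def, ap_one, hphase i (hc i)])
    have h2' : m = 1 := by rw [show m = g⁻¹ * h * g by rw [hhdef]; group, h1]; group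
    have h4 := hmb e[a]
    rw [h2', ap_one, Pi.single_eq_same, Pi.single_eq_of_ne (Ne.symm hab), mul_one] at h4
    exact hb0 h4.symm
  set i₂ := π i₁ with hi₂
  set i₃ := π i₂ with hi₃
  have h12 : i₁ ≠ i₂ := Ne.symm hi₁
  have h23 : i₂ ≠ i₃ := fun e => hi₁ (π.injective (e.symm))
  have h13 : i₁ ≠ i₃ := fun e => hi₁ (by
    have := hπ3 i₁
    rw [← hi₂, ← hi₃, ← e] at this
    exact this)
  have hπi3 : π i₃ = i₁ := hπ3 i₁
  have hπo : π o = o := by
    by_contra hne
    have := congrFun (hcol o) o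
    rw [hho] at this
    simp [Ne.symm hne] at this
  have hO : ∀ l, l ∉ ({i₁, i₂, i₃} : Finset ι) → π l = l := by
    intro l hl
    by_contra hne
    simp only [mem_insert, mem_singleton, not_or] at hl
    have hsub : ({i₁, i₂, i₃, l, π l, π (π l), o} : Finset ι).card ≤ 6 := hn ▸ card_le_univ _
    have n1 : π l ≠ i₁ := fun e => hl.2.2 (π.injective (e.trans hπi3.symm))
    have n2 : π l ≠ i₂ := fun e => hl.1 (π.injective (e.trans hi₂))
    have n3 : π l ≠ i₃ := fun e => hl.2.1 (π.injective (e.trans hi₃))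
    have m1 : π (π l) ≠ i₁ := fun e => n3 (π.injective (e.trans hπi3.symm))
    have m2 : π (π l) ≠ i₂ := fun e => n1 (π.injective (e.trans hi₂))
    have m3 : π (π l) ≠ i₃ := fun e => n2 (π.injective (e.trans hi₃))
    have m4 : π (π l) ≠ l := fun e => hne (by
      have := hπ3 l; rw [e] at this; exact this)
    have m5 : π (π l) ≠ π l := fun e => hne (π.injective e)
    have o1 : o ≠ l := fun e => hne (e ▸ hπo)
    have o2 : o ≠ π l := fun e => o1 (π.injective (hπo.trans e))
    have o3 : o ≠ π (π l) := fun e => o2 (π.injective (hπo.trans e))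
    have o4 : o ≠ i₁ := fun e => hi₁ (by rw [hi₂, ← e, hπo])
    have o5 : o ≠ i₂ := fun e => o4 (π.injective (hπo.trans (e.trans hi₂)))
    have o6 : o ≠ i₃ := fun e => o5 (π.injective (hπo.trans (e.trans hi₃)))
    rw [card_insert_of_notMem (by simp [h12, h13, Ne.symm hl.1, n1.symm, m1.symm, o4.symm]),
      card_insert_of_notMem (by simp [h23, Ne.symm hl.2.1, n2.symm, m2.symm, o5.symm]),
      card_insert_of_notMem (by simp [Ne.symm hl.2.2, n3.symm, m3.symm, o6.symm]),
      card_insert_of_notMem (by simp [Ne.symm hne, m4.symm, o1.symm]),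
      card_insert_of_notMem (by simp [m5.symm, o2.symm]),
      card_insert_of_notMem (by simp [o3.symm]), card_singleton] at hsub
    omega
  have hoI : o ∉ ({i₁, i₂, i₃} : Finset ι) := by
    simp only [mem_insert, mem_singleton, not_or]
    exact ⟨fun e => hi₁ (by rw [hi₂, ← e, hπo]),
      fun e => hi₁ (π.injective (((congrArg π e).symm.trans hπo).trans e)),
      fun e => h13 (by rw [← hπi3, ← e, hπo])⟩
  -- the element `k`, equal to one off the fixed coordinates
  obtain ⟨ω, hω, hω1, hω3⟩ : ∃ ω ∈ cir σ, ω ≠ 1 ∧ ω ^ 3 = 1 := by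
    obtain ⟨t, ht, ht2⟩ := exists_sq_ne_one hσ
    have h6 := pow_card_cir hσ ht
    rw [h5] at h6
    exact ⟨t ^ 2, pow_mem_cir ht 2, ht2, by rw [← pow_mul]; exact h6⟩
  have hω2 : ω ^ 2 + ω + 1 = 0 := (mul_eq_zero.mp (show (ω - 1) * (ω ^ 2 + ω + 1) = 0 by
    linear_combination hω3)).resolve_left (sub_ne_zero.mpr hω1)
  set dd : ι → F := fun i => if i ∈ ({i₁, i₂, i₃} : Finset ι) then 1 else ω with hdd
  have hddc : ∀ i, dd i ∈ cir σ := fun i => by
    simp only [hdd]; split_ifs
    exacts [one_mem_cir, hω]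
  have hdd0 := fun i => ne_zero_of_mem_cir (hddc i)
  have hI3 : ({i₁, i₂, i₃} : Finset ι).card = 3 :=
    card_eq_three.mpr ⟨_, _, _, h12, h13, h23, rfl⟩
  set k' := g⁻¹ * dia dd * g with hk'
  have hk'X : k' ∈ X := mul_mem (mul_mem (inv_mem hg) (dia_mem hM hddc (by
    rw [hdd, prod_ite]
    simp only [prod_const_one, one_mul, prod_const]
    rw [show (univ.filter fun i => i ∉ ({i₁, i₂, i₃} : Finset ι)) = ({i₁, i₂, i₃} : Finset ι)ᶜ by
      ext i; simp, card_compl, hn, hI3, hω3]))) hg
  set v := ap g⁻¹ e[i₁] with hv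
  set N := v + ap m v + ap m (ap m v) with hNdef
  have hmN : ap m N = N := by rw [hNdef, ap_add, ap_add, hm3]; abel
  set η := ap g N with hηdef
  have hgm : ∀ x, ap g (ap m x) = ap h (ap g x) := fun x => by
    rw [hhdef, ap_mul, ap_mul, ap_inv_ap]
  have hη : η = e[i₁] + (φ i₂ : F) • e[i₂] + ((φ i₂ : F) * φ i₃) • e[i₃] := by
    rw [hηdef, hNdef, ap_add, ap_add, hgm, hgm, hgm, hv, ap_ap_inv, hcol, ← hi₂, ap_smul, hcol,
      ← hi₃, smul_smul]
  -- the action of `k'` on fixed vectors
  have hk'fix : ∀ x, ap m x = x →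
      ap k' x = ω • x + ((1 - ω) * (2 * hb σ x N)) • N := by
    intro x hx
    set t := hb σ x v with ht
    have hgx : ap h (ap g x) = ap g x := by rw [← hgm, hx]
    have h1 : ap g x i₁ = t := by
      have := hb_single_right (σ := σ) (ap g x) i₁ 1
      rw [map_one, mul_one, hb_ap_left (hX hg)] at this
      exact this.symm
    have e2 : ap g x i₂ = (φ i₂ : F) * ap g x i₁ := by
      have := congrFun hgx i₂
      rw [hπ, ap_mon, show π.symm i₂ = i₁ by rw [Equiv.symm_apply_eq]] at this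
      exact this.symm
    have e3 : ap g x i₃ = (φ i₃ : F) * ap g x i₂ := by
      have := congrFun hgx i₃
      rw [hπ, ap_mon, show π.symm i₃ = i₂ by rw [Equiv.symm_apply_eq]] at this
      exact this.symm
    have hN' : hb σ x N = 3 * t := by
      rw [hNdef, hb_add_right, hb_add_right]
      nth_rewrite 2 [← hx]
      rw [hb_ap hmG]
      nth_rewrite 3 [← hx]
      rw [hb_ap hmG]
      nth_rewrite 3 [← hx]
      rw [hb_ap hmG]
      ring
    have key : ap (dia dd) (ap g x) = ω • ap g x + ((1 - ω) * t) • η := by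
      funext i
      rw [ap_dia hdd0, hη]
      by_cases a1 : i = i₁
      · subst a1; simp [hdd, h12, h13, h1]; ring
      by_cases a2 : i = i₂
      · subst a2; simp [hdd, a1, h23, e2, h1]; ring
      by_cases a3 : i = i₃
      · subst a3; simp [hdd, a1, a2, e3, e2, h1]; ring
      simp [hdd, a1, a2, a3]
    rw [hk', ap_mul, ap_mul, key, ap_add, ap_smul, ap_smul, ap_inv_ap, hηdef, ap_inv_ap, hN']
    congr 2
    linear_combination -((1 - ω) * t) * h50
  have hNfix := (hfix N).mp hmN
  set P := N a * σ (N a) with hP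
  have hNN : hb σ N N = 3 := by
    have e1 := hb_ap (hX hg) N N
    rw [← hηdef, hη] at e1
    rw [← e1]
    have hφ : ∀ i, (φ i : F) * σ (φ i : F) = 1 := fun i => by
      have := hb_ap (hX (mul_mem (mul_mem hg hmX) (inv_mem hg))) e[π.symm i] e[π.symm i]
      rw [← hhdef, hcol, Equiv.apply_symm_apply, hb_smul_left, hb_smul_right, hb_single_self,
        hb_single_self, mul_one] at this
      exact this
    simp only [hb_add_left, hb_add_right, hb_smul_left, hb_smul_right, hb_single_left]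
    simp [h12, h13, h23, h12.symm, h13.symm, h23.symm]
    linear_combination (1 + (φ i₃ : F) * σ (φ i₃ : F)) * hφ i₂ + hφ i₃
  -- the column of `a`
  set T : ι → F := e[a] + δb • e[b] + δc • e[c] with hT
  have hTa : T a = 1 := by simp [hT, hab, hac]
  have hTb : T b = δb := by simp [hT, hab.symm, hbc]
  have hTc : T c = δc := by simp [hT, hac.symm, hbc.symm]
  have hTl : ∀ i, i ≠ a → i ≠ b → i ≠ c → T i = 0 := fun i h1 h2 h3 => by simp [hT, h1, h2, h3]
  have hbT : ∀ x, ap m x = x → hb σ T x = 3 * σ (x a) := fun x hx => by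
    obtain ⟨e1, e2⟩ := (hfix x).mp hx
    rw [hT, hb_add_left, hb_add_left, hb_smul_left, hb_smul_left, hb_single_left, hb_single_left,
      hb_single_left, e1, e2, map_mul, map_mul]
    linear_combination (σ (x a)) * mem_cir.mp hδbc + (σ (x a)) * mem_cir.mp hδcc
  have hmT : ap m T = T := (hfix T).mpr ⟨by rw [hTa, hTb, mul_one], by rw [hTa, hTc, mul_one]⟩
  have hka : ap k' e[a] = e[a] - (2 : F) • T + (2 * ω) • T + (2 * (1 - ω) * σ (N a)) • N := by
    have hrest : ap k' (e[a] - (2 : F) • T) = e[a] - (2 : F) • T := by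
      have e1 : ap (dia dd) (ap g (e[a] - (2 : F) • T)) = ap g (e[a] - (2 : F) • T) := by
        funext i
        rw [ap_dia hdd0]
        by_cases hi : i ∈ ({i₁, i₂, i₃} : Finset ι)
        · simp only [hdd]; rw [if_pos hi, one_mul]
        · have hl := hphase i (hO i hi)
          have hml' : ap m (ap g⁻¹ e[i]) = ap g⁻¹ e[i] := by
            apply ap_injective g
            rw [hgm, ap_ap_inv, hl]
          have e2 := hb_single_right (σ := σ) (ap g (e[a] - (2 : F) • T)) i 1
          rw [map_one, mul_one, hb_ap_left (hX hg), hb_sub_left, hb_smul_left, hb_single_left,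
            hbT _ hml'] at e2
          rw [← e2, show (1 : F) * σ (ap g⁻¹ e[i] a) - 2 * (3 * σ (ap g⁻¹ e[i] a)) = 0 by
            linear_combination -(σ (ap g⁻¹ e[i] a)) * h50]
          ring
      rw [hk', ap_mul, ap_mul, e1, ap_inv_ap]
    have hkT : ap k' T = ω • T + ((1 - ω) * (σ (N a))) • N := by
      rw [hk'fix T hmT, hbT N hmN]
      congr 2
      linear_combination (1 - ω) * σ (N a) * h50
    calc ap k' e[a] = ap k' (e[a] - (2 : F) • T) + (2 : F) • ap k' T := by
          rw [← ap_smul, ← ap_add, sub_add_cancel]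
      _ = _ := by rw [hrest, hkT]; module
  have hkab : ap k' e[a] b = 2 * δb * (ω - 1) * (1 - P) := by
    rw [hka]
    simp [hTb, hNfix.1, hP, hab.symm]
    ring
  have hkaa : ap k' e[a] a = 1 + 2 * (ω - 1) * (1 - P) := by
    rw [hka]
    simp [hTa, hP]
    ring
  have hkac : ap k' e[a] c = 2 * δc * (ω - 1) * (1 - P) := by
    rw [hka]
    simp [hTc, hNfix.2, hP, hac.symm]
    ring
  have hkad : ∀ i, i ≠ a → i ≠ b → i ≠ c →
      ap k' e[a] i = 2 * (1 - ω) * σ (N a) * N i := fun i h1 h2 h3 => by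
    rw [hka]; simp [hTl i h1 h2 h3, h1]
  have hω1' : ω - 1 ≠ 0 := sub_ne_zero.mpr hω1
  by_cases hP1 : P = 1
  · have hNa : N a ≠ 0 := fun e => by simp [hP, e] at hP1
    obtain ⟨i, h1, h2', h3', hNi⟩ : ∃ i, i ≠ a ∧ i ≠ b ∧ i ≠ c ∧ N i ≠ 0 := by
      by_contra hc'
      push Not at hc'
      have hNT : N = N a • T := funext fun i => by
        by_cases h1 : i = a
        · subst h1; simp [hTa]
        by_cases h2 : i = b
        · subst h2; simp [hTb, hNfix.1, mul_comm]
        by_cases h3 : i = c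
        · subst h3; simp [hTc, hNfix.2, mul_comm]
        simp [hTl i h1 h2 h3, hc' i h1 h2 h3]
      have e1 : hb σ u N = 0 := by
        rw [hudef, hb_ap_left (inv_mem (hX hg)), inv_inv, ← hηdef, hη, hb_single_left, one_mul]
        simp only [mem_insert, mem_singleton, not_or] at hoI
        simp [hoI.1, hoI.2.1, hoI.2.2]
      rw [hNT, hb_smul_right, ← hb_herm hσ, hbT u hmu, map_mul, map_ofNat, hσ.invol] at e1
      exact mul_ne_zero ((map_ne_zero σ).mpr hNa) (mul_ne_zero h3 (hu a)) e1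
    refine no_zero hσ h5 hn hX hM hN hk'X (not_isMon_of_two (j := a) (Ne.symm h1) ?_ ?_) a b
      (by rw [hkab, hP1]; ring)
    · rw [hkaa, hP1]; simp
    · rw [hkad i h1 h2' h3']
      exact mul_ne_zero (mul_ne_zero (mul_ne_zero h2 (sub_ne_zero.mpr (Ne.symm hω1)))
        ((map_ne_zero σ).mpr hNa)) hNi
  have hP1' : 1 - P ≠ 0 := sub_ne_zero.mpr (Ne.symm hP1)
  have hk'n : ¬ IsMon k' := not_isMon_of_two (j := a) hbc
    (by rw [hkab]; exact mul_ne_zero (mul_ne_zero (mul_ne_zero h2 hb0) hω1') hP1')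
    (by rw [hkac]; exact mul_ne_zero (mul_ne_zero (mul_ne_zero h2 hc0) hω1') hP1')
  have hNd : ∀ i, i ≠ a → i ≠ b → i ≠ c → N a ≠ 0 ∧ N i ≠ 0 := fun i h1 h2 h3 => by
    have := no_zero hσ h5 hn hX hM hN hk'X hk'n a i
    rw [hkad i h1 h2 h3] at this
    exact ⟨(map_ne_zero σ).mp (mul_ne_zero_iff.mp (mul_ne_zero_iff.mp this).1).2,
      (mul_ne_zero_iff.mp this).2⟩
  -- a power of a product with a scalar on the plane
  obtain ⟨e, hea, heb, hec⟩ : ∃ e, e ≠ a ∧ e ≠ b ∧ e ≠ c := ⟨k, hk⟩
  obtain ⟨f, hfa, hfb, hfc, hfe⟩ : ∃ f, f ≠ a ∧ f ≠ b ∧ f ≠ c ∧ f ≠ e := by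
    by_contra h
    push Not at h
    have := card_le_card (show (univ : Finset ι) ⊆ {a, b, c, e} from fun i _ => by
      simp only [mem_insert, mem_singleton]
      by_cases a1 : i = a; · exact Or.inl a1
      by_cases a2 : i = b; · exact Or.inr (Or.inl a2)
      by_cases a3 : i = c; · exact Or.inr (Or.inr (Or.inl a3))
      exact Or.inr (Or.inr (Or.inr (h i a1 a2 a3))))
    have := card_le_four (a := a) (b := b) (c := c) (d := e)
    rw [card_univ, hn] at *
    omega
  obtain ⟨hNa, hNe⟩ := hNd e hea heb hec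
  have hP0 : P ≠ 0 := mul_ne_zero hNa ((map_ne_zero σ).mpr hNa)
  obtain ⟨NT, hNT⟩ : ∃ NT, NT = N a • T := ⟨_, rfl⟩
  obtain ⟨ND, hND⟩ : ∃ ND, ND = N - NT := ⟨_, rfl⟩
  have hNDa : ND a = 0 := by simp [hND, hNT, hTa]
  have hNDb : ND b = 0 := by simp [hND, hNT, hTb, hNfix.1]; ring
  have hNDc : ND c = 0 := by simp [hND, hNT, hTc, hNfix.2]; ring
  have hNDl : ∀ i, i ≠ a → i ≠ b → i ≠ c → ND i = N i := fun i h1 h2 h3 => by
    simp [hND, hNT, hTl i h1 h2 h3]
  have hbNT : hb σ NT N = 3 * P := by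
    rw [hNT, hb_smul_left, hbT N hmN, hP]; ring
  set d3 : ι → F := fun i => if i ∈ ({a, b, c} : Finset ι) then ω else 1 with hd3
  have hd3c : ∀ i, d3 i ∈ cir σ := fun i => by
    simp only [hd3]; split_ifs
    exacts [hω, one_mem_cir]
  set x := dia d3 * (k' * k') with hx
  have hxX : x ∈ X := mul_mem (dia_mem hM hd3c (by
    rw [hd3, prod_ite]
    simp only [prod_const_one, mul_one, prod_const]
    rw [filter_univ_mem, card_eq_three.mpr ⟨_, _, _, hab, hac, hbc, rfl⟩, hω3])) (mul_mem hk'X hk'X)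
  have hk2 : ∀ y, ap m y = y → ap (k' * k') y = (ω ^ 2) • y +
      (2 * (1 - ω ^ 2) * hb σ y N) • N := by
    intro y hy
    have hkN : ap k' N = N := by
      rw [hk'fix N hmN, hNN]
      have : (1 - ω) * (2 * 3) = 1 - ω := by linear_combination (1 - ω) * h50
      rw [this]; module
    rw [ap_mul, hk'fix y hy, ap_add, ap_smul, ap_smul, hkN, hk'fix y hy]
    match_scalars <;> ring
  have hd3T : ap (dia d3) NT = ω • NT := funext fun i => by
    rw [ap_dia fun i => ne_zero_of_mem_cir (hd3c i), Pi.smul_apply, smul_eq_mul]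
    by_cases hi : i ∈ ({a, b, c} : Finset ι)
    · simp only [hd3]; rw [if_pos hi]
    · simp at hi; simp [hNT, hTl i hi.1 hi.2.1 hi.2.2]
  have hd3D : ∀ y : ι → F, y a = 0 → y b = 0 → y c = 0 → ap (dia d3) y = y :=
    fun y y1 y2 y3 => funext fun i => by
    rw [ap_dia fun i => ne_zero_of_mem_cir (hd3c i)]
    by_cases hi : i ∈ ({a, b, c} : Finset ι)
    · simp at hi; rcases hi with rfl | rfl | rfl <;> simp [y1, y2, y3]
    · simp only [hd3]; rw [if_neg hi, one_mul]
  have hmNT : ap m NT = NT := by rw [hNT, ap_smul, hmT]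
  have hmND : ap m ND = ND := by rw [hND, ap_sub, hmN, hmNT]
  have hbND : hb σ ND N = 3 * (1 - P) := by rw [hND, hb_sub_left, hNN, hbNT]; ring
  have hNsplit : N = NT + ND := by rw [hND]; abel
  have hxT : ap x NT = (ω * (ω ^ 2 + (1 - ω ^ 2) * P)) • NT + ((1 - ω ^ 2) * P) • ND := by
    rw [hx, ap_mul, hk2 NT hmNT, hbNT, show 2 * (1 - ω ^ 2) * (3 * P) = (1 - ω ^ 2) * P by
      linear_combination (1 - ω ^ 2) * P * h50]
    conv_lhs => rw [hNsplit]
    rw [ap_add, ap_smul, ap_smul, ap_add, hd3T, hd3D ND hNDa hNDb hNDc]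
    match_scalars <;> ring
  have hxD : ap x ND = (ω * ((1 - ω ^ 2) * (1 - P))) • NT +
      (ω ^ 2 + (1 - ω ^ 2) * (1 - P)) • ND := by
    rw [hx, ap_mul, hk2 ND hmND, hbND, show 2 * (1 - ω ^ 2) * (3 * (1 - P)) =
      (1 - ω ^ 2) * (1 - P) by linear_combination (1 - ω ^ 2) * (1 - P) * h50]
    conv_lhs => rw [hNsplit]
    rw [ap_add, ap_smul, ap_smul, ap_add, hd3T, hd3D ND hNDa hNDb hNDc]
    match_scalars <;> ring
  have hrec : ap x (ap x ND) = (2 + 2 * P) • ap x ND - ND := by
    rw [hxD, ap_add, ap_smul, ap_smul, hxT, hxD]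
    match_scalars
    · linear_combination (ω * ((1 - ω ^ 2) * (1 - P))) *
        ((1 - P) * hω3 + P * hω2 - P * h50)
    · linear_combination (ω ^ 2 + (1 - ω ^ 2) * (1 - P)) *
        ((1 - P) * hω3 + P * hω2 - P * h50) - hω3
  set c' := σ (N e) / (3 * (1 - P)) with hc'
  set rest' : ι → F := e[e] - c' • ND with hrest'
  have hmrest : ap m rest' = rest' := by
    rw [hrest', ap_sub, ap_smul, hmND,
      (hfix e[e]).mpr (by simp [hea.symm, heb.symm, hec.symm])]
  have hxrest : ap x rest' = (ω ^ 2) • rest' := by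
    have h0 : hb σ rest' N = 0 := by
      rw [hrest', hb_sub_left, hb_smul_left, hb_single_left, hbND, hc']
      field_simp
      ring
    rw [hx, ap_mul, hk2 rest' hmrest, h0, mul_zero, zero_smul, add_zero, ap_smul,
      hd3D rest' (by simp [hrest', hea.symm, hNDa]) (by simp [hrest', heb.symm, hNDb])
        (by simp [hrest', hec.symm, hNDc])]
  have hpow : ∀ n : ℕ, ap (x ^ n) rest' = (ω ^ 2) ^ n • rest' := fun n => by
    induction n with
    | zero => simp
    | succ n ih => rw [pow_succ' x, ap_mul, ih, ap_smul, hxrest, smul_smul, ← pow_succ]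
  obtain ⟨n, hn'⟩ : ∃ n, ap (x ^ n) ND = (-1 : F) • ND := by
    have hmem : P ∈ fxd σ := by simp [fxd, hP, hσ.invol, mul_comm]
    rw [hfxd] at hmem
    simp only [mem_insert, mem_singleton] at hmem
    rcases hmem with h | h | h | h | h
    · exact absurd h hP0
    · exact absurd h hP1
    · refine ⟨3, ?_⟩
      rw [show (2 : F) + 2 * P = 1 by rw [h]; linear_combination h50] at hrec
      simp only [pow_succ', pow_zero, mul_one, ap_mul]
      rw [hrec, one_smul, ap_sub, hrec]
      module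
    · refine ⟨5, ?_⟩
      rw [show (2 : F) + 2 * P = 3 by rw [h]; linear_combination h50] at hrec
      simp only [pow_succ', pow_zero, mul_one, ap_mul]
      simp only [hrec, ap_sub, ap_smul]
      match_scalars <;> first | linear_combination (11 : F) * h50 | linear_combination (-4 : F) * h50
    · refine ⟨2, ?_⟩
      rw [show (2 : F) + 2 * P = 0 by rw [h]; linear_combination 2 * h50] at hrec
      simp only [pow_succ', pow_zero, mul_one, ap_mul]
      rw [hrec]
      module
  have hz : ap (x ^ n) e[e] = (ω ^ 2) ^ n • e[e] + (c' * (-1 - (ω ^ 2) ^ n)) • ND := by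
    calc ap (x ^ n) e[e] = ap (x ^ n) rest' + c' • ap (x ^ n) ND := by
          rw [← ap_smul, ← ap_add, hrest', sub_add_cancel]
      _ = _ := by rw [hpow, hn', hrest']; module
  have hzz : ap (x ^ n) e[e] a = 0 := by rw [hz]; simp [hea.symm, hNDa]
  have hne1 : -1 - (ω ^ 2) ^ n ≠ 0 := fun e0 => by
    have h1 : ((ω ^ 2) ^ n) ^ 3 = 1 := by
      rw [← pow_mul, ← pow_mul, show 2 * (n * 3) = 3 * (2 * n) by ring, pow_mul, hω3, one_pow]
    rw [show (ω ^ 2) ^ n = -1 by linear_combination -e0] at h1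
    exact h2 (by linear_combination -h1)
  have hzf : ap (x ^ n) e[e] f ≠ 0 := by
    rw [hz]
    simp [hfe, hNDl f hfa hfb hfc, (hNd f hfa hfb hfc).2, hc', hNe, h3, hP1', hne1]
  obtain ⟨f', hf'a, hf'b, hf'c, hf'e, hf'f⟩ :
      ∃ f', f' ≠ a ∧ f' ≠ b ∧ f' ≠ c ∧ f' ≠ e ∧ f' ≠ f := by
    by_contra h
    push Not at h
    have := card_le_card (show (univ : Finset ι) ⊆ {a, b, c, e, f} from fun i _ => by
      simp only [mem_insert, mem_singleton]
      by_cases a1 : i = a; · exact Or.inl a1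
      by_cases a2 : i = b; · exact Or.inr (Or.inl a2)
      by_cases a3 : i = c; · exact Or.inr (Or.inr (Or.inl a3))
      by_cases a4 : i = e; · exact Or.inr (Or.inr (Or.inr (Or.inl a4)))
      exact Or.inr (Or.inr (Or.inr (Or.inr (h i a1 a2 a3 a4)))))
    have := card_le_five (a := a) (b := b) (c := c) (d := e) (e := f)
    rw [card_univ, hn] at *
    omega
  have hzf' : ap (x ^ n) e[e] f' ≠ 0 := by
    rw [hz]
    simp [hf'e, hNDl f' hf'a hf'b hf'c, (hNd f' hf'a hf'b hf'c).2, hc', hNe, h3, hP1', hne1]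
  exact no_zero hσ h5 hn hX hM hN (pow_mem hxX n)
    (not_isMon_of_two (j := e) (Ne.symm hf'f) hzf hzf') e a hzz

end Five

end CfsgLib.SUSix
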