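import Cfsg.Agent.Lib.Geometric.SUSix.Five

/-!
The field with twenty-five elements in dimension six: rows with pairs of equal norms.

If two rows `u`, `w` agree up to a common factor on a pair of coordinates, the product of the
involution of that pair and the involution of the plane of `u` and `w` has a small order on the
plane it rotates, and its power would be monomial with too large a moved space.
-/

set_option autoImplicit false

namespace CfsgLib.SUSix

open CfsgLib.Geometric CfsgLib.UMon Finset Matrix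

variable {ι : Type} [Fintype ι] [DecidableEq ι] {F : Type*} [Field F] [Fintype F] [DecidableEq F]
variable {σ : F ≃+* F} {q : ℕ}

local notation "e[" j "]" => (Pi.single j (1 : _) : ι → _)

lemma charP_five (hσ : IsConj σ q) (h5 : q = 5) : CharP F 5 :=
  (CharP.charP_iff_prime_eq_zero (by norm_num)).mpr (by exact_mod_cast five_eq_zero hσ h5)

omit [Fintype F] [DecidableEq F] in
lemma ap_neg' (z : GL ι F) (v : ι → F) : ap z (-v) = -ap z v := map_neg (apEquiv z) v

/-- The sum of the norms of two rows at a coordinate. -/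
def nsum (σ : F ≃+* F) (u w : ι → F) (i : ι) : F := u i * σ (u i) + w i * σ (w i)

/-- The two rows, and the involution of their plane. -/
structure TwoRows (σ : F ≃+* F) (X : Subgroup (GL ι F)) (u w : ι → F) (y0 : GL ι F) : Prop where
  hu : hb σ u u = 1
  hw : hb σ w w = 1
  huw : hb σ u w = 0
  hwu : hb σ w u = 0
  mem : y0 ∈ X
  det : (y0 : Matrix ι ι F).det = 1
  formula : ∀ x, ap y0 x = x - (2 * hb σ x u) • u - (2 * hb σ x w) • w
  entry : ∀ i j, ap y0 e[j] i ≠ 0
  u_ne : ∀ i, u i ≠ 0
  w_ne : ∀ i, w i ≠ 0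

/-- The pair `p, p'` with factor `δ` in both rows. -/
structure Paired (σ : F ≃+* F) (u w : ι → F) (p p' : ι) (δ : F) : Prop where
  ne : p ≠ p'
  cir : δ ∈ cir σ
  hu : u p' = δ * u p
  hw : w p' = δ * w p

section Five

variable {X : Subgroup (GL ι F)} (hσ : IsConj σ q) (h5 : q = 5) (hn : Fintype.card ι = 6)
  (hX : X ≤ GUs σ) (hM : MonIn σ X) (hN : ¬ FixLine X)
include hσ h5 hn hX hM hN

/-- Two equal pairs in a row give a second row with the same factors. -/
lemma exists_partner {g : GL ι F} (hg : g ∈ X) (hgn : ¬ IsMon g) (o p p' s s' : ι)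
    (hpp : p ≠ p') (hss : s ≠ s') (hps : p ≠ s) (hps' : p ≠ s') (hp's : p' ≠ s) (hp's' : p' ≠ s')
    (ep : ap g⁻¹ e[o] p * σ (ap g⁻¹ e[o] p) = ap g⁻¹ e[o] p' * σ (ap g⁻¹ e[o] p'))
    (es : ap g⁻¹ e[o] s * σ (ap g⁻¹ e[o] s) = ap g⁻¹ e[o] s' * σ (ap g⁻¹ e[o] s')) :
    ∃ y, y ≠ o ∧
      Paired σ (ap g⁻¹ e[o]) (ap g⁻¹ e[y]) p p' (ap g⁻¹ e[o] p' / ap g⁻¹ e[o] p) ∧
      Paired σ (ap g⁻¹ e[o]) (ap g⁻¹ e[y]) s s' (ap g⁻¹ e[o] s' / ap g⁻¹ e[o] s) := by
  have hu := row_ne_zero hσ h5 hn hX hM hN hg hgn o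
  set u := ap g⁻¹ e[o] with hudef
  set δ := u p' / u p with hδ
  set ε := u s' / u s with hε
  have hδc : δ ∈ cir σ := by
    rw [mem_cir, hδ, map_div₀, div_mul_div_comm, ← ep]
    exact div_self (mul_ne_zero (hu p) ((map_ne_zero σ).mpr (hu p)))
  have hεc : ε ∈ cir σ := by
    rw [mem_cir, hε, map_div₀, div_mul_div_comm, ← es]
    exact div_self (mul_ne_zero (hu s) ((map_ne_zero σ).mpr (hu s)))
  have hδ0 := ne_zero_of_mem_cir hδc
  have hε0 := ne_zero_of_mem_cir hεc
  set d : ι → F := Function.update (Function.update (Function.update (Function.update 1 p δ⁻¹) p' δ)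
    s ε⁻¹) s' ε with hd
  have hdp : d p = δ⁻¹ := by simp [hd, hpp, hps, hps']
  have hdp' : d p' = δ := by simp [hd, hp's, hp's']
  have hds : d s = ε⁻¹ := by simp [hd, hss]
  have hds' : d s' = ε := by simp [hd]
  have hdl : ∀ i, i ≠ p → i ≠ p' → i ≠ s → i ≠ s' → d i = 1 := fun i h1 h2 h3 h4 => by
    simp [hd, h1, h2, h3, h4]
  have hdc : ∀ i, d i ∈ cir σ := fun i => by
    by_cases h1 : i = p
    · subst h1; rw [hdp]; exact inv_mem_cir hδc
    by_cases h2 : i = p'
    · subst h2; rw [hdp']; exact hδc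
    by_cases h3 : i = s
    · subst h3; rw [hds]; exact inv_mem_cir hεc
    by_cases h4 : i = s'
    · subst h4; rw [hds']; exact hεc
    rw [hdl i h1 h2 h3 h4]; exact one_mem_cir
  have hd0 := fun i => ne_zero_of_mem_cir (hdc i)
  set ρ : Equiv.Perm ι := Equiv.swap p p' * Equiv.swap s s' with hρ
  set m := mo ρ d with hm
  have hρs : ∀ i, ρ.symm i = if i = p then p' else if i = p' then p else if i = s then s' else
      if i = s' then s else i := by
    intro i
    rw [Equiv.symm_apply_eq, hρ]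
    simp only [Equiv.Perm.mul_apply]
    split_ifs with h1 h2 h3 h4
    · subst h1; rw [Equiv.swap_apply_of_ne_of_ne hp's hp's', Equiv.swap_apply_right]
    · subst h2; rw [Equiv.swap_apply_of_ne_of_ne hps hps', Equiv.swap_apply_left]
    · subst h3
      rw [Equiv.swap_apply_right, Equiv.swap_apply_of_ne_of_ne (Ne.symm hps) (Ne.symm hp's)]
    · subst h4
      rw [Equiv.swap_apply_left, Equiv.swap_apply_of_ne_of_ne (Ne.symm hps') (Ne.symm hp's')]
    · simp [Equiv.swap_apply_of_ne_of_ne, h1, h2, h3, h4]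
  have hmp : ∀ x, ap m x p = δ⁻¹ * x p' := fun x => by rw [hm, ap_mo hd0, hdp, hρs, if_pos rfl]
  have hmp' : ∀ x, ap m x p' = δ * x p := fun x => by
    rw [hm, ap_mo hd0, hdp', hρs, if_neg (Ne.symm hpp), if_pos rfl]
  have hms : ∀ x, ap m x s = ε⁻¹ * x s' := fun x => by
    rw [hm, ap_mo hd0, hds, hρs, if_neg (Ne.symm hps), if_neg (Ne.symm hp's), if_pos rfl]
  have hms' : ∀ x, ap m x s' = ε * x s := fun x => by
    rw [hm, ap_mo hd0, hds', hρs, if_neg (Ne.symm hps'), if_neg (Ne.symm hp's'),
      if_neg (Ne.symm hss), if_pos rfl]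
  have hml : ∀ x i, i ≠ p → i ≠ p' → i ≠ s → i ≠ s' → ap m x i = x i := fun x i h1 h2 h3 h4 => by
    rw [hm, ap_mo hd0, hdl i h1 h2 h3 h4, hρs, if_neg h1, if_neg h2, if_neg h3, if_neg h4, one_mul]
  have hmX : m ∈ X := mo_mem hM hdc (by
    rw [hρ, map_mul, Equiv.Perm.sign_swap hpp, Equiv.Perm.sign_swap hss, hd,
      Finset.prod_update_of_mem (mem_univ s'),
      Finset.prod_update_of_mem (show s ∈ univ \ {s'} by simp [hss]),
      Finset.prod_update_of_mem (show p' ∈ (univ \ {s'}) \ {s} by simp [hp's, hp's']),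
      Finset.prod_update_of_mem (show p ∈ ((univ \ {s'}) \ {s}) \ {p'} by simp [hpp, hps, hps'])]
    simp [hδ0, hε0])
  have hmm : ∀ x, ap m (ap m x) = x := fun x => funext fun i => by
    by_cases h1 : i = p
    · subst h1; rw [hmp, hmp', inv_mul_cancel_left₀ hδ0]
    by_cases h2 : i = p'
    · subst h2; rw [hmp', hmp, mul_inv_cancel_left₀ hδ0]
    by_cases h3 : i = s
    · subst h3; rw [hms, hms', inv_mul_cancel_left₀ hε0]
    by_cases h4 : i = s'
    · subst h4; rw [hms', hms, mul_inv_cancel_left₀ hε0]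
    rw [hml _ i h1 h2 h3 h4, hml _ i h1 h2 h3 h4]
  have hmu : ap m u = u := funext fun i => by
    by_cases h1 : i = p
    · subst h1; rw [hmp, hδ]; field_simp [hu i, hu p']
    by_cases h2 : i = p'
    · subst h2; rw [hmp', hδ, div_mul_cancel₀ _ (hu p)]
    by_cases h3 : i = s
    · subst h3; rw [hms, hε]; field_simp [hu i, hu s']
    by_cases h4 : i = s'
    · subst h4; rw [hms', hε, div_mul_cancel₀ _ (hu s)]
    exact hml _ i h1 h2 h3 h4
  obtain ⟨k, hk⟩ : ∃ k, k ∉ ({p, p', s, s'} : Finset ι) := by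
    by_contra h
    push Not at h
    have := card_le_card (show (univ : Finset ι) ⊆ {p, p', s, s'} from fun i _ => h i)
    have := card_le_four (a := p) (b := p') (c := s) (d := s')
    rw [card_univ, hn] at *
    omega
  simp only [mem_insert, mem_singleton, not_or] at hk
  set h := g * m * g⁻¹ with hhdef
  have hho : ap h e[o] = e[o] := by rw [ap_mul, ap_mul, ← hudef, hmu, hudef, ap_ap_inv]
  obtain ⟨π, φ, hπ⟩ : IsMon h := isMon_of_fix hN (mul_mem (mul_mem hg hmX) (inv_mem hg))
    (o := o) (γ := 1) (by rw [hho, one_smul])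
  have hcol : ∀ l, ap h e[l] = (φ (π l) : F) • e[π l] := fun l => by
    rw [hπ, ap_mon_single, mul_one, ← Pi.single_smul', smul_eq_mul, mul_one]
  have hhh : ∀ x, ap h (ap h x) = x := fun x => by
    simp only [hhdef, ap_mul, ap_inv_ap, hmm, ap_ap_inv]
  have hphase : ∀ l, π l = l → ap h e[l] = e[l] := by
    intro l hl
    have h1 := hcol l
    rw [hl] at h1
    by_contra hne
    have hφ : (φ l : F) - 1 ≠ 0 := fun e => hne (by rw [h1, sub_eq_zero.mp e, one_smul])
    have h2 : ap m (ap g⁻¹ e[l]) = (φ l : F) • ap g⁻¹ e[l] := by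
      rw [← ap_smul, ← h1, hhdef, ap_mul, ap_mul, ap_inv_ap]
    have h3 := congrFun h2 k
    rw [hml _ k hk.1 hk.2.1 hk.2.2.1 hk.2.2.2, Pi.smul_apply, smul_eq_mul] at h3
    refine row_ne_zero hσ h5 hn hX hM hN hg hgn l k ((mul_eq_zero.mp (show ((φ l : F) - 1) *
      ap g⁻¹ e[l] k = 0 by linear_combination -h3)).resolve_left hφ)
  have hπ2 : ∀ l, π (π l) = l := fun l => by
    have h1 := hhh e[l]
    rw [hcol, ap_smul, hcol, smul_smul] at h1
    by_contra hne
    have := congrFun h1 l
    simp [Ne.symm hne] at this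
  have hπo : π o = o := by
    by_contra hne
    have := congrFun (hcol o) o
    rw [hho] at this
    simp [Ne.symm hne] at this
  obtain ⟨y, hyo, hπy⟩ : ∃ y, y ≠ o ∧ π y = y := by
    by_contra hno
    push Not at hno
    have pick : ∀ S : Finset ι, S.card ≤ 5 → ∃ i, i ∉ S := fun S hS => by
      by_contra h
      push Not at h
      have := card_le_card (show (univ : Finset ι) ⊆ S from fun i _ => h i)
      rw [card_univ, hn] at this
      omega
    obtain ⟨i, hi⟩ := pick {o} (by simp)
    simp only [mem_singleton] at hi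
    have h1 := hno i hi
    have h1' : π i ≠ o := fun e => hi (π.injective (e.trans hπo.symm))
    obtain ⟨j, hj⟩ := pick {o, i, π i} (card_le_three.trans (by norm_num))
    simp only [mem_insert, mem_singleton, not_or] at hj
    have h2 := hno j hj.1
    have h2' : π j ≠ o := fun e => hj.1 (π.injective (e.trans hπo.symm))
    have h2a : π j ≠ i := fun e => hj.2.2 (by rw [← e, hπ2])
    have h2b : π j ≠ π i := fun e => hj.2.1 (π.injective e)
    obtain ⟨l, hl⟩ := pick {o, i, π i, j, π j} card_le_five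
    simp only [mem_insert, mem_singleton, not_or] at hl
    have h3 := hno l hl.1
    have h3' : π l ≠ o := fun e => hl.1 (π.injective (e.trans hπo.symm))
    have h3a : π l ≠ i := fun e => hl.2.2.1 (by rw [← e, hπ2])
    have h3b : π l ≠ π i := fun e => hl.2.1 (π.injective e)
    have h3c : π l ≠ j := fun e => hl.2.2.2.2 (by rw [← e, hπ2])
    have h3d : π l ≠ π j := fun e => hl.2.2.2.1 (π.injective e)
    have hsub : ({o, i, π i, j, π j, l, π l} : Finset ι).card ≤ 6 := hn ▸ card_le_univ _
    rw [card_insert_of_notMem (by simp [Ne.symm hi, h1'.symm, Ne.symm hj.1, h2'.symm, Ne.symm hl.1,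
        h3'.symm]),
      card_insert_of_notMem (by simp [h1.symm, Ne.symm hj.2.1, h2a.symm, Ne.symm hl.2.1, h3a.symm]),
      card_insert_of_notMem (by simp [Ne.symm hj.2.2, h2b.symm, Ne.symm hl.2.2.1, h3b.symm]),
      card_insert_of_notMem (by simp [h2.symm, Ne.symm hl.2.2.2.1, h3c.symm]),
      card_insert_of_notMem (by simp [Ne.symm hl.2.2.2.2, h3d.symm]),
      card_insert_of_notMem (by simp [h3.symm]), card_singleton] at hsub
    omega
  have hmw : ap m (ap g⁻¹ e[y]) = ap g⁻¹ e[y] := by
    apply ap_injective g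
    rw [ap_ap_inv]
    have := hphase y hπy
    rw [hhdef, ap_mul, ap_mul] at this
    exact this
  refine ⟨y, hyo, ⟨hpp, hδc, (div_mul_cancel₀ _ (hu p)).symm, ?_⟩,
    ⟨hss, hεc, (div_mul_cancel₀ _ (hu s)).symm, ?_⟩⟩
  · rw [← hmp', hmw]
  · rw [← hms', hmw]

/-- The involution of the plane of two rows has no zero entry. -/
lemma exists_twoRows {g : GL ι F} (hg : g ∈ X) (hgn : ¬ IsMon g) {o y : ι} (hyo : y ≠ o) :
    ∃ y0, TwoRows σ X (ap g⁻¹ e[o]) (ap g⁻¹ e[y]) y0 := by
  obtain ⟨h2, -, -⟩ := five_consts hσ h5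
  have hu := row_ne_zero hσ h5 hn hX hM hN hg hgn o
  have hw := row_ne_zero hσ h5 hn hX hM hN hg hgn y
  have hu1 := (row_orth hσ hX hg o o).trans (if_pos rfl)
  have hw1 := (row_orth hσ hX hg y y).trans (if_pos rfl)
  have huw := (row_orth hσ hX hg o y).trans (if_neg (Ne.symm hyo))
  have hwu := (row_orth hσ hX hg y o).trans (if_neg hyo)
  set u := ap g⁻¹ e[o] with hudef
  set w := ap g⁻¹ e[y] with hwdef
  set d : ι → F := Function.update (Function.update 1 o (-1)) y (-1) with hd
  have hdc : ∀ i, d i ∈ cir σ := fun i => by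
    by_cases h1 : i = y
    · subst h1; simpa [hd] using neg_mem_cir (σ := σ) one_mem_cir
    by_cases h2 : i = o
    · subst h2; simpa [hd, h1] using neg_mem_cir (σ := σ) one_mem_cir
    · simp [hd, h1, h2, one_mem_cir]
  have hd0 := fun i => ne_zero_of_mem_cir (hdc i)
  have hprod : ∏ i, d i = 1 := by
    rw [hd, Finset.prod_update_of_mem (mem_univ y),
      Finset.prod_update_of_mem (show o ∈ univ \ {y} by simp [Ne.symm hyo])]
    simp
  set y0 := g⁻¹ * dia d * g with hy0
  have hy0X : y0 ∈ X := mul_mem (mul_mem (inv_mem hg) (dia_mem hM hdc hprod)) hg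
  have hform : ∀ x, ap y0 x = x - (2 * hb σ x u) • u - (2 * hb σ x w) • w := by
    intro x
    have hcoord : ∀ i, ap g x i = hb σ x (ap g⁻¹ e[i]) := fun i => by
      have := hb_single_right (σ := σ) (ap g x) i 1
      rw [map_one, mul_one, hb_ap_left (hX hg)] at this
      exact this.symm
    have key : ap (dia d) (ap g x) =
        ap g x - (2 * ap g x o) • e[o] - (2 * ap g x y) • e[y] := funext fun i => by
      rw [ap_dia hd0]
      by_cases h1 : i = y
      · subst h1; simp [hd, hyo]; ring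
      by_cases h2 : i = o
      · subst h2; simp [hd, h1]; ring
      · simp [hd, h1, h2]
    rw [hy0, ap_mul, ap_mul, key, ap_sub, ap_sub, ap_smul, ap_smul, ap_inv_ap, hcoord, hcoord]
  have hdet : (y0 : Matrix ι ι F).det = 1 := by
    rw [hy0, Units.val_mul, Units.val_mul, Matrix.det_units_conj', det_mo hd0]
    simpa using hprod
  refine ⟨y0, hu1, hw1, huw, hwu, hy0X, hdet, hform, fun i j =>
    no_zero hσ h5 hn hX hM hN hy0X ?_ j i, hu, hw⟩
  -- it is not monomial
  rintro ⟨π, φ, hπ⟩
  set v : ι → ι → F := fun l => σ (u l) • u + σ (w l) • w with hv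
  have hvs : ∀ l i, i ≠ l → i ≠ π l → v l i = 0 := by
    intro l i h1 h2'
    have := congrFun (hform e[l]) i
    rw [hπ, ap_mon_single] at this
    simp [hb_single_left, h1, h2'] at this
    have e : (2 : F) * (σ (u l) * u i + σ (w l) * w i) = 0 := by linear_combination this
    simpa [hv] using (mul_eq_zero.mp e).resolve_left h2
  have hv0 : ∀ l, v l ≠ 0 := fun l e => by
    have h1 := congrArg (fun z => hb σ z u) e
    simp only [hv, hb_add_left, hb_smul_left, hu1, hwu, hb_zero_left, mul_one, mul_zero,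
      add_zero] at h1
    exact hu l ((map_eq_zero σ).mp h1)
  obtain ⟨l, -⟩ : ∃ l : ι, True := ⟨o, trivial⟩
  obtain ⟨l', hl'⟩ : ∃ l', l' ∉ ({l, π l, π.symm l} : Finset ι) := by
    by_contra h
    push Not at h
    have := card_le_card (show (univ : Finset ι) ⊆ {l, π l, π.symm l} from fun i _ => h i)
    have := card_le_three (a := l) (b := π l) (c := π.symm l)
    rw [card_univ, hn] at *
    omega
  simp only [mem_insert, mem_singleton, not_or] at hl'
  have hd1 : π l' ≠ l := fun e => hl'.2.2 (by rw [← e, Equiv.symm_apply_apply])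
  have hd2 : π l' ≠ π l := fun e => hl'.1 (π.injective e)
  obtain ⟨i, hi⟩ : ∃ i, i ∉ ({l, π l, l', π l'} : Finset ι) := by
    by_contra h
    push Not at h
    have := card_le_card (show (univ : Finset ι) ⊆ {l, π l, l', π l'} from fun i _ => h i)
    have := card_le_four (a := l) (b := π l) (c := l') (d := π l')
    rw [card_univ, hn] at *
    omega
  simp only [mem_insert, mem_singleton, not_or] at hi
  by_cases hD : σ (u l) * σ (w l') - σ (u l') * σ (w l) = 0
  · obtain ⟨j, hj⟩ := Function.ne_iff.mp (hv0 l')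
    have hjs : j = l' ∨ j = π l' := by
      by_contra h
      push Not at h
      exact hj (hvs l' j h.1 h.2)
    have h0 : v l j = 0 := by
      rcases hjs with rfl | rfl
      · exact hvs l _ hl'.1 hl'.2.1
      · exact hvs l _ hd1 hd2
    apply hj
    simp only [hv, Pi.add_apply, Pi.smul_apply, smul_eq_mul, Pi.zero_apply] at h0 ⊢
    have hul : σ (u l) ≠ 0 := (map_ne_zero σ).mpr (hu l)
    refine mul_left_cancel₀ hul ?_
    linear_combination (σ (u l')) * h0 + (w j) * hD
  · have e1 := hvs l i hi.1 hi.2.1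
    have e2 := hvs l' i hi.2.2.1 hi.2.2.2
    simp only [hv, Pi.add_apply, Pi.smul_apply, smul_eq_mul] at e1 e2
    exact hu i ((mul_eq_zero.mp (show (σ (u l) * σ (w l') - σ (u l') * σ (w l)) * u i = 0 by
      linear_combination (σ (w l')) * e1 - (σ (w l)) * e2)).resolve_left hD)

omit hN in
/-- The product of the involutions of the pair and of the plane. -/
lemma exists_rotation {u w : ι → F} {y0 : GL ι F} (H : TwoRows σ X u w y0) {p p' : ι} {δ : F}
    (P : Paired σ u w p p' δ) :
    ∃ x ∈ X, ∃ r f g1 u' : ι → F,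
      (x : Matrix ι ι F).det = 1 ∧ r = e[p] - δ • e[p'] ∧ f = e[p] + δ • e[p'] ∧
      u' = w p • u - u p • w ∧ g1 p = 0 ∧ g1 p' = 0 ∧
      (∀ i, i ≠ p → i ≠ p' → g1 i ≠ 0) ∧ ap x r = -r ∧ ap x u' = -u' ∧
      ap x f = -(1 - 4 * nsum σ u w p) • f + g1 ∧
      ap x g1 = -(1 - (1 - 4 * nsum σ u w p) ^ 2) • f - (1 - 4 * nsum σ u w p) • g1 ∧
      (nsum σ u w p ≠ 0 → u = (nsum σ u w p)⁻¹ • ((-(u p) / 4) • (g1 - (4 * nsum σ u w p) • f) +
        σ (w p) • u')) ∧
      (nsum σ u w p ≠ 0 → w = (nsum σ u w p)⁻¹ • ((-(w p) / 4) • (g1 - (4 * nsum σ u w p) • f) -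
        σ (u p) • u')) ∧
      (∀ v, v p = 0 → v p' = 0 → hb σ v u = 0 → hb σ v w = 0 → ap x v = v) ∧
      (nsum σ u w p ≠ 0 → ∀ v, ∃ α β γ ε : F,
        ap x v = v + α • r + β • f + γ • g1 + ε • u') := by
  obtain ⟨h2, h3, -⟩ := five_consts hσ h5
  have h50 := five_eq_zero hσ h5
  haveI : CharP F 5 := charP_five hσ h5
  have h4 : (4 : F) ≠ 0 := by
    rw [show (4 : F) = 2 * 2 by norm_num]; exact mul_ne_zero h2 h2
  have hδ := mem_cir.mp P.cir
  set A := nsum σ u w p with hA
  set d : ι → F := Function.update (Function.update 1 p (-1)) p' (-1) with hd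
  have hdc : ∀ i, d i ∈ cir σ := fun i => by
    by_cases a1 : i = p'
    · subst a1; simpa [hd] using neg_mem_cir (σ := σ) one_mem_cir
    by_cases a2 : i = p
    · subst a2; simpa [hd, a1] using neg_mem_cir (σ := σ) one_mem_cir
    · simp [hd, a1, a2, one_mem_cir]
  have hd0 := fun i => ne_zero_of_mem_cir (hdc i)
  have hprod : ∏ i, d i = 1 := by
    rw [hd, Finset.prod_update_of_mem (mem_univ p'),
      Finset.prod_update_of_mem (show p ∈ univ \ {p'} by simp [P.ne])]
    simp
  set W := dia d with hW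
  have hWv : ∀ v, ap W v = v - (2 * v p) • e[p] - (2 * v p') • e[p'] := fun v => funext fun i => by
    rw [hW, ap_dia hd0]
    by_cases a1 : i = p'
    · subst a1; simp [hd, Ne.symm P.ne]; ring
    by_cases a2 : i = p
    · subst a2; simp [hd, a1]; ring
    · simp [hd, a1, a2]
  obtain ⟨r, hr⟩ : ∃ r : ι → F, r = e[p] - δ • e[p'] := ⟨_, rfl⟩
  obtain ⟨f, hf⟩ : ∃ f : ι → F, f = e[p] + δ • e[p'] := ⟨_, rfl⟩
  obtain ⟨u', hu'⟩ : ∃ u' : ι → F, u' = w p • u - u p • w := ⟨_, rfl⟩
  obtain ⟨g1, hg1⟩ : ∃ g1, g1 = ap y0 f - (1 - 4 * A) • f := ⟨_, rfl⟩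
  have hfu : hb σ f u = 2 * σ (u p) := by
    rw [hf, hb_add_left, hb_smul_left, hb_single_left, hb_single_left, P.hu, map_mul]
    linear_combination σ (u p) * hδ
  have hfw : hb σ f w = 2 * σ (w p) := by
    rw [hf, hb_add_left, hb_smul_left, hb_single_left, hb_single_left, P.hw, map_mul]
    linear_combination σ (w p) * hδ
  have hru : hb σ r u = 0 := by
    rw [hr, hb_sub_left, hb_smul_left, hb_single_left, hb_single_left, P.hu, map_mul]
    linear_combination -σ (u p) * hδ
  have hrw : hb σ r w = 0 := by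
    rw [hr, hb_sub_left, hb_smul_left, hb_single_left, hb_single_left, P.hw, map_mul]
    linear_combination -σ (w p) * hδ
  have hyf : ap y0 f = f - (4 * σ (u p)) • u - (4 * σ (w p)) • w := by
    rw [H.formula, hfu, hfw]; module
  have hg1eq : g1 = (4 * A) • f - (4 * σ (u p)) • u - (4 * σ (w p)) • w := by
    rw [hg1, hyf]; module
  have hfp : f p = 1 := by simp [hf, P.ne]
  have hfp' : f p' = δ := by simp [hf, Ne.symm P.ne]
  have hg1p : g1 p = 0 := by
    rw [hg1eq]; simp [hfp, hA, nsum]; ring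
  have hg1p' : g1 p' = 0 := by
    rw [hg1eq]; simp [hfp', hA, nsum, P.hu, P.hw]; ring
  have hu'p : u' p = 0 := by simp [hu']; ring
  have hu'p' : u' p' = 0 := by simp [hu', P.hu, P.hw]; ring
  have hy0f : ap y0 (ap y0 f) = f := by
    rw [hyf, ap_sub, ap_sub, ap_smul, ap_smul, hyf, H.formula u, H.formula w, H.hu, H.hw, H.huw,
      H.hwu]
    module
  set x := W * y0 with hx
  have hxv : ∀ v, ap x v = ap W (ap y0 v) := fun v => by rw [hx, ap_mul]
  have hWf : ap W f = -f := by
    rw [hWv, hfp, hfp', hf]; module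
  have hWg : ap W g1 = g1 := by rw [hWv, hg1p, hg1p']; simp
  have hWu : ap W u = u - (2 * u p) • f := by rw [hWv, P.hu, hf]; module
  have hWw : ap W w = w - (2 * w p) • f := by rw [hWv, P.hw, hf]; module
  have hxr : ap x r = -r := by
    rw [hxv, H.formula, hru, hrw, mul_zero, zero_smul, sub_zero, zero_smul, sub_zero, hWv, hr]
    simp [P.ne, Ne.symm P.ne]
    module
  have hxu' : ap x u' = -u' := by
    have e1 : hb σ u' u = w p := by
      rw [hu', hb_sub_left, hb_smul_left, hb_smul_left, H.hu, H.hwu]; ring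
    have e2 : hb σ u' w = -u p := by
      rw [hu', hb_sub_left, hb_smul_left, hb_smul_left, H.hw, H.huw]; ring
    have e3 : ap y0 u' = -u' := by rw [H.formula, e1, e2, hu']; module
    rw [hxv, e3, hWv]
    simp [hu'p, hu'p']
  have hxf : ap x f = -(1 - 4 * A) • f + g1 := by
    rw [hxv, show ap y0 f = (1 - 4 * A) • f + g1 by rw [hg1]; module, ap_add, ap_smul, hWf, hWg]
    module
  have hxg : ap x g1 = -(1 - (1 - 4 * A) ^ 2) • f - (1 - 4 * A) • g1 := by
    rw [hxv]
    have e0 : ap y0 f = (1 - 4 * A) • f + g1 := by rw [hg1]; module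
    conv_lhs => rw [hg1]
    rw [ap_sub, ap_smul, hy0f, e0,
      show f - (1 - 4 * A) • ((1 - 4 * A) • f + g1) =
        (1 - (1 - 4 * A) ^ 2) • f + (-(1 - 4 * A)) • g1 by module,
      ap_add, ap_smul, ap_smul, hWf, hWg]
    module
  have hexpu : A ≠ 0 → u = A⁻¹ • ((-(u p) / 4) • (g1 - (4 * A) • f) + σ (w p) • u') := fun hA0 => by
    rw [hg1eq, hu']
    match_scalars
    · field_simp
      simp only [hA, nsum]
      ring
    · field_simp
      ring
    · field_simp
      ring
  have hexpw : A ≠ 0 → w = A⁻¹ • ((-(w p) / 4) • (g1 - (4 * A) • f) - σ (u p) • u') := fun hA0 => by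
    rw [hg1eq, hu']
    match_scalars
    · field_simp
      simp only [hA, nsum]
      ring
    · field_simp
      ring
    · field_simp
      ring
  refine ⟨x, mul_mem (dia_mem hM hdc hprod) H.mem, r, f, g1, u', ?_, hr, hf, hu', hg1p, hg1p',
    fun i hi hi' => ?_, hxr, hxu', hxf, hxg, hexpu, hexpw, fun v a1 a2 a3 a4 => ?_, fun hA0 v => ?_⟩
  · rw [hx, Units.val_mul, Matrix.det_mul, H.det, mul_one, hW, det_mo hd0]
    simpa using hprod
  · have h1 := H.entry i p
    rw [H.formula, hb_single_left, hb_single_left] at h1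
    simp [hi] at h1
    intro h0
    apply h1
    rw [hg1eq] at h0
    simp [hf, hi, hi'] at h0
    refine mul_left_cancel₀ h2 ?_
    linear_combination h0
  · rw [hxv, H.formula, a3, a4, mul_zero, zero_smul, sub_zero, zero_smul, sub_zero, hWv, a1, a2]
    simp
  · refine ⟨-v p + v p' * σ δ,
      -v p - v p' * σ δ + 4 * hb σ v u * u p + 4 * hb σ v w * w p -
        2 * (hb σ v u * u p + hb σ v w * w p),
      (hb σ v u * u p + hb σ v w * w p) / (2 * A),
      -2 * (hb σ v u * σ (w p) - hb σ v w * σ (u p)) / A, ?_⟩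
    have ep : (e[p] : ι → F) = (2 : F)⁻¹ • (f + r) := by
      rw [hf, hr]; match_scalars <;> field_simp <;> ring
    have ep' : (e[p'] : ι → F) = ((2 : F)⁻¹ * σ δ) • (f - r) := by
      rw [hf, hr]
      match_scalars <;> field_simp <;>
        first | ring1 | linear_combination (-2 : F) * hδ | linear_combination (2 : F) * hδ
    have key : ap x v = v - (2 * v p) • e[p] - (2 * v p') • e[p'] -
        (2 : F) • (hb σ v u • u + hb σ v w • w) +
        (4 * (hb σ v u * u p + hb σ v w * w p)) • f := by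
      rw [hxv, H.formula, ap_sub, ap_sub, ap_smul, ap_smul, hWv v, hWu, hWw]
      module
    have hL : hb σ v u • u + hb σ v w • w =
        (-(hb σ v u * u p + hb σ v w * w p) / (4 * A)) • (g1 - (4 * A) • f) +
        ((hb σ v u * σ (w p) - hb σ v w * σ (u p)) / A) • u' := by
      conv_lhs => arg 1; arg 2; rw [hexpu hA0]
      conv_lhs => arg 2; arg 2; rw [hexpw hA0]
      match_scalars <;> field_simp <;> ring
    rw [key, hL, ep, ep']
    match_scalars <;> field_simp <;> ring

/-- A pair of two rows has norm sum one or two. -/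
lemma nsum_eq {u w : ι → F} {y0 : GL ι F} (H : TwoRows σ X u w y0) {p p' : ι} {δ : F}
    (P : Paired σ u w p p' δ) : nsum σ u w p = 1 ∨ nsum σ u w p = 2 := by
  obtain ⟨h2, h3, hfxd⟩ := five_consts hσ h5
  have h50 := five_eq_zero hσ h5
  haveI : CharP F 5 := charP_five hσ h5
  have hδ := mem_cir.mp P.cir
  have hmem : nsum σ u w p ∈ fxd σ := by simp [fxd, nsum, hσ.invol, mul_comm]
  rw [hfxd] at hmem
  simp only [mem_insert, mem_singleton] at hmem
  rcases hmem with h | h | h | h | h
  · have h1 := H.entry p' p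
    rw [H.formula, hb_single_left, hb_single_left] at h1
    simp [Ne.symm P.ne, P.hu, P.hw] at h1
    simp only [nsum] at h
    exact absurd (by linear_combination (-2 * δ) * h) h1
  · exact Or.inl h
  · exact Or.inr h
  · have h1 := H.entry p p
    rw [H.formula, hb_single_left, hb_single_left] at h1
    simp at h1
    simp only [nsum] at h
    exact absurd (by linear_combination -2 * h - h50) h1
  exfalso
  obtain ⟨x, hxX, r, f, g1, u', -, hr, hf, -, hgp, hgp', hgne, hxr, hxu, hxf, hxg, -, -, -, hspan⟩ :=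
    exists_rotation hσ h5 hn hX hM H P
  have hk : (1 : F) - 4 * nsum σ u w p = 0 := by rw [h]; linear_combination -3 * h50
  rw [hk] at hxf hxg
  simp at hxf hxg
  set z := x * x with hz
  have hzv : ∀ v, ap z v = ap x (ap x v) := fun v => by rw [hz, ap_mul]
  have hzf : ap z f = -f := by rw [hzv, hxf, hxg]
  have hzr : ap z r = r := by
    rw [hzv, hxr, show -r = (-1 : F) • r by simp, ap_smul, hxr]; simp
  have hzg : ap z g1 = -g1 := by
    rw [hzv, hxg, show -f = (-1 : F) • f by simp, ap_smul, hxf]; simp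
  have ep : (e[p] : ι → F) = (2 : F)⁻¹ • (f + r) := by
    rw [hf, hr]; match_scalars <;> field_simp <;> ring
  have hzp : ap z e[p] = (-δ) • e[p'] := by
    rw [ep, ap_smul, ap_add, hzf, hzr, hf, hr]
    match_scalars <;> field_simp <;> ring
  obtain ⟨π, φ, hπ⟩ := isMon_of_zero hσ h5 hn hX hM hN (mul_mem hxX hxX) (j := p) (a := p)
    (by rw [← hz, hzp]; simp [P.ne])
  rw [← hz] at hπ
  have hπp : π p = p' := by
    by_contra hne
    have h1 := congrFun hzp (π p)
    rw [hπ, ap_mon_single] at h1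
    simp [hne] at h1
  have hπp' : π p' = p := by
    have ep' : (e[p'] : ι → F) = ((2 : F)⁻¹ * σ δ) • (f - r) := by
      rw [hf, hr]
      match_scalars <;> field_simp <;>
        first | ring1 | linear_combination (-2 : F) * hδ | linear_combination (2 : F) * hδ
    have hzp' : ap z e[p'] = (-σ δ) • e[p] := by
      rw [ep', ap_smul, ap_sub, hzf, hzr, hf, hr]
      match_scalars <;> field_simp <;> ring
    by_contra hne
    have h1 := congrFun hzp' (π p')
    rw [hπ, ap_mon_single] at h1
    simp [hne] at h1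
  have hfix : ∀ j, j ≠ p → j ≠ p' → π j = j ∧ (φ j : F) = 1 := by
    intro j hj hj'
    have hA0 : nsum σ u w p ≠ 0 := h.symm ▸ (by
      rw [show (4 : F) = 2 * 2 by norm_num]; exact mul_ne_zero h2 h2)
    obtain ⟨α, β, γ, ε, he⟩ := hspan hA0 e[j]
    have hzj : ap z e[j] = e[j] + (β - γ) • f + (β + γ) • g1 := by
      rw [hzv, he, ap_add, ap_add, ap_add, ap_add, ap_smul, ap_smul, ap_smul, ap_smul, he, hxr,
        hxf, hxg, hxu]
      module
    have n1 : π j ≠ p := fun e => hj' (π.injective (e.trans hπp'.symm))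
    have e1 := congrFun hzj p
    rw [hπ, ap_mon_single] at e1
    simp [Ne.symm n1, Ne.symm hj, hgp, hf, P.ne] at e1
    rw [← e1, zero_smul, add_zero] at hzj
    obtain ⟨t, ht⟩ : ∃ t, t ∉ ({p, p', j, π j} : Finset ι) := by
      by_contra hc
      push Not at hc
      have := card_le_card (show (univ : Finset ι) ⊆ {p, p', j, π j} from fun i _ => hc i)
      have := card_le_four (a := p) (b := p') (c := j) (d := π j)
      rw [card_univ, hn] at *
      omega
    simp only [mem_insert, mem_singleton, not_or] at ht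
    have e2 := congrFun hzj t
    rw [hπ, ap_mon_single] at e2
    simp [ht.2.2.1, ht.2.2.2, hgne t ht.1 ht.2.1] at e2
    rw [e2, zero_smul, add_zero, hπ, ap_mon_single, mul_one] at hzj
    have hπj : π j = j := by
      by_contra hne
      have := congrFun hzj (π j)
      simp [hne] at this
    refine ⟨hπj, ?_⟩
    have := congrFun hzj j
    simpa [hπj] using this
  obtain ⟨j, hj⟩ : ∃ j, j ∉ ({p, p'} : Finset ι) := by
    by_contra hc
    push Not at hc
    have := card_le_card (show (univ : Finset ι) ⊆ {p, p'} from fun i _ => hc i)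
    have := card_le_two (a := p) (b := p')
    rw [card_univ, hn] at *
    omega
  simp only [mem_insert, mem_singleton, not_or] at hj
  obtain ⟨hπj, hφj⟩ := hfix j hj.1 hj.2
  have e3 := congrFun hzg j
  rw [hπ, ap_mon, show π.symm j = j by rw [Equiv.symm_apply_eq, hπj], hφj, one_mul,
    Pi.neg_apply] at e3
  exact hgne j hj.1 hj.2 ((mul_eq_zero.mp (show (2 : F) * g1 j = 0 by linear_combination e3))
    |>.resolve_left h2)

/-- A pair of norm sum two is proportional to another pair or to a further coordinate. -/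
lemma prop_of_two {u w : ι → F} {y0 : GL ι F} (H : TwoRows σ X u w y0) {p p' s s' c : ι}
    {δ ε : F} (P : Paired σ u w p p' δ) (S : Paired σ u w s s' ε)
    (hdist : s ≠ p ∧ s ≠ p' ∧ s' ≠ p ∧ s' ≠ p' ∧ c ≠ p ∧ c ≠ p' ∧ c ≠ s ∧ c ≠ s')
    (hA : nsum σ u w p = 2) : w p * u s = u p * w s ∨ w p * u c = u p * w c := by
  obtain ⟨h2, h3, -⟩ := five_consts hσ h5
  have h50 := five_eq_zero hσ h5
  haveI : CharP F 5 := charP_five hσ h5
  obtain ⟨hsp, hsp', hs'p, hs'p', hcp, hcp', hcs, hcs'⟩ := hdist
  obtain ⟨x, hxX, r, f, g1, u', -, hr, hf, hu', hgp, hgp', -, hxr, hxu, hxf, hxg, -, -, -, hspan⟩ :=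
    exists_rotation hσ h5 hn hX hM H P
  have hk : (1 : F) - 4 * nsum σ u w p = 3 := by rw [hA]; linear_combination -2 * h50
  rw [hk] at hxf hxg
  set z := x * (x * x) with hz
  have hzv : ∀ v, ap z v = ap x (ap x (ap x v)) := fun v => by rw [hz, ap_mul, ap_mul]
  have hzf : ap z f = f := by
    simp only [hzv, hxf, hxg, ap_add, ap_sub, ap_smul]
    match_scalars
    all_goals first
      | linear_combination (7 : F) * h50
      | linear_combination (-20 : F) * h50
      | linear_combination (-5 : F) * h50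
      | linear_combination (3 : F) * h50
      | linear_combination (9 : F) * h50
  have hzr : ap z r = -r := by
    rw [hzv, hxr, show -r = (-1 : F) • r by simp, ap_smul, hxr, show -r = (-1 : F) • r by simp,
      ap_smul, ap_smul, hxr]
    simp
  have hzu : ap z u' = -u' := by
    rw [hzv, hxu, show -u' = (-1 : F) • u' by simp, ap_smul, hxu, show -u' = (-1 : F) • u' by simp,
      ap_smul, ap_smul, hxu]
    simp
  have ep : (e[p] : ι → F) = (2 : F)⁻¹ • (f + r) := by
    rw [hf, hr]; match_scalars <;> field_simp <;> ring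
  have hzp : ap z e[p] = δ • e[p'] := by
    rw [ep, ap_smul, ap_add, hzf, hzr, hf, hr]
    match_scalars <;> field_simp <;> ring
  obtain ⟨π, φ, hπ⟩ := isMon_of_zero hσ h5 hn hX hM hN (mul_mem hxX (mul_mem hxX hxX)) (j := p)
    (a := p) (by rw [← hz, hzp]; simp [P.ne])
  rw [← hz] at hπ
  have hδ := mem_cir.mp P.cir
  have hπp' : π p' = p := by
    have ep' : (e[p'] : ι → F) = ((2 : F)⁻¹ * σ δ) • (f - r) := by
      rw [hf, hr]
      match_scalars <;> field_simp <;>
        first | ring1 | linear_combination (-2 : F) * hδ | linear_combination (2 : F) * hδ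
    have hzp' : ap z e[p'] = σ δ • e[p] := by
      rw [ep', ap_smul, ap_sub, hzf, hzr, hf, hr]
      match_scalars <;> field_simp <;> ring
    by_contra hne
    have h1 := congrFun hzp' (π p')
    rw [hπ, ap_mon_single] at h1
    simp [hne] at h1
  by_contra hno
  push Not at hno
  have hus : u' s ≠ 0 := by simp [hu']; exact sub_ne_zero.mpr hno.1
  have huc : u' c ≠ 0 := by simp [hu']; exact sub_ne_zero.mpr hno.2
  have hus' : u' s' ≠ 0 := by
    have : u' s' = ε * u' s := by simp [hu', S.hu, S.hw]; ring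
    rw [this]; exact mul_ne_zero (ne_zero_of_mem_cir S.cir) hus
  have hall : ∀ j, j ≠ p → j ≠ p' → ap z e[j] = e[j] := by
    intro j hj hj'
    obtain ⟨α, β, γ, ζ, he⟩ := hspan (hA.symm ▸ h2) e[j]
    have hzj : ap z e[j] = e[j] + α • r + ζ • u' := by
      simp only [hzv, he, ap_add, ap_sub, ap_smul, ap_neg', hxr, hxf, hxg, hxu]
      match_scalars
      all_goals first
        | ring1
        | linear_combination (3 * β - 8 * γ) * h50
        | linear_combination (3 * γ - β) * h50
    have n1 : π j ≠ p := fun e => hj' (π.injective (e.trans hπp'.symm))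
    have e1 := congrFun hzj p
    rw [hπ, ap_mon_single] at e1
    have hu'p : u' p = 0 := by simp [hu']; ring
    simp [Ne.symm n1, Ne.symm hj, hr, hu'p, P.ne] at e1
    rw [← e1, zero_smul, add_zero] at hzj
    by_cases hζ : ζ = 0
    · rw [hzj, hζ, zero_smul, add_zero]
    exfalso
    -- two places only
    have hsupp : ∀ i, i ≠ j → i ≠ π j → u' i = 0 := fun i h1 h2' => by
      have e2 := congrFun hzj i
      rw [hπ, ap_mon_single] at e2
      simp [h1, h2'] at e2
      exact e2.resolve_left hζ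
    have mem : ∀ i, u' i ≠ 0 → i = j ∨ i = π j := fun i hi => by
      by_contra hc
      push Not at hc
      exact hi (hsupp i hc.1 hc.2)
    rcases mem s hus with a | a <;> rcases mem s' hus' with b | b <;> rcases mem c huc with d | d
    all_goals first
      | exact S.ne (a.trans b.symm)
      | exact hcs (d.trans a.symm)
      | exact hcs' (d.trans b.symm)
  have hmon : ap z u' s = u' s := by
    have h1 := congrFun (hall s hsp hsp') s
    rw [hπ, ap_mon_single] at h1
    have hπs : π s = s := by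
      by_contra hne
      simp [Ne.symm hne] at h1
    rw [hπ, ap_mon, show π.symm s = s by rw [Equiv.symm_apply_eq, hπs]]
    rw [hπs] at h1
    simp at h1
    simp [h1]
  rw [hzu, Pi.neg_apply] at hmon
  exact hus ((mul_eq_zero.mp (show (2 : F) * u' s = 0 by linear_combination -hmon)).resolve_left h2)

/-- A pair of norm sum one gives a third pair. -/
lemma pair_of_one {u w : ι → F} {y0 : GL ι F} (H : TwoRows σ X u w y0) {p p' s s' c d : ι}
    {δ ε : F} (P : Paired σ u w p p' δ) (S : Paired σ u w s s' ε)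
    (hdist : s ≠ p ∧ s ≠ p' ∧ s' ≠ p ∧ s' ≠ p' ∧ c ≠ p ∧ c ≠ p' ∧ c ≠ s ∧ c ≠ s' ∧
      d ≠ p ∧ d ≠ p' ∧ d ≠ s ∧ d ≠ s' ∧ c ≠ d)
    (hcover : ∀ i, i = p ∨ i = p' ∨ i = s ∨ i = s' ∨ i = c ∨ i = d)
    (hA : nsum σ u w p = 1) : ∃ ψ, Paired σ u w c d ψ := by
  obtain ⟨h2, h3, -⟩ := five_consts hσ h5
  have h50 := five_eq_zero hσ h5
  haveI : CharP F 5 := charP_five hσ h5
  have hδ := mem_cir.mp P.cir
  obtain ⟨hsp, hsp', hs'p, hs'p', hcp, hcp', hcs, hcs', hdp, hdp', hds, hds', hcd⟩ := hdist
  obtain ⟨x, hxX, r, f, g1, u', hxdet, hr, hf, hu', hgp, hgp', -, hxr, hxu, hxf, hxg, hexpu, hexpw,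
    hxfix, -⟩ := exists_rotation hσ h5 hn hX hM H P
  have hk : (1 : F) - 4 * nsum σ u w p = 2 := by rw [hA]; linear_combination -h50
  rw [hk] at hxf hxg
  have hA0 : nsum σ u w p ≠ 0 := hA.symm ▸ one_ne_zero
  set z := x * (x * x) with hz
  have hzv : ∀ v, ap z v = ap x (ap x (ap x v)) := fun v => by rw [hz, ap_mul, ap_mul]
  have hzf : ap z f = -f := by
    simp only [hzv, hxf, hxg, ap_add, ap_sub, ap_smul]
    match_scalars
    all_goals first
      | linear_combination (7 : F) * h50
      | linear_combination (-20 : F) * h50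
      | linear_combination (-5 : F) * h50
      | linear_combination (3 : F) * h50
      | linear_combination (9 : F) * h50
  have hzg : ap z g1 = -g1 := by
    simp only [hzv, hxf, hxg, ap_add, ap_sub, ap_smul]
    match_scalars
    all_goals first
      | linear_combination (7 : F) * h50
      | linear_combination (-20 : F) * h50
      | linear_combination (-5 : F) * h50
      | linear_combination (3 : F) * h50
      | linear_combination (9 : F) * h50
  have hzr : ap z r = -r := by
    rw [hzv, hxr, show -r = (-1 : F) • r by simp, ap_smul, hxr, show -r = (-1 : F) • r by simp,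
      ap_smul, ap_smul, hxr]
    simp
  have hzu' : ap z u' = -u' := by
    rw [hzv, hxu, show -u' = (-1 : F) • u' by simp, ap_smul, hxu, show -u' = (-1 : F) • u' by simp,
      ap_smul, ap_smul, hxu]
    simp
  have hzu : ap z u = -u := by
    rw [hexpu hA0, ap_smul, ap_add, ap_smul, ap_smul, ap_sub, ap_smul, hzg, hzf, hzu']
    module
  have hzw : ap z w = -w := by
    rw [hexpw hA0, ap_smul, ap_sub, ap_smul, ap_smul, ap_sub, ap_smul, hzg, hzf, hzu']
    module
  have ep : (e[p] : ι → F) = (2 : F)⁻¹ • (f + r) := by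
    rw [hf, hr]; match_scalars <;> field_simp <;> ring
  have ep' : (e[p'] : ι → F) = ((2 : F)⁻¹ * σ δ) • (f - r) := by
    rw [hf, hr]
    match_scalars <;> field_simp <;>
      first | ring1 | linear_combination (-2 : F) * hδ | linear_combination (2 : F) * hδ
  have hzp : ap z e[p] = -e[p] := by rw [ep, ap_smul, ap_add, hzf, hzr]; module
  have hzp' : ap z e[p'] = -e[p'] := by rw [ep', ap_smul, ap_sub, hzf, hzr]; module
  set r2 : ι → F := e[s] - ε • e[s'] with hr2
  have hε := mem_cir.mp S.cir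
  have hzr2 : ap z r2 = r2 := by
    have h1 : ap x r2 = r2 := hxfix r2 (by simp [hr2, Ne.symm hsp, Ne.symm hs'p])
      (by simp [hr2, Ne.symm hsp', Ne.symm hs'p'])
      (by rw [hr2, hb_sub_left, hb_smul_left, hb_single_left, hb_single_left, S.hu, map_mul]
          linear_combination -σ (u s) * hε)
      (by rw [hr2, hb_sub_left, hb_smul_left, hb_single_left, hb_single_left, S.hw, map_mul]
          linear_combination -σ (w s) * hε)
    rw [hzv, h1, h1, h1]
  have hzX : z ∈ X := mul_mem hxX (mul_mem hxX hxX)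
  obtain ⟨π, φ, hπ⟩ := isMon_of_zero hσ h5 hn hX hM hN hzX (j := p) (a := p')
    (by rw [hzp]; simp [Ne.symm P.ne])
  have hcoord : ∀ (v : ι → F) i, ap z v (π i) = (φ (π i) : F) * v i := fun v i => by
    rw [hπ, ap_mon, Equiv.symm_apply_apply]
  have hfixp : ∀ i, ap z e[i] = -e[i] → π i = i ∧ (φ i : F) = -1 := fun i hi => by
    have h1 := congrFun hi (π i)
    rw [hcoord, Pi.single_eq_same, mul_one, Pi.neg_apply] at h1
    have hπi : π i = i := by
      by_contra hne
      rw [Pi.single_eq_of_ne hne, neg_zero] at h1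
      exact (φ (π i)).ne_zero h1
    rw [hπi] at h1
    exact ⟨hπi, by simpa using h1⟩
  obtain ⟨hπp, hφp⟩ := hfixp p hzp
  obtain ⟨hπp', hφp'⟩ := hfixp p' hzp'
  have hin : ∀ i, i = s ∨ i = s' → π i = s ∨ π i = s' := by
    intro i hi
    by_contra hc
    push Not at hc
    have h1 := hcoord r2 i
    rw [hzr2] at h1
    rcases hi with rfl | rfl
    · simp [hr2, hc.1, hc.2, S.ne] at h1
      exact (φ _).ne_zero h1.symm
    · simp [hr2, hc.1, hc.2, Ne.symm S.ne, ne_zero_of_mem_cir S.cir] at h1
  have hu2 : ∀ i, (φ (π i) : F) * u i = -u (π i) := fun i => by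
    rw [← hcoord, hzu]; rfl
  have hw2 : ∀ i, (φ (π i) : F) * w i = -w (π i) := fun i => by
    rw [← hcoord, hzw]; rfl
  have hπs : π s = s' := (hin s (Or.inl rfl)).resolve_left fun h => by
    have h1 := hcoord r2 s
    rw [hzr2, h] at h1
    have h0 := hu2 s
    rw [h] at h0
    simp [hr2, S.ne] at h1
    rw [← h1, one_mul] at h0
    exact H.u_ne s ((mul_eq_zero.mp (show (2 : F) * u s = 0 by linear_combination h0)).resolve_left h2)
  have hπs' : π s' = s := (hin s' (Or.inr rfl)).resolve_right fun h =>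
    S.ne (π.injective (hπs.trans h.symm))
  have hπc : π c = d := by
    rcases hcover (π c) with e | e | e | e | e | e
    · exact absurd (π.injective (e.trans hπp.symm)) hcp
    · exact absurd (π.injective (e.trans hπp'.symm)) hcp'
    · exact absurd (π.injective (e.trans hπs'.symm)) hcs'
    · exact absurd (π.injective (e.trans hπs.symm)) hcs
    swap
    · exact e
    exfalso
    have hπd : π d = d := by
      rcases hcover (π d) with e' | e' | e' | e' | e' | e'
      · exact absurd (π.injective (e'.trans hπp.symm)) hdp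
      · exact absurd (π.injective (e'.trans hπp'.symm)) hdp'
      · exact absurd (π.injective (e'.trans hπs'.symm)) hds'
      · exact absurd (π.injective (e'.trans hπs.symm)) hds
      · exact absurd (π.injective (e'.trans e.symm)) (Ne.symm hcd)
      · exact e'
    have hπeq : π = Equiv.swap s s' := Equiv.ext fun i => by
      rcases hcover i with rfl | rfl | rfl | rfl | rfl | rfl
      · rw [hπp, Equiv.swap_apply_of_ne_of_ne (Ne.symm hsp) (Ne.symm hs'p)]
      · rw [hπp', Equiv.swap_apply_of_ne_of_ne (Ne.symm hsp') (Ne.symm hs'p')]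
      · rw [hπs, Equiv.swap_apply_left]
      · rw [hπs', Equiv.swap_apply_right]
      · rw [e, Equiv.swap_apply_of_ne_of_ne hcs hcs']
      · rw [hπd, Equiv.swap_apply_of_ne_of_ne hds hds']
    have hφc : (φ c : F) = -1 := by
      have h0 := hu2 c
      rw [e] at h0
      exact mul_right_cancel₀ (H.u_ne c) (by linear_combination h0)
    have hφd : (φ d : F) = -1 := by
      have h0 := hu2 d
      rw [hπd] at h0
      exact mul_right_cancel₀ (H.u_ne d) (by linear_combination h0)
    have h1 := hcoord r2 s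
    rw [hzr2, hπs] at h1
    have h1' := hcoord r2 s'
    rw [hzr2, hπs'] at h1'
    simp [hr2, S.ne, Ne.symm S.ne] at h1 h1'
    have hdet : (z : Matrix ι ι F).det = 1 := by
      rw [hz, Units.val_mul, Units.val_mul, Matrix.det_mul, Matrix.det_mul, hxdet, mul_one, mul_one]
    rw [hπ, det_mon, hπeq, Equiv.Perm.sign_swap S.ne] at hdet
    have huniv : (univ : Finset ι) = {p, p', s, s', c, d} := (eq_univ_iff_forall.mpr fun i => by
      simpa using hcover i).symm
    rw [huniv, prod_insert (by simp [P.ne, Ne.symm hsp, Ne.symm hs'p, Ne.symm hcp, Ne.symm hdp]),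
      prod_insert (by simp [Ne.symm hsp', Ne.symm hs'p', Ne.symm hcp', Ne.symm hdp']),
      prod_insert (by simp [S.ne, Ne.symm hcs, Ne.symm hds]),
      prod_insert (by simp [Ne.symm hcs', Ne.symm hds']), prod_pair hcd, hφp, hφp', hφc, hφd] at hdet
    simp at hdet
    exact h2 (by linear_combination -hdet + h1' + (φ s : F) * h1)
  refine ⟨-(φ d : F), hcd, ?_, ?_, ?_⟩
  · have h1 := hb_ap (hX hzX) e[c] e[c]
    rw [hπ, ap_mon_single, hπc, hb_single_left, hb_single_self, Pi.single_eq_same, mul_one] at h1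
    exact neg_mem_cir (mem_cir.mpr h1)
  · have h0 := hu2 c
    rw [hπc] at h0
    linear_combination h0
  · have h0 := hw2 c
    rw [hπc] at h0
    linear_combination h0

/-- There is no non-monomial element. -/
theorem false_five {g : GL ι F} (hg : g ∈ X) (hgn : ¬ IsMon g) : False := by
  obtain ⟨h2, h3, hfxd⟩ := five_consts hσ h5
  have h50 := five_eq_zero hσ h5
  haveI : CharP F 5 := charP_five hσ h5
  obtain ⟨o⟩ : Nonempty ι := Fintype.card_pos_iff.mp (by omega)
  have hu := row_ne_zero hσ h5 hn hX hM hN hg hgn o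
  have ht := no_triple hσ h5 hn hX hM hN hg hgn o
  set u := ap g⁻¹ e[o] with hudef
  set N : ι → F := fun i => u i * σ (u i) with hNdef
  have hmaps : ∀ i, N i ∈ (fxd σ).erase 0 := fun i => by
    simp [hNdef, fxd, hσ.invol, mul_comm, hu i]
  have hc4 : ((fxd σ).erase 0).card = 4 := by
    rw [card_erase_of_mem (by simp [fxd]), card_fxd hσ, h5]
  obtain ⟨p, -, p', -, hpp, hep⟩ := exists_ne_map_eq_of_card_lt_of_maps_to (s := (univ : Finset ι))
    (t := (fxd σ).erase 0) (f := N) (by rw [hc4, card_univ, hn]; norm_num) (fun i _ => hmaps i)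
  have hrest : (((univ : Finset ι).erase p).erase p').card = 4 := by
    rw [card_erase_of_mem (by simp [Ne.symm hpp]), card_erase_of_mem (mem_univ p), card_univ, hn]
  obtain ⟨s, hs, s', hs', hss, hes⟩ := exists_ne_map_eq_of_card_lt_of_maps_to
    (s := ((univ : Finset ι).erase p).erase p') (t := ((fxd σ).erase 0).erase (N p)) (f := N)
    (by rw [card_erase_of_mem (hmaps p), hc4, hrest]; norm_num) (fun i hi => by
      simp at hi
      refine mem_erase.mpr ⟨fun e => ?_, hmaps i⟩
      exact ht p p' i hpp (Ne.symm hi.1) (Ne.symm hi.2) hep e.symm)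
  simp only [mem_erase, mem_univ, and_true] at hs hs'
  have hrest2 : (((univ : Finset ι).erase p).erase p' |>.erase s |>.erase s').card = 2 := by
    rw [card_erase_of_mem (by simp [Ne.symm hss, hs'.1, hs'.2]),
      card_erase_of_mem (by simp [hs.1, hs.2]), hrest]
  obtain ⟨c, d, hcd, hcdeq⟩ := card_eq_two.mp hrest2
  have hmem : ∀ i, i ≠ s' ∧ i ≠ s ∧ i ≠ p' ∧ i ≠ p ↔ i = c ∨ i = d := fun i => by
    simpa using Finset.ext_iff.mp hcdeq i
  obtain ⟨hcs', hcs, hcp', hcp⟩ := (hmem c).mpr (Or.inl rfl)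
  obtain ⟨hds', hds, hdp', hdp⟩ := (hmem d).mpr (Or.inr rfl)
  have hcover : ∀ i, i = p ∨ i = p' ∨ i = s ∨ i = s' ∨ i = c ∨ i = d := fun i => by
    by_cases a1 : i = p; · exact Or.inl a1
    by_cases a2 : i = p'; · exact Or.inr (Or.inl a2)
    by_cases a3 : i = s; · exact Or.inr (Or.inr (Or.inl a3))
    by_cases a4 : i = s'; · exact Or.inr (Or.inr (Or.inr (Or.inl a4)))
    rcases (hmem i).mp ⟨a4, a3, a2, a1⟩ with a | a
    · exact Or.inr (Or.inr (Or.inr (Or.inr (Or.inl a))))
    · exact Or.inr (Or.inr (Or.inr (Or.inr (Or.inr a))))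
  obtain ⟨y, hyo, P, S⟩ := exists_partner hσ h5 hn hX hM hN hg hgn o p p' s s' hpp hss
    (Ne.symm hs.2) (Ne.symm hs'.2) (Ne.symm hs.1) (Ne.symm hs'.1) hep hes
  obtain ⟨y0, H⟩ := exists_twoRows hσ h5 hn hX hM hN hg hgn hyo
  rw [← hudef] at P S H
  set w := ap g⁻¹ e[y] with hwdef
  set A := nsum σ u w p with hA
  set B := nsum σ u w s with hB
  -- three pairs
  obtain ⟨ψ, C, hone⟩ : ∃ ψ, Paired σ u w c d ψ ∧ (A = 1 ∨ B = 1) := by
    rcases nsum_eq hσ h5 hn hX hM hN H P with a | a
    · obtain ⟨ψ, hψ⟩ := pair_of_one hσ h5 hn hX hM hN H P S (c := c) (d := d)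
        ⟨hs.2, hs.1, hs'.2, hs'.1, hcp, hcp', hcs, hcs', hdp, hdp', hds, hds', hcd⟩ hcover a
      exact ⟨ψ, hψ, Or.inl a⟩
    rcases nsum_eq hσ h5 hn hX hM hN H S with b | b
    · obtain ⟨ψ, hψ⟩ := pair_of_one hσ h5 hn hX hM hN H S P (c := c) (d := d)
        ⟨Ne.symm hs.2, Ne.symm hs'.2, Ne.symm hs.1, Ne.symm hs'.1, hcs, hcs', hcp, hcp', hds, hds',
          hdp, hdp', hcd⟩ (fun i => by rcases hcover i with e | e | e | e | e | e <;> simp [e]) b
      exact ⟨ψ, hψ, Or.inr b⟩
    exfalso
    have hprop : w p * u s = u p * w s := by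
      rcases prop_of_two hσ h5 hn hX hM hN H P S (c := c)
        ⟨hs.2, hs.1, hs'.2, hs'.1, hcp, hcp', hcs, hcs'⟩ a with e | e
      · exact e
      rcases prop_of_two hσ h5 hn hX hM hN H S P (c := c)
        ⟨Ne.symm hs.2, Ne.symm hs'.2, Ne.symm hs.1, Ne.symm hs'.1, hcs, hcs', hcp, hcp'⟩ b with e' | e'
      · linear_combination -e'
      · exact mul_right_cancel₀ (H.u_ne c) (by linear_combination (u s) * e - (u p) * e')
    have hprop' := congrArg σ hprop
    simp only [map_mul] at hprop'
    simp only [hA, hB, nsum] at a b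
    refine ht p p' s hpp (Ne.symm hs.2) (Ne.symm hs.1) hep ?_
    refine mul_left_cancel₀ h2 ?_
    linear_combination (-(u p * σ (u p))) * b + (u s * σ (u s)) * a -
      (σ (w p) * σ (u s)) * hprop - (u p * w s) * hprop'
  -- the norms of the two rows
  have hsum : A + B + nsum σ u w c = 1 := by
    have e1 := H.hu
    have e2 := H.hw
    have huniv : (univ : Finset ι) = {p, p', s, s', c, d} := (eq_univ_iff_forall.mpr fun i => by
      simpa using hcover i).symm
    rw [hb, huniv, sum_insert (by simp [hpp, Ne.symm hs.2, Ne.symm hs'.2, Ne.symm hcp, Ne.symm hdp]),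
      sum_insert (by simp [Ne.symm hs.1, Ne.symm hs'.1, Ne.symm hcp', Ne.symm hdp']),
      sum_insert (by simp [hss, Ne.symm hcs, Ne.symm hds]),
      sum_insert (by simp [Ne.symm hcs', Ne.symm hds']), sum_pair hcd] at e1 e2
    have eu : ∀ {a b : ι} {γ : F}, Paired σ u w a b γ →
        nsum σ u w b = nsum σ u w a := fun {a b γ} K => by
      simp only [nsum, K.hu, K.hw, map_mul]
      linear_combination (u a * σ (u a) + w a * σ (w a)) * mem_cir.mp K.cir
    have k1 := eu P
    have k2 := eu S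
    have k3 := eu C
    simp only [hA, hB, nsum] at k1 k2 k3 ⊢
    refine mul_left_cancel₀ h2 ?_
    linear_combination e1 + e2 - k1 - k2 - k3
  rcases nsum_eq hσ h5 hn hX hM hN H P with a | a <;>
    rcases nsum_eq hσ h5 hn hX hM hN H S with b | b <;>
    rcases nsum_eq hσ h5 hn hX hM hN H C with c' | c' <;>
    rw [← hA] at a <;> rw [← hB] at b <;> rw [a, b, c'] at hsum
  all_goals first
    | exact h2 (by linear_combination hsum)
    | exact h3 (by linear_combination hsum)
    | exact one_ne_zero (α := F) (by linear_combination h50 - hsum)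
    | (rcases hone with e | e <;>
        first
        | exact one_ne_zero (α := F) (by rw [a] at e; linear_combination e)
        | exact one_ne_zero (α := F) (by rw [b] at e; linear_combination e))

end Five

end CfsgLib.SUSix
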