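import Cfsg.Prelude.Def_LieClassical
import Cfsg.Agent.Lib.Geometric.UnitaryStabForm
import Cfsg.Agent.Lib.Geometric.UnitaryMonomial.Thm
import Cfsg.Agent.Lib.Geometric.SUSix.Generic
import Cfsg.Agent.Lib.Geometric.SUSix.FivePairs

/-!
The stabiliser of an orthonormal frame is maximal in the special unitary group of dimension six
over a field with at least nine elements.
-/

set_option autoImplicit false

namespace CfsgLib.SUSix

open CfsgLib.Geometric CfsgLib.UMon Finset Matrix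

variable {ι : Type} [Fintype ι] [DecidableEq ι] {F : Type*} [Field F] [Fintype F] [DecidableEq F]
variable {σ : F ≃+* F} {q : ℕ} {ζ : F}

local notation "e[" j "]" => (Pi.single j (1 : _) : ι → _)

/-- Some non-monomial element fixes a coordinate line. -/
theorem exists_fixLine (hσ : IsConj σ q) (hq : 3 ≤ q) (hn : Fintype.card ι = 6)
    {X : Subgroup (GL ι F)} (hX : X ≤ GUs σ) (hM : MonIn σ X) {g₀ : GL ι F} (hg₀ : g₀ ∈ X)
    (hg₀n : ¬ IsMon g₀) : FixLine X := by
  by_contra hN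
  have hN' : ¬ FixLine (scaled σ X) := fun h => hN (fixLine_of_scaled h)
  by_cases h5 : q = 5
  · exact false_five hσ h5 hn hX hM hN hg₀ hg₀n
  · exact false_of_ne_five hσ hq hn scaled_le (scaled_monSix hn hM) (le_scaled hX hg₀) hg₀n hN' h5

section Main

variable (hσ : IsConj σ q) (hq : 3 ≤ q) (hn : Fintype.card ι = 6) {X : Subgroup (GL ι F)}
  (hX : X ≤ GUs σ) (hM : MonIn σ X)
  (hζ : ζ ≠ 0) (hζσ : σ ζ = -ζ) (hf : IsSkewForm σ (fun u v : ι → F => ζ * hb σ u v))
include hσ hq hn hX hM hζ hζσ hf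

omit hX hq in
/-- Transvections with centre in the hyperplane. -/
lemma T_mem_of_zero {o : ι} {u₀ : ι → F} (h₀ : InR σ X o u₀) (hw₀ : 2 ≤ wt u₀) {r : ι → F}
    (hro : r o = 0) (hr : ζ * hb σ r r = 0) {δ : F} (hδ : σ δ = δ) :
    Unitary.T hf r δ hr ∈ X := by
  by_cases hδ0 : δ = 0
  · have : Unitary.T hf r δ hr = 1 := gl_ext fun x => by rw [Unitary.ap_T hf, hδ0, ap_one]; simp
    rw [this]; exact one_mem X
  obtain ⟨s, hsr, hso, hss⟩ := Unitary.exists_aniso_perp_two hf (by omega) r (e[o] : ι → F)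
  simp only [mul_eq_zero, hζ, false_or] at hsr hso hss
  rw [hb_single_right, map_one, mul_one] at hso
  replace hss : hb σ s s ≠ 0 := fun h => hss (by simp [h])
  have hrr : hb σ r r = 0 := (mul_eq_zero.mp hr).resolve_left hζ
  obtain ⟨l, hl⟩ := Unitary.exists_sub_eq hf (s := δ / (ζ * hb σ s s)) (by
    rw [map_div₀, map_mul, hζσ, hb_herm hσ, hδ, neg_mul, div_neg])
  have hl0 : l ≠ 0 := fun e => by
    rw [e, map_zero, sub_self] at hl
    rcases div_eq_zero_iff.mp hl.symm with h | h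
    · exact hδ0 h
    · exact mul_ne_zero hζ hss h
  have hls : hb σ (l • s) (l • s) ≠ 0 := by
    rw [hb_smul_left, hb_smul_right]
    exact mul_ne_zero hl0 (mul_ne_zero ((map_ne_zero σ).mpr hl0) hss)
  obtain ⟨c₁, -, hE₁⟩ := E_mem_quot hσ hM hζ hζσ hf h₀ hw₀ hro hrr hso hss hsr
  obtain ⟨c₂, -, hE₂⟩ := E_mem_quot hσ hM hζ hζσ hf h₀ hw₀ (s := l • s) hro hrr
    (by simp [hso]) hls (by rw [hb_smul_left, hsr, mul_zero])
  obtain ⟨hg₁, hf₁, γ₁, hγ₁, hm₁⟩ := hE₁
  obtain ⟨hg₂, hf₂, γ₂, hγ₂, hm₂⟩ := hE₂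
  set E₁ := Unitary.E hf r s c₁ (by simp [hrr]) (by simp [hsr]) with hE₁def
  set E₂ := Unitary.E hf r (l • s) c₂ (by simp [hrr]) (by simp [hb_smul_left, hsr]) with hE₂def
  have hT : E₁ * E₂ = E₂ * E₁ * Unitary.T hf r δ hr := by
    rw [hE₁def, hE₂def, Unitary.E_mul_E hf (h := by simp [hb_add_left, hb_smul_left, hsr]),
      Unitary.E_mul_E hf (h := by simp [hb_add_left, hb_smul_left, hsr]), Unitary.E_mul_T hf]
    refine gl_ext fun x => ?_
    rw [Unitary.ap_E hf, Unitary.ap_E hf, add_comm (l • s) s]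
    simp only [hb_smul_left, hb_smul_right]
    have : δ = (l - σ l) * (ζ * hb σ s s) := by
      rw [hl, div_mul_cancel₀ _ (mul_ne_zero hζ hss)]
    rw [this]
    match_scalars <;> ring
  set R₁ := rf σ (e[o] : ι → F) γ₁
  set R₂ := rf σ (e[o] : ι → F) γ₂
  have hc : Commute R₁ R₂ := by
    change R₁ * R₂ = R₂ * R₁
    rw [rf_mul (hb_single_self o) hγ₁ hγ₂, rf_mul (hb_single_self o) hγ₂ hγ₁, mul_comm γ₁]
  have c12 : Commute E₂ R₁ := commute_rf hg₂ hf₂ hγ₁
  have c21 : Commute E₁ R₂ := commute_rf hg₁ hf₁ hγ₂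
  have hTR : Commute (Unitary.T hf r δ hr) (R₂ * R₁) := by
    rw [show Unitary.T hf r δ hr = (E₂ * E₁)⁻¹ * (E₁ * E₂) by rw [hT]; group]
    have h1 : Commute E₁ (R₂ * R₁) := c21.mul_right (commute_rf hg₁ hf₁ hγ₁)
    have h2 : Commute E₂ (R₂ * R₁) := (commute_rf hg₂ hf₂ hγ₂).mul_right c12
    exact (h2.mul_left h1).inv_left.mul_left (h1.mul_left h2)
  have key : E₁ * R₁ * (E₂ * R₂) = E₂ * R₂ * (E₁ * R₁) * Unitary.T hf r δ hr := by
    rw [mul_assoc E₁, ← mul_assoc R₁, ← c12.eq, mul_assoc E₂ R₁, hc.eq, ← mul_assoc E₁, hT,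
      mul_assoc (E₂ * E₁), hTR.eq]
    rw [mul_assoc E₂ R₂, ← mul_assoc R₂, ← c21.eq]
    group
  rw [show Unitary.T hf r δ hr = (E₂ * R₂ * (E₁ * R₁))⁻¹ * (E₁ * R₁ * (E₂ * R₂)) by
    rw [key, inv_mul_cancel_left]]
  exact mul_mem (inv_mem (mul_mem hm₂ hm₁)) (mul_mem hm₁ hm₂)

/-- A proper overgroup contains every transvection, hence the special unitary group. -/
theorem le_of_not_isMon {g₀ : GL ι F} (hg₀ : g₀ ∈ X) (hg₀n : ¬ IsMon g₀) :
    GUs σ ⊓ Cfsg.Geo.specialLinear ι F ≤ X := by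
  have hline := exists_fixLine hσ hq hn hX hM hg₀ hg₀n
  have hR : ∀ o, ∃ u₀, InR σ X o u₀ ∧ 2 ≤ wt u₀ := fun o => by
    obtain ⟨z, hz, hzn, γ, hγ⟩ := fixLine_all hM hline o
    exact exists_inR_two hX hM hz hzn hγ
  have hzero : ∀ o (r : ι → F) (δ : F) (hr : ζ * hb σ r r = 0), r o = 0 → σ δ = δ →
      Unitary.T hf r δ hr ∈ X := fun o r δ hr hro hδ => by
    obtain ⟨u₀, h₀, hw₀⟩ := hR o
    exact T_mem_of_zero hσ hn hM hζ hζσ hf h₀ hw₀ hro hr hδ
  rw [show GUs σ = isom (fun u v : ι → F => ζ * hb σ u v) from (isom_mul_const hζ _).symm]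
  refine Unitary.le_of_hasT hf (by omega) fun v hv δ hδ => ?_
  by_cases hz : ∃ o, v o = 0
  · obtain ⟨o, ho⟩ := hz
    exact hzero o v δ hv ho hδ
  push Not at hz
  obtain ⟨o⟩ : Nonempty ι := Fintype.card_pos_iff.mp (by omega)
  obtain ⟨u₀, h₀, hw₀⟩ := hR o
  set v' : ι → F := Function.update v o 0 with hv'
  have hwv : wt v' + 1 = Fintype.card ι := by
    rw [wt, show univ.filter (fun i => v' i ≠ 0) = univ.erase o by
      ext i; by_cases h : i = o <;> simp [hv', h, hz]]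
    rw [card_erase_of_mem (mem_univ o), card_univ]
    omega
  obtain ⟨g, hg, hlt⟩ := exists_reduce hσ hM h₀ hw₀ (w := v') (by simp [hv']) (by omega)
  obtain ⟨k, hk, hk0⟩ : ∃ k, k ≠ o ∧ ap g v' k = 0 := by
    by_contra hc
    push Not at hc
    have : univ.erase o ⊆ univ.filter fun i => ap g v' i ≠ 0 := fun i hi => by
      simp [hc i (ne_of_mem_erase hi)]
    have := card_le_card this
    rw [card_erase_of_mem (mem_univ o), card_univ] at this
    change _ ≤ wt (ap g v') at this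
    omega
  obtain ⟨hgG, hgo, γ, hγ, hgX⟩ := hg
  set x := g * rf σ (e[o] : ι → F) γ
  have hxv : ap x v k = 0 := by
    have hv2 : v = v' + v o • e[o] := funext fun i => by
      by_cases h : i = o
      · subst h; simp [hv']
      · simp [hv', h]
    rw [ap_mul, ap_rf (hb_single_self o) hγ, hb_single_right, hv2]
    simp [ap_add, ap_smul, hgo, hk, hk0]
  have hxI : x ∈ isom (fun u w : ι → F => ζ * hb σ u w) := by
    rw [isom_mul_const hζ]; exact hX hgX
  have h1 := hzero k (ap x v) δ (Unitary.isotropic_ap hf hxI hv) hxv hδ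
  rw [← Unitary.conj_T hf hxI hv δ] at h1
  have := mul_mem (mul_mem (inv_mem hgX) h1) hgX
  convert this using 1
  group

omit hζ hζσ hf hn hX hM in
/-- The stabiliser of an orthonormal frame is maximal in the special unitary group. -/
theorem frame_isMaximalIn (hn : Fintype.card ι = 6) {t : ℕ} {D : Fin t → Submodule F (ι → F)}
    (hD : Cfsg.Geo.IsNondegenerateMDecomposition (hb σ) 1 D) :
    Cfsg.Geo.IsMaximalIn (GUs σ ⊓ Cfsg.Geo.specialLinear ι F)
      (Cfsg.Geo.decompositionStabilizer D ⊓ (GUs σ ⊓ Cfsg.Geo.specialLinear ι F)) := by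
  obtain ⟨ζ, hζ, hζσ, hf⟩ := exists_skewForm (ι := ι) hσ
  have hu : ∀ i, ∃ u ∈ D i, hb σ u u = 1 := by
    intro i
    obtain ⟨w, hw, hw0⟩ := Decomp.exists_ne_zero_mem hD.decomp i
    obtain ⟨x, hx, hxw⟩ := (hD.nondegenerate i w hw hw0).1
    have hsp : Submodule.span F {w} = D i := Submodule.eq_of_le_of_finrank_eq
      ((Submodule.span_singleton_le_iff_mem _ _).mpr hw)
      (by rw [finrank_span_singleton hw0, hD.decomp.finrank_eq])
    obtain ⟨c, rfl⟩ := Submodule.mem_span_singleton.mp (hsp.symm ▸ hx)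
    rw [hb_smul_left] at hxw
    obtain ⟨hc, hww⟩ := mul_ne_zero_iff.mp hxw
    obtain ⟨ν, hν⟩ := exists_norm hσ (hb_herm hσ w w)
    refine ⟨ν⁻¹ • w, (D i).smul_mem _ hw, ?_⟩
    rw [hb_smul_left, hb_smul_right, map_inv₀, ← mul_assoc, ← mul_inv, hν, inv_mul_cancel₀ hww]
  choose u hu hu1 using hu
  have hu0 : ∀ i, u i ≠ 0 := fun i h => by
    have := hu1 i; rw [h, hb_zero_left] at this; exact zero_ne_one this
  have hspan : ∀ i, Submodule.span F {u i} = D i := fun i => Submodule.eq_of_le_of_finrank_eq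
    ((Submodule.span_singleton_le_iff_mem _ _).mpr (hu i))
    (by rw [finrank_span_singleton (hu0 i), hD.decomp.finrank_eq])
  have hcard : Fintype.card ι = Fintype.card (Fin t) := by
    refine le_antisymm (by simpa using Decomp.card_le hD.decomp) ?_
    have := (hD.decomp.indep.linearIndependent _ hu hu0).fintype_card_le_finrank
    rwa [Module.finrank_fintype_fun_eq_card] at this
  set e := Fintype.equivOfCardEq hcard
  let L : (ι → F) →ₗ[F] (ι → F) :=
    ∑ i, (LinearMap.proj i : (ι → F) →ₗ[F] F).smulRight (u (e i))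
  have hL : ∀ x, L x = ∑ i, x i • u (e i) := fun x => by simp [L, LinearMap.sum_apply]
  have huu : ∀ i j, hb σ (u (e i)) (u (e j)) = if i = j then 1 else 0 := fun i j => by
    split_ifs with h
    · rw [h, hu1]
    · exact hD.orthogonal _ _ (e.injective.ne h) _ (hu _) _ (hu _)
  have hcoord : ∀ x j, hb σ (L x) (u (e j)) = x j := fun x j => by
    rw [hL, hb]
    simp only [Finset.sum_apply, Pi.smul_apply, smul_eq_mul, Finset.sum_mul]
    rw [Finset.sum_comm, Finset.sum_eq_single j]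
    · simp_rw [mul_assoc]
      rw [← Finset.mul_sum]
      change x j * hb σ (u (e j)) (u (e j)) = x j
      rw [hu1, mul_one]
    · intro i _ hij
      simp_rw [mul_assoc]
      rw [← Finset.mul_sum]
      change x i * hb σ (u (e i)) (u (e j)) = 0
      rw [huu, if_neg hij, mul_zero]
    · simp
  have hLinj : Function.Injective L := by
    rw [injective_iff_map_eq_zero]
    exact fun x hx => funext fun j => by rw [← hcoord x j, hx, hb_zero_left]; rfl
  set g₀ := ofEquiv (LinearEquiv.ofInjectiveEndo L hLinj) with hg₀def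
  have hg₀ : ∀ x, ap g₀ x = L x := fun x => by rw [hg₀def, ap_ofEquiv]; rfl
  have hg₀e : ∀ (i : ι) (c : F), ap g₀ (Pi.single i c) = c • u (e i) := fun i c => by
    rw [hg₀, hL, Finset.sum_eq_single i (fun j _ hj => by simp [hj]) (by simp)]
    simp
  have hg₀I : g₀ ∈ GUs σ := fun x y => by
    change hb σ (ap g₀ x) (ap g₀ y) = hb σ x y
    rw [hg₀ y, hL y]
    have : ∀ (a : ι → F) (s : Finset ι) (c : ι → F),
        hb σ a (∑ i ∈ s, c i • u (e i)) = ∑ i ∈ s, σ (c i) * hb σ a (u (e i)) := by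
      intro a s c
      induction s using Finset.induction_on with
      | empty => simp [hb_zero_right]
      | insert i s hi ih => rw [sum_insert hi, sum_insert hi, hb_add_right, hb_smul_right, ih]
    rw [this]
    simp only [hg₀, hcoord]
    exact Finset.sum_congr rfl fun i _ => mul_comm _ _
  have hconjS : ∀ g : GL ι F, g ∈ Cfsg.Geo.specialLinear ι F ↔
      g₀ * g * g₀⁻¹ ∈ Cfsg.Geo.specialLinear ι F := fun g => by
    rw [Cfsg.Geo.specialLinear, MonoidHom.mem_ker, MonoidHom.mem_ker, map_mul, map_mul, map_inv,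
      mul_inv_cancel_comm]
  have hmon : ∀ g : GL ι F, g ∈ Cfsg.Geo.decompositionStabilizer D → IsMon (g₀⁻¹ * g * g₀) := by
    rintro g ⟨π, hπ⟩
    refine isMon_of_cols (fun i => e.symm (π (e i))) fun j k hk => ?_
    have hmem : ap g (u (e j)) ∈ D (π (e j)) := by
      rw [← hπ]; exact ⟨u (e j), hu _, rfl⟩
    obtain ⟨c, hc⟩ := Submodule.mem_span_singleton.mp ((hspan _).symm ▸ hmem)
    have h1 : ap (g₀⁻¹ * g * g₀) (Pi.single j 1) = Pi.single (e.symm (π (e j))) c := by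
      apply ap_injective g₀
      rw [← ap_mul, show g₀ * (g₀⁻¹ * g * g₀) = g * g₀ by group, ap_mul, hg₀e, one_smul, hg₀e,
        Equiv.apply_symm_apply, hc]
    rw [h1]
    simp [hk]
  have hstab : ∀ π (c : ι → Fˣ), g₀ * mon π c * g₀⁻¹ ∈ Cfsg.Geo.decompositionStabilizer D := by
    intro π c
    refine ⟨(e.symm.trans π).trans e, fun l => ?_⟩
    have h1 : ap (g₀ * mon π c * g₀⁻¹) (u l) = (c (π (e.symm l)) : F) • u (e (π (e.symm l))) := by
      have h0 : ap g₀⁻¹ (u l) = Pi.single (e.symm l) 1 := by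
        apply ap_injective g₀
        rw [ap_ap_inv, hg₀e, one_smul, Equiv.apply_symm_apply]
      rw [ap_mul, ap_mul, h0, ap_mon_single, mul_one, hg₀e]
    rw [← hspan l, Submodule.map_span, Set.image_singleton, Matrix.toLin'_apply, ← ap_def, h1,
      Submodule.span_singleton_smul_eq (Units.isUnit _), hspan]
    rfl
  refine ⟨lt_of_le_of_ne inf_le_right fun he => ?_, fun M hHM hMS => ?_⟩
  · obtain ⟨g, hg, hgn⟩ := UMon.exists_not_isMon_isom hσ hζ hf (by omega)
    have h1 : g₀ * g * g₀⁻¹ ∈ GUs σ ⊓ Cfsg.Geo.specialLinear ι F :=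
      Subgroup.mem_inf.mpr ⟨mul_mem (mul_mem hg₀I (show g ∈ GUs σ from hg.1)) (inv_mem hg₀I), (hconjS g).mp hg.2⟩
    rw [← he] at h1
    refine hgn ?_
    convert hmon _ h1.1 using 1
    group
  by_cases hle : M ≤ Cfsg.Geo.decompositionStabilizer D
  · exact Or.inl (le_antisymm (le_inf hle hMS) hHM)
  obtain ⟨g, hgM, hg⟩ := SetLike.not_le_iff_exists.mp hle
  refine Or.inr (le_antisymm hMS fun y hy => ?_)
  set X := M.comap (MulAut.conj g₀).toMonoidHom with hXdef
  have hmemX : ∀ x, x ∈ X ↔ g₀ * x * g₀⁻¹ ∈ M := fun x => Iff.rfl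
  have hXle : X ≤ GUs σ := fun x hx => by
    have := mul_mem (mul_mem (inv_mem hg₀I) (show g₀ * x * g₀⁻¹ ∈ GUs σ from (hMS hx).1)) hg₀I
    convert this using 1
    simp [mul_assoc]
  have hXM : MonIn σ X := fun π c hc hdet => (hmemX _).mpr (hHM ⟨hstab π c,
    Subgroup.mem_inf.mpr ⟨mul_mem (mul_mem hg₀I (mon_mem_GUs hc)) (inv_mem hg₀I),
    (hconjS _).mp ((mem_specialLinear_iff _).mpr hdet)⟩⟩)
  have hgX : g₀⁻¹ * g * g₀ ∈ X := (hmemX _).mpr (by convert hgM using 1; group)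
  have hgn : ¬ IsMon (g₀⁻¹ * g * g₀) := by
    rintro ⟨π, c, hc⟩
    refine hg ?_
    convert hstab π c using 1
    rw [← hc]
    group
  have hS : g₀⁻¹ * y * g₀ ∈ GUs σ ⊓ Cfsg.Geo.specialLinear ι F :=
    Subgroup.mem_inf.mpr ⟨mul_mem (mul_mem (inv_mem hg₀I) (show y ∈ GUs σ from hy.1)) hg₀I, (hconjS _).mpr (by convert hy.2 using 1; simp [mul_assoc])⟩
  have := (hmemX _).mp (le_of_not_isMon hσ hq hn hXle hXM hζ hζσ hf hgX hgn hS)
  convert this using 1
  group

end Main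

end CfsgLib.SUSix

namespace CfsgLib.Geometric.SUSix

/-- Stabilisers of orthonormal frames in dimension six. -/
theorem frame {F : Type*} [Field F] [Fintype F] {q : ℕ} (hF : Fintype.card F = q ^ 2) :
    3 ≤ q → ∀ D : Fin 6 → Submodule F (Fin 6 → F),
      Cfsg.Geo.IsNondegenerateMDecomposition (Cfsg.hermForm 6 F q) 1 D →
      Cfsg.Geo.IsMaximalIn (Cfsg.GU 6 F q ⊓ Cfsg.Geo.specialLinear (Fin 6) F)
        (Cfsg.Geo.decompositionStabilizer D ⊓ (Cfsg.GU 6 F q ⊓ Cfsg.Geo.specialLinear (Fin 6) F)) := by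
  classical
  intro hq D hD
  obtain ⟨σ, hσ, -⟩ := CfsgLib.Geometric.isUnitaryForm_hermForm (F := F) 6 q hF
  have hconj : CfsgLib.UMon.IsConj σ q := ⟨hF, hσ⟩
  have hform : Cfsg.hermForm 6 F q = CfsgLib.UMon.hb σ := by
    funext u v
    simp [Cfsg.hermForm, CfsgLib.UMon.hb, hσ]
  have hI : CfsgLib.Geometric.isom (Cfsg.hermForm 6 F q) = Cfsg.GU 6 F q := rfl
  rw [← hI, hform]
  exact CfsgLib.SUSix.frame_isMaximalIn hconj hq (by rw [Fintype.card_fin]) (hform ▸ hD)

end CfsgLib.Geometric.SUSix
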