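import Cfsg.Agent.Lib.Geometric.UnitaryOrthSubfield
import Cfsg.Agent.Lib.Geometric.Orth.SingularStab

/-!
Root elements of a six-dimensional orthogonal group over the fixed field inside a unitary group:
transitivity, spreading of transvections, and the commutator giving a transvection.
-/

set_option autoImplicit false

namespace CfsgLib.Geometric.SUSix.OSub

open Matrix QuadraticMap CfsgLib.ClassicalForms
open LSubfld (RatV)
open SSubfld (em_add em_sub em_smul em_zero em_injective em_ne_zero ratV_em em_single)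
open Orth.OSubfld (form₀ rs ap_rs ap_rs' Pair Ind exists_dual form₀_eq_zero polar₀_eq_zero
  polar₀_eq_one coe_polar₀ coe_form₀ nondeg₀)
open UOSubfld (qf polar_qf qf_rat nondeg_qf exists_parts parts_unique f_em f_left isotropic_parts
  conj_E E_congr isotropic_em orth_em rs_eq_E E_rat_mem_sisom)

variable {ι : Type} [Fintype ι] [DecidableEq ι] {F : Type*} [Field F]
variable {σ : F ≃+* F} {f : (ι → F) → (ι → F) → F}
variable (hf : IsSkewForm σ f) {F₀ : Subfield F} (hfix : ∀ x, σ x = x ↔ x ∈ F₀) {ω : F}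
  (hω : σ ω = -ω) (hω0 : ω ≠ 0) (hrat : ∀ u v, RatV F₀ u → RatV F₀ v → ω⁻¹ * f u v ∈ F₀)
  (h2 : (2 : F) ≠ 0) [Finite F] (hn : Fintype.card ι = 6)
include hf hfix hω hω0 hrat h2 hn

local notation "hq" => qf_rat hf hfix hω hω0 hrat h2
local notation "Q₀" => form₀ (qf_rat hf hfix hω hω0 hrat h2)

/-- A singular vector orthogonal to three given ones. -/
lemma sperp {j : ℕ} (hj : j ≤ 3) (vs : Fin j → (ι → F₀)) :
    ∃ t : ι → F₀, t ≠ 0 ∧ Q₀ t = 0 ∧ ∀ i, polar Q₀ (vs i) t = 0 := by
  obtain ⟨t, ht0, ht, h⟩ := CfsgLib.ClassicalForms.exists_singular_ker Q₀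
    (fun i => polarBilin Q₀ (vs i))
    (by rw [Module.finrank_fintype_fun_eq_card]; omega)
  exact ⟨t, ht0, ht, fun i => by simpa using h i⟩

/-- A singular vector making a pair with a given one, orthogonal to a vector seeing it. -/
lemma exists_pair {x d : ι → F₀} (hx : Q₀ x = 0) (hxd : polar Q₀ x d = 1) :
    ∃ t, Pair hq x t ∧ polar Q₀ d t = 0 := by
  obtain ⟨t, ht0, ht, hp⟩ := sperp hf hfix hω hω0 hrat h2 hn (j := 2) (by omega) ![x, d]
  refine ⟨t, ⟨hx, ht, hp 0, fun p q e => ?_⟩, hp 1⟩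
  have e' := congrArg (polar Q₀ d) e
  have hdt : polar Q₀ d t = 0 := hp 1
  rw [polar_add_right, polar_smul_right, polar_smul_right, polar_comm Q₀ d x, hxd, hdt,
    polar_zero_right] at e'
  have hp0 : p = 0 := by simpa using e'
  subst hp0
  simp [ht0] at e
  exact ⟨rfl, e⟩

/-- Outside a plane which is not totally singular there is a singular vector orthogonal to it. -/
lemma exists_outside {x y : ι → F₀} (hP : ¬ (Q₀ x = 0 ∧ Q₀ y = 0 ∧ polar Q₀ x y = 0)) :
    ∃ t : ι → F₀, Q₀ t = 0 ∧ polar Q₀ x t = 0 ∧ polar Q₀ y t = 0 ∧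
      t ∉ Submodule.span F₀ {x, y} := by
  obtain ⟨t, ht0, ht, hp⟩ := sperp hf hfix hω hω0 hrat h2 hn (j := 2) (by omega) ![x, y]
  by_cases hts : t ∈ Submodule.span F₀ {x, y}
  swap
  · exact ⟨t, ht, hp 0, hp 1, hts⟩
  obtain ⟨d, -, htd⟩ := Orth.exists_polar_sep (nondeg₀ hq (nondeg_qf hf hfix hω hω0 hrat h2))
    (U := ⊥) (x := t) (by simpa using ht0)
  obtain ⟨s, hs0, hs, hps⟩ := sperp hf hfix hω hω0 hrat h2 hn (j := 3) (by omega) ![x, y, d]
  have hxt : polar Q₀ x t = 0 := hp 0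
  have hyt : polar Q₀ y t = 0 := hp 1
  have hxs : polar Q₀ x s = 0 := hps 0
  have hys : polar Q₀ y s = 0 := hps 1
  have hds : polar Q₀ d s = 0 := hps 2
  refine ⟨s, hs, hxs, hys, fun hss => hP ?_⟩
  obtain ⟨a, b, hab⟩ := Submodule.mem_span_pair.1 hts
  obtain ⟨c, e, hce⟩ := Submodule.mem_span_pair.1 hss
  have hst : polar Q₀ t s = 0 := by
    rw [← hab, polar_add_left, polar_smul_left, polar_smul_left, hxs, hys, smul_zero, smul_zero,
      add_zero]
  have hΔ : a * e - b * c ≠ 0 := by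
    intro h
    have e1 : e • t = b • s := by
      rw [← hab, ← hce]
      match_scalars <;> first | ring1 | linear_combination h
    have e2 : c • t = a • s := by
      rw [← hab, ← hce]
      match_scalars <;> first | ring1 | linear_combination h | linear_combination -h
    have f1 := congrArg (polar Q₀ d) e1
    have f2 := congrArg (polar Q₀ d) e2
    rw [polar_smul_right, polar_smul_right, hds, polar_comm Q₀ d t, htd, smul_eq_mul, mul_one,
      smul_zero] at f1 f2
    exact hs0 (by rw [← hce, f1, f2, zero_smul, zero_smul, add_zero])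
  have hX : (a * e - b * c) • x = e • t - b • s := by rw [← hab, ← hce]; module
  have hY : (a * e - b * c) • y = a • s - c • t := by rw [← hab, ← hce]; module
  have z : ∀ p q : F₀, Q₀ (p • t + q • s) = 0 := fun p q => by
    simp [Orth.OSubfld.map_add_eq, QuadraticMap.map_smul, ht, hs, polar_smul_left,
      polar_smul_right, hst]
  have zx := z e (-b)
  have zy := z (-c) a
  have zxy := z (e - c) (a - b)
  rw [neg_smul, ← sub_eq_add_neg, ← hX, QuadraticMap.map_smul, smul_eq_mul,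
    mul_eq_zero] at zx
  rw [neg_smul, neg_add_eq_sub, ← hY, QuadraticMap.map_smul, smul_eq_mul, mul_eq_zero] at zy
  rw [show (e - c) • t + (a - b) • s = (a * e - b * c) • (x + y) by rw [smul_add, hX, hY]; module,
    QuadraticMap.map_smul, smul_eq_mul, mul_eq_zero] at zxy
  have hx0 := zx.resolve_left (mul_ne_zero hΔ hΔ)
  have hy0 := zy.resolve_left (mul_ne_zero hΔ hΔ)
  refine ⟨hx0, hy0, ?_⟩
  rw [polar, zxy.resolve_left (mul_ne_zero hΔ hΔ), hx0, hy0]
  simp

/-- A plane which is not totally singular gives a singular vector with prescribed products. -/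
lemma exists_singular_values {x y : ι → F₀} (hi : Ind x y)
    (hP : ¬ (Q₀ x = 0 ∧ Q₀ y = 0 ∧ polar Q₀ x y = 0)) (α β : F₀) :
    ∃ a : ι → F₀, Q₀ a = 0 ∧ polar Q₀ x a = α ∧ polar Q₀ y a = β := by
  have hN := nondeg₀ hq (nondeg_qf hf hfix hω hω0 hrat h2)
  have hxy : x ∉ Submodule.span F₀ {y} := fun h => by
    obtain ⟨c, hc⟩ := Submodule.mem_span_singleton.1 h
    exact one_ne_zero (hi 1 (-c) (by rw [← hc]; module)).1
  have hyx : y ∉ Submodule.span F₀ {x} := fun h => by
    obtain ⟨c, hc⟩ := Submodule.mem_span_singleton.1 h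
    exact one_ne_zero (hi (-c) 1 (by rw [← hc]; module)).2
  obtain ⟨p, hyp, hxp⟩ := Orth.exists_polar_pair hN hxy
  obtain ⟨q, hxq, hyq⟩ := Orth.exists_polar_pair hN hyx
  obtain ⟨t, ht, hxt, hyt, hts⟩ := exists_outside hf hfix hω hω0 hrat h2 hn hP
  obtain ⟨w, hw, htw⟩ := Orth.exists_polar_sep hN hts
  set p₀ := α • p + β • q + (1 - α * polar Q₀ t p - β * polar Q₀ t q) • w with hp₀
  have h1 : polar Q₀ x p₀ = α := by
    simp [hp₀, polar_add_right, polar_smul_right, hxp, hxq, hw x (Submodule.subset_span (by simp))]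
  have h3 : polar Q₀ y p₀ = β := by
    simp [hp₀, polar_add_right, polar_smul_right, hyp, hyq, hw y (Submodule.subset_span (by simp))]
  have h4 : polar Q₀ t p₀ = 1 := by
    simp [hp₀, polar_add_right, polar_smul_right, htw]
  refine ⟨p₀ - Q₀ p₀ • t, ?_, ?_, ?_⟩
  · simp [map_sub_eq, QuadraticMap.map_smul, ht, polar_smul_right, polar_comm _ p₀ t, h4]
  · simp [polar_sub_right, polar_smul_right, h1, hxt]
  · simp [polar_sub_right, polar_smul_right, h3, hyt]

variable {M : Subgroup (GL ι F)} (hMI : M ≤ isom f)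
  (hM : ∀ a w : ι → F₀, qf ω f (SSubfld.em a) = 0 →
    polar (qf ω f) (SSubfld.em a) (SSubfld.em w) = 0 → rs (qf ω f) (SSubfld.em a) (SSubfld.em w) ∈ M)
include hMI hM

lemma rs_mem (a w : ι → F₀) (ha : Q₀ a = 0) (haw : polar Q₀ a w = 0) :
    rs (qf ω f) (SSubfld.em a) (SSubfld.em w) ∈ M :=
  hM a w ((form₀_eq_zero hq).1 ha) ((polar₀_eq_zero hq).1 haw)

/-- The rational singular vectors are one orbit. -/
lemma exists_move {u v : ι → F₀} (hu : Q₀ u = 0) (hv : Q₀ v = 0) (hu0 : u ≠ 0) (hv0 : v ≠ 0) :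
    ∃ m ∈ M, ap m (SSubfld.em u) = SSubfld.em v := by
  have hQ := nondeg_qf hf hfix hω hω0 hrat h2
  have z0 : ∀ a : ι → F₀, polar Q₀ 0 a = 0 := fun a => by simp
  obtain ⟨du, -, hudu, -, -⟩ := Orth.OSubfld.exists_dual hq hQ (x := 0) (y := u) (z := 0)
    (by simpa using hu0) hu (z0 u) (z0 u)
  have step : ∀ {a b : ι → F₀}, Pair hq a b →
      ∃ m ∈ M, ap m (SSubfld.em a) = SSubfld.em b ∧ ap m⁻¹ (SSubfld.em b) = SSubfld.em a := by
    intro a b P
    obtain ⟨a', b', ha', hb', hab', h1, hb1, h3, h4⟩ := P.exists_duals hq hQ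
    set y := a' + b' with hy
    have hQy : Q₀ y = 0 := by
      simp [hy, Orth.OSubfld.map_add_eq, ha', hb', hab']
    have hya : polar Q₀ y a = 1 := by
      simp [hy, polar_add_left, polar_comm _ a' a, polar_comm _ b' a, h1, h3]
    have hyb : polar Q₀ y b = 1 := by
      simp [hy, polar_add_left, polar_comm _ a' b, polar_comm _ b' b, hb1, h4]
    have hd : polar Q₀ y (b - a) = 0 := by rw [polar_sub_right, hya, hyb, sub_self]
    have hm : rs (qf ω f) (SSubfld.em y) (SSubfld.em (b - a)) ∈ M := (rs_mem hf hfix hω hω0 hrat h2 hn hMI hM) y _ hQy hd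
    have hmv : ap (rs (qf ω f) (SSubfld.em y) (SSubfld.em (b - a))) (SSubfld.em a) = SSubfld.em b := by
      rw [Orth.OSubfld.rs_eq ((form₀_eq_zero hq).1 hQy) ((polar₀_eq_zero hq).1 hd)]
      simp only [em_sub]
      exact Orth.ap_sg_move ((form₀_eq_zero hq).1 hQy) ((form₀_eq_zero hq).1 P.hx)
        ((form₀_eq_zero hq).1 P.hz) ((polar₀_eq_one hq).1 hya) ((polar₀_eq_one hq).1 hyb) _
    exact ⟨_, hm, hmv, by rw [← hmv, ap_inv_ap]⟩
  by_cases huv : polar Q₀ u v = 0
  swap
  · obtain ⟨w, hw0, hw, hwp⟩ := sperp hf hfix hω hω0 hrat h2 hn (j := 2) (by omega) ![u, v]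
    have hP : ∀ {a b : ι → F₀}, Q₀ a = 0 → polar Q₀ a w = 0 → polar Q₀ b w = 0 →
        polar Q₀ a b ≠ 0 → Pair hq a w := by
      intro a b ha haw hbw hab
      refine ⟨ha, hw, haw, fun p q e => ?_⟩
      have e1 := congrArg (polar Q₀ b) e
      rw [polar_add_right, polar_smul_right, polar_smul_right, hbw, polar_zero_right,
        smul_zero, add_zero, smul_eq_mul, mul_eq_zero, polar_comm Q₀ b a] at e1
      have hp : p = 0 := e1.resolve_right hab
      subst hp
      simp [hw0] at e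
      exact ⟨rfl, e⟩
    obtain ⟨m, hm, hm1, -⟩ := step (hP hu (hwp 0) (hwp 1) huv)
    obtain ⟨k, hk, -, hk1⟩ := step (hP hv (hwp 1) (hwp 0) (by rwa [polar_comm]))
    exact ⟨k⁻¹ * m, mul_mem (inv_mem hk) hm, by rw [ap_mul, hm1, hk1]⟩
  by_cases hi : Ind u v
  · obtain ⟨m, hm, hm1, -⟩ := step ⟨hu, hv, huv, hi⟩
    exact ⟨m, hm, hm1⟩
  simp only [Ind, not_forall] at hi
  obtain ⟨p, q, hpq, hne⟩ := hi
  have hq0 : q ≠ 0 := fun h => by
    subst h
    rw [zero_smul, add_zero, smul_eq_zero] at hpq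
    exact hne ⟨hpq.resolve_right hu0, rfl⟩
  have hp0 : p ≠ 0 := fun h => by
    subst h
    rw [zero_smul, zero_add, smul_eq_zero] at hpq
    exact hq0 (hpq.resolve_right hv0)
  have hvu : v = (-(q⁻¹ * p)) • u := by
    rw [← inv_smul_smul₀ hq0 v, eq_neg_of_add_eq_zero_right hpq]
    module
  obtain ⟨w, P, -⟩ := exists_pair hf hfix hω hω0 hrat h2 hn hu hudu
  have P' : Pair hq v w := by
    refine ⟨hv, P.hz, by rw [hvu, polar_smul_left, P.hxz, smul_zero], fun a b e => ?_⟩
    rw [hvu, smul_smul] at e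
    obtain ⟨ha, hb⟩ := P.ind _ _ e
    exact ⟨(mul_eq_zero.1 ha).resolve_right (neg_ne_zero.2 (mul_ne_zero (inv_ne_zero hq0) hp0)), hb⟩
  obtain ⟨m, hm, hm1, -⟩ := step P
  obtain ⟨k, hk, -, hk1⟩ := step P'
  exact ⟨k⁻¹ * m, mul_mem (inv_mem hk) hm, by rw [ap_mul, hm1, hk1]⟩

/-- One transvection at a vector over the subfield gives all of them. -/
lemma inX_rat {u : ι → F₀} (hu : Q₀ u = 0) (hu0 : u ≠ 0) {d : F} (hd : σ d = d) (hd0 : d ≠ 0)
    (hT : Unitary.T hf (SSubfld.em u) d (isotropic_em hf hfix hω hω0 hrat h2 hu) ∈ M) {v : ι → F₀}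
    (hv : Q₀ v = 0) : Unitary.InX hf M (SSubfld.em v) := by
  have hu' := isotropic_em hf hfix hω hω0 hrat h2 hu
  have hsq : ∀ k : F₀, Unitary.T hf (SSubfld.em u) ((k : F) * k * d) hu' ∈ M := by
    intro k
    by_cases hk : k = 0
    · have e : Unitary.T hf (SSubfld.em u) ((k : F) * k * d) hu' = 1 :=
        gl_ext fun x => by simp [Unitary.ap_T, hk]
      rw [e]; exact one_mem M
    obtain ⟨m, hm, hmu⟩ := exists_move hf hfix hω hω0 hrat h2 hn hMI hM hu (v := k • u)
      (by simp [QuadraticMap.map_smul, hu]) hu0 (smul_ne_zero hk hu0)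
    have h := mul_mem (mul_mem hm hT) (inv_mem hm)
    rw [Unitary.conj_T hf (hMI hm) hu'] at h
    have e : Unitary.T hf (SSubfld.em u) ((k : F) * k * d) hu' =
        Unitary.T hf (ap m (SSubfld.em u)) d (Unitary.isotropic_ap hf (hMI hm) hu') := by
      apply gl_ext
      intro x
      rw [Unitary.ap_T hf, Unitary.ap_T hf, hmu, em_smul, Unitary.smul_right hf,
        (hfix _).2 k.2, smul_smul]
      congr 2
      ring
    rw [e]
    exact h
  have hall : Unitary.InX hf M (SSubfld.em u) := by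
    refine ⟨hu', fun _ c hc => ?_⟩
    have hcF : c / d ∈ F₀ := (hfix _).1 (by rw [map_div₀, hc, hd])
    have : Fintype F₀ := Fintype.ofFinite F₀
    obtain ⟨s, t, hst⟩ : ∃ s t : F₀, s * s + t * t = ⟨_, hcF⟩ := by
      have hne : ringChar F₀ ≠ 2 := fun h => h2 (by
        have h' : ((2 : ℕ) : F₀) = 0 := by rw [← h]; exact ringChar.Nat.cast_ringChar
        have := congrArg Subtype.val h'
        simpa [show ((2 : F₀) : F) = 2 from map_ofNat F₀.subtype 2] using this)
      obtain ⟨s, t, h⟩ := FiniteField.exists_root_sum_quadratic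
        (f := (Polynomial.X : Polynomial F₀) ^ 2)
        (g := Polynomial.X ^ 2 - Polynomial.C (⟨_, hcF⟩ : F₀))
        (Polynomial.degree_X_pow 2) (Polynomial.degree_X_pow_sub_C two_pos _)
        (FiniteField.odd_card_of_char_ne_two hne)
      simp only [Polynomial.eval_pow, Polynomial.eval_X, Polynomial.eval_sub,
        Polynomial.eval_C] at h
      exact ⟨s, t, by linear_combination h⟩
    have e : Unitary.T hf (SSubfld.em u) c hu' = Unitary.T hf (SSubfld.em u) ((s : F) * s * d) hu' *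
        Unitary.T hf (SSubfld.em u) ((t : F) * t * d) hu' := by
      apply gl_ext
      intro x
      have hst' : (s : F) * s + t * t = c / d := congrArg Subtype.val hst
      rw [eq_div_iff hd0] at hst'
      simp only [ap_mul, Unitary.ap_T hf, hf.add_left, hf.smul_left, hu', mul_zero, add_zero]
      match_scalars <;> first | ring1 | linear_combination (f x (SSubfld.em u)) * hst' | linear_combination -((f x (SSubfld.em u)) * hst')
    rw [e]
    exact mul_mem (hsq s) (hsq t)
  by_cases hv0 : v = 0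
  · rw [hv0, em_zero]; exact Unitary.inX_zero hf
  obtain ⟨m, hm, hmu⟩ := exists_move hf hfix hω hω0 hrat h2 hn hMI hM hu hv hu0 hv0
  rw [← hmu]
  exact Unitary.inX_ap hf hm (hMI hm) hall

/-- The vectors over the subfield generate all centres. -/
lemma inX_all (hX : ∀ a : ι → F₀, Q₀ a = 0 → Unitary.InX hf M (SSubfld.em a)) {z : ι → F}
    (hz : f z z = 0) : Unitary.InX hf M z := by
  set ν := ω * ω with hν
  have hνF : ν ∈ F₀ := (hfix _).1 (by rw [hν, map_mul, hω]; ring)
  -- moving by a transvection at a vector over the subfield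
  have back : ∀ (a x y : ι → F₀) (k : F₀), Q₀ a = 0 →
      Unitary.InX hf M (SSubfld.em (x + (k * ⟨ν, hνF⟩ * polar Q₀ y a) • a) +
        ω • SSubfld.em (y + (k * polar Q₀ x a) • a)) →
      Unitary.InX hf M (SSubfld.em x + ω • SSubfld.em y) := by
    intro a x y k ha h
    have ha' := isotropic_em hf hfix hω hω0 hrat h2 ha
    have hσ : σ (2 * (k : F)) = 2 * k := by rw [map_mul, map_ofNat, (hfix _).2 k.2]
    have hT := (hX a ha).2 ha' (2 * (k : F)) hσ
    have e : ap (Unitary.T hf (SSubfld.em a) (2 * (k : F)) ha') (SSubfld.em x + ω • SSubfld.em y) =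
        SSubfld.em (x + (k * ⟨ν, hνF⟩ * polar Q₀ y a) • a) + ω • SSubfld.em (y + (k * polar Q₀ x a) • a) := by
      rw [Unitary.ap_T hf, f_left hf hfix hω hω0 hrat h2, em_add, em_add, em_smul, em_smul,
        Subfield.coe_mul, Subfield.coe_mul, Subfield.coe_mul,
        show ((⟨ν, hνF⟩ : F₀) : F) = ω * ω from rfl]
      match_scalars <;> field_simp <;> ring
    have h3 := Unitary.inX_ap hf (inv_mem hT) (hMI (inv_mem hT)) (e ▸ h)
    rwa [ap_inv_ap] at h3
  have mult : ∀ (x y : ι → F₀), ¬ Ind x y → (Q₀ x = 0 ∧ Q₀ y = 0) →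
      Unitary.InX hf M (SSubfld.em x + ω • SSubfld.em y) := by
    intro x y hi hQ
    simp only [Ind, not_forall] at hi
    obtain ⟨p, q, hpq, hne⟩ := hi
    by_cases hq0 : q = 0
    · subst hq0
      have hp : p ≠ 0 := fun hp => hne ⟨hp, rfl⟩
      rw [zero_smul, add_zero, smul_eq_zero] at hpq
      rw [hpq.resolve_left hp, em_zero, zero_add]
      exact Unitary.inX_smul hf (hX y hQ.2) ω
    · have hy : y = (-(q⁻¹ * p)) • x := by
        rw [← inv_smul_smul₀ hq0 y, eq_neg_of_add_eq_zero_right hpq]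
        module
      rw [hy, em_smul, smul_smul, show SSubfld.em x + (ω * ((-(q⁻¹ * p) : F₀) : F)) • SSubfld.em x =
        (1 + ω * ((-(q⁻¹ * p) : F₀) : F)) • SSubfld.em x by module]
      exact Unitary.inX_smul hf (hX x hQ.1) _
  have hQn := nondeg_qf hf hfix hω hω0 hrat h2
  have sing : ∀ x y : ι → F₀, Q₀ x = 0 → Q₀ y = 0 → Unitary.InX hf M (SSubfld.em x + ω • SSubfld.em y) := by
    intro x y hx hy
    by_cases hi : Ind x y
    swap
    · exact mult x y hi ⟨hx, hy⟩
    by_cases hxy : polar Q₀ x y = 0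
    swap
    · refine back y x y (-(polar Q₀ x y)⁻¹) hy ?_
      rw [polar_self_mul, hy, mul_zero, mul_zero, zero_smul, add_zero, neg_mul,
        inv_mul_cancel₀ hxy, neg_one_smul, add_neg_cancel, em_zero, smul_zero, add_zero]
      exact hX x hx
    obtain ⟨d, -, hd, -, -, hxd, hyd, -, -⟩ :=
      Pair.exists_duals hq hQn (⟨hx, hy, hxy, hi⟩ : Pair hq x y)
    have hyd' : Q₀ (y + d) = 0 := by
      simp [Orth.OSubfld.map_add_eq, hy, hd, hyd]
    refine back (y + d) x y (-1) hyd' ?_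
    rw [polar_add_right, polar_self_mul, hy, hyd, mul_zero, add_zero, mul_zero, zero_smul,
      add_zero, polar_add_right, hxy, hxd, zero_add, mul_one, neg_one_smul,
      show y + -(y + d) = -d by abel]
    refine back d x (-d) 1 hd ?_
    rw [polar_neg_left, polar_self_mul, hd, mul_zero, neg_zero, mul_zero, zero_smul, add_zero,
      hxd, one_mul, one_smul, neg_add_cancel, em_zero, smul_zero, add_zero]
    exact hX x hx
  obtain ⟨x, y, rfl⟩ := exists_parts hf hfix hω hω0 h2 z
  have hxy := isotropic_parts hf hfix hω hω0 hrat h2 hz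
  by_cases hy : Q₀ y = 0
  · refine sing x y (Subtype.ext ?_) hy
    rw [hxy, hy]; simp
  have hi : Ind x y := by
    intro p q e
    by_contra hne
    by_cases hp : p = 0
    · subst hp
      have hq0 : q ≠ 0 := fun h => hne ⟨rfl, h⟩
      rw [zero_smul, zero_add, smul_eq_zero] at e
      rw [e.resolve_left hq0] at hy
      simp at hy
    · have hx : x = (-(q / p)) • y := by
        apply smul_right_injective (ι → F₀) hp
        show p • x = p • _
        rw [smul_smul, mul_neg, mul_div_cancel₀ _ hp, neg_smul, eq_neg_iff_add_eq_zero, e]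
      rw [hx, QuadraticMap.map_smul, smul_eq_mul, Subfield.coe_mul, Subfield.coe_mul] at hxy
      set l : F₀ := -(q / p)
      have hy' : ((Q₀ y : F₀) : F) ≠ 0 := fun h => hy (Subtype.ext h)
      have h4 : ((l : F) - ω) * ((l : F) + ω) = 0 := by
        linear_combination mul_right_cancel₀ hy' hxy
      have h5 : σ ω = ω := by
        rcases mul_eq_zero.1 h4 with h | h
        · rw [← sub_eq_zero.1 h, (hfix _).2 l.2]
        · rw [show ω = -(l : F) by linear_combination h, map_neg, (hfix _).2 l.2]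
      exact mul_ne_zero h2 hω0 (by linear_combination h5.symm.trans hω)
  obtain ⟨a, ha, hxa, hya⟩ := exists_singular_values hf hfix hω hω0 hrat h2 hn hi
    (fun h => hy h.2.1) 1 1
  refine back a x y (-Q₀ y) ha ?_
  rw [hxa, hya, mul_one, mul_one]
  refine sing _ _ (Subtype.ext ?_) ?_
  · have e : Q₀ (x + (-Q₀ y * ⟨ν, hνF⟩) • a) = Q₀ x + -Q₀ y * ⟨ν, hνF⟩ := by
      simp [Orth.OSubfld.map_add_eq, QuadraticMap.map_smul, ha, polar_smul_right, hxa]
    rw [e, Subfield.coe_add, Subfield.coe_mul, Subfield.coe_neg, hxy,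
      show ((⟨ν, hνF⟩ : F₀) : F) = ω * ω from rfl]
    simp only [ZeroMemClass.coe_zero]
    ring
  · simp [Orth.OSubfld.map_add_eq, QuadraticMap.map_smul, ha, polar_smul_right, hya]

/-- A root element moved off the subfield gives a transvection. -/
lemma exists_T {a₁ a : ι → F₀} (ha₁ : Q₀ a₁ = 0) (ha : Q₀ a = 0) (ha0 : a ≠ 0) {R : GL ι F}
    (hR : R ∈ M) {μ : F} (hμ : μ ≠ 0) (hRa : ap R (SSubfld.em a₁) = μ • SSubfld.em a) {w : ι → F₀}
    (haw : polar Q₀ a₁ w = 0) {r₁ r₂ : ι → F₀}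
    (hw : σ μ • ap R (SSubfld.em w) = SSubfld.em r₁ + ω • SSubfld.em r₂)
    (hr : r₂ ∉ Submodule.span F₀ {a}) :
    ∀ v : ι → F₀, Q₀ v = 0 → Unitary.InX hf M (SSubfld.em v) := by
  obtain ⟨w', haw', hrw'⟩ :=
    Orth.exists_polar_pair (nondeg₀ hq (nondeg_qf hf hfix hω hω0 hrat h2)) hr
  have h := mul_mem (mul_mem hR ((rs_mem hf hfix hω hω0 hrat h2 hn hMI hM) a₁ w ha₁ haw)) (inv_mem hR)
  rw [rs_eq_E hf hfix hω hω0 hrat h2 ha₁ haw, conj_E hf (hMI hR),
    E_congr hf hRa (ap_smul R (2 * ω⁻¹) (SSubfld.em w)) rfl] at h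
  have h' := (rs_mem hf hfix hω hω0 hrat h2 hn hMI hM) a w' ha haw'
  rw [rs_eq_E hf hfix hω hω0 hrat h2 ha haw'] at h'
  set v := (2 * ω⁻¹) • (σ μ • ap R (SSubfld.em w)) with hv
  set v' := ((2 : F) * ω⁻¹) • SSubfld.em w' with hv'
  have hvu : f v (SSubfld.em a) = 0 := by
    have e0 : f (SSubfld.em w) (SSubfld.em a₁) = 0 := by
      have := orth_em hf hfix hω hω0 hrat h2 haw
      rw [hf.smul_left, mul_eq_zero] at this
      exact this.resolve_left (mul_ne_zero h2 (inv_ne_zero hω0))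
    have e1 : f (ap R (SSubfld.em w)) (SSubfld.em a) = 0 := by
      have := mem_isom_iff.mp (hMI hR) (SSubfld.em w) (SSubfld.em a₁)
      rw [hRa, Unitary.smul_right hf, e0, mul_eq_zero] at this
      exact this.resolve_left ((map_ne_zero σ).2 hμ)
    rw [hv, hf.smul_left, hf.smul_left, e1, mul_zero, mul_zero]
  have hv'u : f v' (SSubfld.em a) = 0 := orth_em hf hfix hω hω0 hrat h2 haw'
  have eE : ∀ (c : F) (p : _) (q : _), Unitary.E hf (μ • SSubfld.em a)
      (((2 : F) * ω⁻¹) • ap R (SSubfld.em w)) c p q =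
      Unitary.E hf (SSubfld.em a) v (c * σ μ * μ) (isotropic_em hf hfix hω hω0 hrat h2 ha) hvu := by
    intro c p q
    apply gl_ext
    intro x
    rw [Unitary.ap_E, Unitary.ap_E, hv, Unitary.smul_right hf, Unitary.smul_right hf,
      Unitary.smul_right hf, Unitary.smul_right hf, hf.involutive]
    module
  rw [eE] at h
  set d := f v' v - f v v' with hd
  have hσd : σ d = d := by
    rw [hd, hf.skew v v', map_sub, map_neg, hf.involutive]
    ring
  have hd0 : d ≠ 0 := by
    have hrw : f (SSubfld.em w') (σ μ • ap R (SSubfld.em w)) = ω / 2 * ((polar Q₀ w' r₁ : F₀) : F)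
        - ω * (ω / 2 * ((polar Q₀ w' r₂ : F₀) : F)) := by
      rw [hw, Unitary.add_right hf, Unitary.smul_right hf, hω, f_em hf hfix hω hω0 hrat h2,
        f_em hf hfix hω hω0 hrat h2]
      ring
    have e : d = 4 * ((polar Q₀ w' r₂ : F₀) : F) := by
      rw [hd, hf.skew v v', hv, hv', hf.smul_left, Unitary.smul_right hf _ _ (σ μ • _), map_mul, map_ofNat,
        map_inv₀, hω, hrw]
      simp only [map_sub, map_mul, map_div₀, map_ofNat, map_inv₀, map_neg, hω,
        (hfix _).2 (polar Q₀ w' r₁).2, (hfix _).2 (polar Q₀ w' r₂).2]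
      field_simp
      ring
    rw [e, polar_comm, hrw', OneMemClass.coe_one, mul_one, show (4 : F) = 2 * 2 by norm_num]
    exact mul_ne_zero h2 h2
  refine fun x hx => inX_rat hf hfix hω hω0 hrat h2 hn hMI hM ha ha0 hσd hd0 ?_ hx
  have hsum : f (v + v') (SSubfld.em a) = 0 := by rw [hf.add_left, hvu, hv'u, add_zero]
  have hsum' : f (v' + v) (SSubfld.em a) = 0 := by rw [hf.add_left, hvu, hv'u, add_zero]
  have h12 := mul_mem h h'
  have h21 := mul_mem h' h
  rw [Unitary.E_mul_E hf hsum] at h12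
  rw [Unitary.E_mul_E hf hsum'] at h21
  have h3 := mul_mem (inv_mem h21) h12
  convert h3 using 1
  rw [eq_inv_mul_iff_mul_eq, Unitary.E_mul_T]
  exact E_congr hf rfl (add_comm v' v) (by rw [hd]; ring) _ _

end CfsgLib.Geometric.SUSix.OSub
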