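import Cfsg.Agent.Lib.Geometric.SUSix.OrthSubfieldBase
import Cfsg.Agent.Lib.Geometric.SUTypes

/-!
An orthogonal group over the fixed field of the involution is maximal in the special unitary group
of dimension six, in odd characteristic.

If a singular vector over the subfield is moved off the lines over it, its real and imaginary parts
span a plane; a plane which is not totally singular gives a transvection by conjugating a root
element of a vector orthogonal to it, and totally singular planes give one by a vector over the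
subfield in the image of an orthogonal pair.
-/

set_option autoImplicit false

namespace CfsgLib.Geometric.SUSix.OSub

open Matrix QuadraticMap CfsgLib.ClassicalForms
open LSubfld (RatV)
open SSubfld (em_add em_sub em_smul em_zero em_injective em_ne_zero ratV_em em_single)
open Orth.OSubfld (form₀ rs ap_rs ap_rs' Pair Ind exists_dual form₀_eq_zero polar₀_eq_zero
  polar₀_eq_one coe_polar₀ coe_form₀ nondeg₀)
open UOSubfld (qf polar_qf qf_rat nondeg_qf exists_parts parts_unique f_em f_left isotropic_parts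
  isotropic_em orth_em rs_eq_E E_rat_mem_sisom)

variable {ι : Type} [Fintype ι] [DecidableEq ι] {F : Type*} [Field F]
variable {σ : F ≃+* F} {f : (ι → F) → (ι → F) → F}
variable (hf : IsSkewForm σ f) {F₀ : Subfield F} (hfix : ∀ x, σ x = x ↔ x ∈ F₀) {ω : F}
  (hω : σ ω = -ω) (hω0 : ω ≠ 0) (hrat : ∀ u v, RatV F₀ u → RatV F₀ v → ω⁻¹ * f u v ∈ F₀)
  (h2 : (2 : F) ≠ 0)

include hfix hω hω0 h2 in
omit [Fintype ι] [DecidableEq ι] in
/-- The basis one and omega. -/
lemma coords_zero {a b : F} (ha : a ∈ F₀) (hb : b ∈ F₀) (h : a + ω * b = 0) : a = 0 ∧ b = 0 := by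
  have h3 := congrArg σ h
  rw [map_add, map_mul, hω, (hfix _).2 ha, (hfix _).2 hb, map_zero] at h3
  exact ⟨mul_left_cancel₀ h2 (by linear_combination h + h3),
    mul_left_cancel₀ (mul_ne_zero h2 hω0) (by linear_combination h - h3)⟩

variable [Finite F] (hn : Fintype.card ι = 6)
include hf hfix hω hω0 hrat h2 hn

local notation "hq" => qf_rat hf hfix hω hω0 hrat h2
local notation "Q₀" => form₀ (qf_rat hf hfix hω hω0 hrat h2)

omit [Fintype ι] [DecidableEq ι] [Finite F] hf hfix hω hω0 hrat hn in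
lemma two_ne_zero₀ : (2 : F₀) ≠ 0 := fun h => h2 (by
  simpa [show ((2 : F₀) : F) = 2 from map_ofNat F₀.subtype 2] using congrArg Subtype.val h)

omit [Finite F] hn in
/-- The form on two vectors in parts. -/
lemma f_parts (x y x' y' : ι → F₀) :
    f (SSubfld.em x + ω • SSubfld.em y) (SSubfld.em x' + ω • SSubfld.em y') = ω / 2 *
      (((polar Q₀ x x' : F₀) : F) - ω * ω * ((polar Q₀ y y' : F₀) : F)
        + ω * (((polar Q₀ y x' : F₀) : F) - ((polar Q₀ x y' : F₀) : F))) := by
  rw [Unitary.add_right hf, hf.add_left, hf.add_left, Unitary.smul_right hf,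
    Unitary.smul_right hf, hf.smul_left, hf.smul_left, hω, f_em hf hfix hω hω0 hrat h2,
    f_em hf hfix hω hω0 hrat h2, f_em hf hfix hω hω0 hrat h2, f_em hf hfix hω hω0 hrat h2]
  ring

omit [Finite F] hn in
lemma f_em_left (a x y : ι → F₀) :
    f (SSubfld.em a) (SSubfld.em x + ω • SSubfld.em y) = ω / 2 *
      (((polar Q₀ a x : F₀) : F) - ω * ((polar Q₀ a y : F₀) : F)) := by
  rw [Unitary.add_right hf, Unitary.smul_right hf, hω, f_em hf hfix hω hω0 hrat h2,
    f_em hf hfix hω hω0 hrat h2]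
  ring

omit [Finite F] hn in
lemma polar_parts (x y a : ι → F₀) :
    polar (qf ω f) (SSubfld.em x + ω • SSubfld.em y) (SSubfld.em a) =
      ((polar Q₀ x a : F₀) : F) + ω * ((polar Q₀ y a : F₀) : F) := by
  rw [polar_add_left, polar_smul_left, coe_polar₀, coe_polar₀, smul_eq_mul]

omit [Finite F] hn in
/-- Dependent parts of an isotropic vector are totally singular and give a line. -/
lemma dependent_parts {x y : ι → F₀}
    (h : f (SSubfld.em x + ω • SSubfld.em y) (SSubfld.em x + ω • SSubfld.em y) = 0)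
    (hi : ¬ Ind x y) : (Q₀ x = 0 ∧ Q₀ y = 0 ∧ polar Q₀ x y = 0) ∧
      ∃ (c : F) (s : ι → F₀), SSubfld.em x + ω • SSubfld.em y = c • SSubfld.em s := by
  have hQ := isotropic_parts hf hfix hω hω0 hrat h2 h
  simp only [Ind, not_forall] at hi
  obtain ⟨p, q, hpq, hne⟩ := hi
  by_cases hq0 : q = 0
  · subst hq0
    rw [zero_smul, add_zero, smul_eq_zero] at hpq
    have hx := hpq.resolve_left fun hp => hne ⟨hp, rfl⟩
    subst hx
    have hy : Q₀ y = 0 := Subtype.ext (by simpa [hω0] using hQ.symm)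
    exact ⟨⟨by simp, hy, by simp⟩, ω, y, by rw [em_zero, zero_add]⟩
  · have hy : y = (-(q⁻¹ * p)) • x := by
      rw [← inv_smul_smul₀ hq0 y, eq_neg_of_add_eq_zero_right hpq]
      module
    set l : F₀ := -(q⁻¹ * p)
    subst hy
    have hx : Q₀ x = 0 := by
      by_contra hx
      have hx' : ((Q₀ x : F₀) : F) ≠ 0 := fun e => hx (Subtype.ext e)
      rw [QuadraticMap.map_smul, smul_eq_mul, Subfield.coe_mul, Subfield.coe_mul] at hQ
      have h4 : (ω * l) * (ω * l) = 1 := mul_right_cancel₀ hx' (by linear_combination -hQ)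
      rcases mul_self_eq_one_iff.1 h4 with e | e <;>
      · have h5 := congrArg σ e
        rw [map_mul, hω, (hfix _).2 l.2] at h5
        simp only [map_neg, map_one] at h5
        first
        | exact h2 (by linear_combination h5 + e)
        | exact h2 (by linear_combination -h5 - e)
    exact ⟨⟨hx, by simp [QuadraticMap.map_smul, hx], by simp [polar_smul_right, hx]⟩,
      1 + ω * l, x, by rw [em_smul]; module⟩

variable {M : Subgroup (GL ι F)} (hMI : M ≤ isom f)
  (hM : ∀ a w : ι → F₀, qf ω f (SSubfld.em a) = 0 →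
    polar (qf ω f) (SSubfld.em a) (SSubfld.em w) = 0 → rs (qf ω f) (SSubfld.em a) (SSubfld.em w) ∈ M)

omit [Finite F] hn in
include hMI in
/-- A conjugate of a root element. -/
lemma ap_conj {g : GL ι F} (hg : g ∈ M) {u w : ι → F₀} (hu : Q₀ u = 0) (huw : polar Q₀ u w = 0)
    (v : ι → F) : ap (g * rs (qf ω f) (SSubfld.em u) (SSubfld.em w) * g⁻¹) v =
      v + (2 * ω⁻¹ * f v (ap g (SSubfld.em u))) • ap g (SSubfld.em w)
        - (2 * ω⁻¹ * f v (ap g (SSubfld.em w))
          + ((Q₀ w : F₀) : F) * (2 * ω⁻¹ * f v (ap g (SSubfld.em u)))) • ap g (SSubfld.em u) := by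
  obtain ⟨y, rfl⟩ : ∃ y, v = ap g y := ⟨ap g⁻¹ v, (ap_ap_inv g v).symm⟩
  rw [ap_mul, ap_mul, ap_inv_ap, mem_isom_iff.mp (hMI hg), mem_isom_iff.mp (hMI hg),
    ap_rs ((form₀_eq_zero hq).1 hu) ((polar₀_eq_zero hq).1 huw),
    polar_qf hf hfix hω hω0 hrat _ (ratV_em u), polar_qf hf hfix hω hω0 hrat _ (ratV_em w),
    coe_form₀, ap_sub, ap_add, ap_smul, ap_smul]
  simp only [mul_assoc]

include hMI hM

/-- Without transvections, the parts of the image of a singular vector are totally singular. -/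
lemma parts_ts (hno : ¬ ∀ v : ι → F₀, Q₀ v = 0 → Unitary.InX hf M (SSubfld.em v))
    {g : GL ι F} (hg : g ∈ M) {x : ι → F₀} (hx : Q₀ x = 0) {Ur Ui : ι → F₀}
    (hU : ap g (SSubfld.em x) = SSubfld.em Ur + ω • SSubfld.em Ui) :
    Q₀ Ur = 0 ∧ Q₀ Ui = 0 ∧ polar Q₀ Ur Ui = 0 := by
  classical
  have hQn := nondeg_qf hf hfix hω hω0 hrat h2
  have hN := nondeg₀ hq hQn
  have h20 := two_ne_zero₀ (F₀ := F₀) h2
  have hgI := mem_isom_iff.mp (hMI hg)
  set U := ap g (SSubfld.em x) with hUdef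
  have hUU : f U U = 0 := by rw [hgI]; exact isotropic_em hf hfix hω hω0 hrat h2 hx
  by_cases hi : Ind Ur Ui
  swap
  · exact (dependent_parts hf hfix hω hω0 hrat h2 (by rw [← hU]; exact hUU) hi).1
  by_contra hP
  have hx0 : x ≠ 0 := by
    intro e
    subst e
    rw [hUdef, em_zero, ap_zero] at hU
    obtain ⟨e1, e2⟩ := parts_unique hf hfix hω hω0 (x := 0) (y := 0) (x' := Ur) (y' := Ui)
      (by rw [← hU, em_zero, smul_zero, add_zero]) h2
    exact hP ⟨by simp [← e1], by simp [← e2], by simp [← e1]⟩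
  obtain ⟨dx, -, hxdx, -, -⟩ := exists_dual hq hQn (x := 0) (y := x) (z := 0)
    (by simpa using hx0) hx (by simp) (by simp)
  obtain ⟨z, P, -⟩ := exists_pair hf hfix hω hω0 hrat h2 hn hx hxdx
  set Z := ap g (SSubfld.em z) with hZdef
  obtain ⟨Zr, Zi, hZ⟩ := exists_parts hf hfix hω hω0 h2 Z
  have hUZ : f U Z = 0 := by rw [hgI, f_em hf hfix hω hω0 hrat h2, P.hxz]; simp
  have hZU : f Z U = 0 := (Unitary.eq_zero_comm hf).mp hUZ
  have hZZ : f Z Z = 0 := by rw [hgI]; exact isotropic_em hf hfix hω hω0 hrat h2 P.hz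
  set R := g * rs (qf ω f) (SSubfld.em x) (SSubfld.em z) * g⁻¹ with hR
  have hRM : R ∈ M := mul_mem (mul_mem hg (rs_mem hf hfix hω hω0 hrat h2 hn hMI hM x z P.hx P.hxz))
    (inv_mem hg)
  set κ := (2 : F) * ω⁻¹ with hκ
  have hκ0 : κ ≠ 0 := mul_ne_zero h2 (inv_ne_zero hω0)
  have hRv : ∀ v, ap R v = v + (κ * f v U) • Z - (κ * f v Z) • U := fun v => by
    rw [hR, ap_conj hf hfix hω hω0 hrat h2 hMI hg P.hx P.hxz, P.hz]
    simp [hκ, hUdef, hZdef]
  -- singular vectors orthogonal to the parts and outside their plane are orthogonal to the image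
  have S : ∀ y : ι → F₀, Q₀ y = 0 → polar Q₀ Ur y = 0 → polar Q₀ Ui y = 0 →
      y ∉ Submodule.span F₀ {Ur, Ui} → f (SSubfld.em y) Z = 0 := by
    intro y hy hy1 hy2 hys
    by_contra hyZ
    have hfU : ∀ v : ι → F₀, polar Q₀ Ur v = 0 → polar Q₀ Ui v = 0 → f (SSubfld.em v) U = 0 := by
      intro v h1 h3
      rw [hU, f_em_left hf hfix hω hω0 hrat h2, polar_comm Q₀ v Ur, polar_comm Q₀ v Ui, h1, h3]
      simp
    set L : (ι → F₀) →ₗ[F₀] (Fin 3 → F₀) :=
      LinearMap.pi fun i => polarBilin Q₀ (![Ur, Ui, y] i) with hL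
    have hmemW : ∀ {v}, v ∈ LinearMap.ker L ↔
        polar Q₀ Ur v = 0 ∧ polar Q₀ Ui v = 0 ∧ polar Q₀ y v = 0 := by
      intro v
      simp [hL, LinearMap.mem_ker, funext_iff, Fin.forall_fin_succ]
    obtain ⟨w, hw, hwQ⟩ : ∃ w ∈ LinearMap.ker L, Q₀ w ≠ 0 := by
      by_contra h
      push Not at h
      have hle : LinearMap.ker L ≤ Submodule.span F₀ (Set.range ![Ur, Ui, y]) := by
        intro v hv
        by_contra hvs
        obtain ⟨d, hd, hvd⟩ := Orth.exists_polar_sep hN hvs
        have hdW : d ∈ LinearMap.ker L := hmemW.2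
          ⟨hd _ (Submodule.subset_span ⟨0, rfl⟩), hd _ (Submodule.subset_span ⟨1, rfl⟩),
            hd _ (Submodule.subset_span ⟨2, rfl⟩)⟩
        rw [Orth.polar_eq_zero_of_singular h hv hdW] at hvd
        exact zero_ne_one hvd
      have h1 := LinearMap.finrank_range_add_finrank_ker L
      have h3 := Submodule.finrank_le (LinearMap.range L)
      rw [Module.finrank_fintype_fun_eq_card, hn] at h1
      rw [Module.finrank_fin_fun] at h3
      have h4 : Module.finrank F₀ (Submodule.span F₀ (Set.range ![Ur, Ui, y])) ≤ 3 := by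
        simpa [Set.finrank] using finrank_range_le_card (R := F₀) ![Ur, Ui, y]
      have heq := Submodule.eq_of_le_of_finrank_le hle (by omega)
      have hUr : Ur ∈ LinearMap.ker L := by rw [heq]; exact Submodule.subset_span ⟨0, rfl⟩
      have hUi : Ui ∈ LinearMap.ker L := by rw [heq]; exact Submodule.subset_span ⟨1, rfl⟩
      exact hP ⟨h _ hUr, h _ hUi, Orth.polar_eq_zero_of_singular h hUr hUi⟩
    obtain ⟨hw1, hw2, hw3⟩ := hmemW.1 hw
    have hind : ∀ p q r s : F₀, p • Ur + q • Ui + r • y + s • w = 0 →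
        p = 0 ∧ q = 0 ∧ r = 0 ∧ s = 0 := by
      intro p q r s e
      have e1 := congrArg (polar Q₀ w) e
      simp only [polar_add_right, polar_smul_right, polar_zero_right, polar_comm Q₀ w Ur,
        polar_comm Q₀ w Ui, polar_comm Q₀ w y, hw1, hw2, hw3, polar_self_mul, smul_eq_mul,
        mul_zero, zero_add, mul_eq_zero] at e1
      have hs : s = 0 := e1.resolve_right fun h => hwQ (h.resolve_left h20)
      subst hs
      have hr : r = 0 := by
        by_contra hr
        exact hys (Submodule.mem_span_pair.2 ⟨-(r⁻¹ * p), -(r⁻¹ * q), by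
          rw [← sub_eq_zero]
          have := congrArg (fun v => (-r⁻¹) • v) e
          simp only [smul_add, smul_smul, smul_zero] at this
          rw [← this, neg_mul, neg_mul, neg_mul, neg_mul, inv_mul_cancel₀ hr]
          module⟩)
      subst hr
      obtain ⟨hp, hq'⟩ := hi p q (by simpa using e)
      exact ⟨hp, hq', rfl, rfl⟩
    have hs1 : Ur ∉ Submodule.span F₀ (Set.range ![Ui, y, w]) := by
      rw [Submodule.mem_span_range_iff_exists_fun]
      rintro ⟨c, hc⟩
      simp only [Fin.sum_univ_three, Matrix.cons_val_zero, Matrix.cons_val_one, Matrix.cons_val] at hc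
      exact neg_ne_zero.2 one_ne_zero (hind (-1) (c 0) (c 1) (c 2) (by rw [← hc]; module)).1
    have hs2 : Ui ∉ Submodule.span F₀ (Set.range ![Ur, y, w]) := by
      rw [Submodule.mem_span_range_iff_exists_fun]
      rintro ⟨c, hc⟩
      simp only [Fin.sum_univ_three, Matrix.cons_val_zero, Matrix.cons_val_one, Matrix.cons_val] at hc
      exact neg_ne_zero.2 one_ne_zero (hind (c 0) (-1) (c 1) (c 2) (by rw [← hc]; module)).2.1
    obtain ⟨x₁, hx₁, hUx₁⟩ := Orth.exists_polar_sep hN hs1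
    obtain ⟨x₂, hx₂, hUx₂⟩ := Orth.exists_polar_sep hN hs2
    have hx₁i : polar Q₀ Ui x₁ = 0 := hx₁ _ (Submodule.subset_span ⟨0, rfl⟩)
    have hx₁y : polar Q₀ y x₁ = 0 := hx₁ _ (Submodule.subset_span ⟨1, rfl⟩)
    have hx₁w : polar Q₀ w x₁ = 0 := hx₁ _ (Submodule.subset_span ⟨2, rfl⟩)
    have hx₂r : polar Q₀ Ur x₂ = 0 := hx₂ _ (Submodule.subset_span ⟨0, rfl⟩)
    have hx₂y : polar Q₀ y x₂ = 0 := hx₂ _ (Submodule.subset_span ⟨1, rfl⟩)
    have hx₂w : polar Q₀ w x₂ = 0 := hx₂ _ (Submodule.subset_span ⟨2, rfl⟩)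
    set c := -(κ * f (SSubfld.em y) Z) with hc
    set d := -(κ * f (SSubfld.em w) Z) with hd
    have hRy : ap R (SSubfld.em y) = SSubfld.em y + c • U := by
      rw [hRv, hfU y hy1 hy2]; simp [hc]; module
    have hRw : ap R (SSubfld.em w) = SSubfld.em w + d • U := by
      rw [hRv, hfU w hw1 hw2]; simp [hd]; module
    set R' := R * rs (qf ω f) (SSubfld.em y) (SSubfld.em w) * R⁻¹ with hR'
    have hR'M : R' ∈ M := mul_mem (mul_mem hRM (rs_mem hf hfix hω hω0 hrat h2 hn hMI hM y w hy hw3))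
      (inv_mem hRM)
    have hR'v : ∀ v, ap R' v = v + (κ * f v (SSubfld.em y + c • U)) • (SSubfld.em w + d • U)
        - (κ * f v (SSubfld.em w + d • U) + ((Q₀ w : F₀) : F) *
          (κ * f v (SSubfld.em y + c • U))) • (SSubfld.em y + c • U) := fun v => by
      rw [hR', ap_conj hf hfix hω hω0 hrat h2 hMI hRM hy hw3, hRy, hRw]
    have hR'y : ap R' (SSubfld.em y) = (1 : F) • SSubfld.em y := by
      rw [hR'v, Unitary.add_right hf, Unitary.add_right hf, Unitary.smul_right hf,
        Unitary.smul_right hf, hfU y hy1 hy2, f_em hf hfix hω hω0 hrat h2,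
        f_em hf hfix hω hω0 hrat h2, hw3, polar_self_mul, hy]
      simp
    have hfx2U : f (SSubfld.em x₂) U = -(ω / 2 * ω) := by
      rw [hU, f_em_left hf hfix hω hω0 hrat h2, polar_comm Q₀ x₂ Ur, polar_comm Q₀ x₂ Ui, hx₂r,
        hUx₂]
      simp
    obtain ⟨r₁, r₂, hr⟩ := exists_parts hf hfix hω hω0 h2 (σ 1 • ap R' (SSubfld.em x₂))
    refine hno (exists_T hf hfix hω hω0 hrat h2 hn hMI hM hy hy (fun e => hys (e ▸ zero_mem _))
      hR'M one_ne_zero hR'y hx₂y hr fun hmem => ?_)
    obtain ⟨k, hk⟩ := Submodule.mem_span_singleton.1 hmem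
    have e := congrArg (fun v => polar (qf ω f) v (SSubfld.em x₁)) hr
    rw [map_one, one_smul, hR'v, Unitary.add_right hf, Unitary.add_right hf,
      Unitary.smul_right hf, Unitary.smul_right hf, f_em hf hfix hω hω0 hrat h2,
      f_em hf hfix hω hω0 hrat h2, hfx2U, polar_comm Q₀ x₂ y, hx₂y, polar_comm Q₀ x₂ w, hx₂w,
      polar_parts hf hfix hω hω0 hrat h2, ← hk, polar_smul_left, hx₁y, smul_zero] at e
    simp only [polar_add_left, polar_sub_left, polar_smul_left, ← coe_polar₀ hq, hx₁y, hx₁w,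
      ZeroMemClass.coe_zero, smul_eq_mul, mul_zero, zero_add, add_zero] at e
    rw [hU, polar_parts hf hfix hω hω0 hrat h2, hUx₁, hx₁i] at e
    simp only [OneMemClass.coe_one, ZeroMemClass.coe_zero, mul_zero, add_zero, mul_one] at e
    have hκω : κ * (ω / 2 * ω) = ω := by rw [hκ]; field_simp
    have hE : ω * (((Q₀ w : F₀) : F) * (σ c * c) + σ d * c - σ c * d) =
        ((polar Q₀ r₁ x₁ : F₀) : F) - ((polar Q₀ x₂ x₁ : F₀) : F) := by
      linear_combination e +
        (σ c * d - σ d * c - ((Q₀ w : F₀) : F) * σ c * c) * hκω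
    have hE' := congrArg σ hE
    simp only [map_mul, map_sub, map_add, hω, hf.involutive, (hfix _).2 (Q₀ w).2,
      (hfix _).2 (polar Q₀ r₁ x₁).2, (hfix _).2 (polar Q₀ x₂ x₁).2] at hE'
    have h0 : (2 * ω) * (((Q₀ w : F₀) : F) * (σ c * c)) = 0 := by linear_combination hE - hE'
    have hc0 : c ≠ 0 := neg_ne_zero.2 (mul_ne_zero hκ0 hyZ)
    simp [h2, hω0, hc0] at h0
    exact hwQ h0
  obtain ⟨y₀, hy₀, hy₀r, hy₀i, hy₀s⟩ := exists_outside hf hfix hω hω0 hrat h2 hn hP
  have hperp : ∀ v, polar Q₀ Ur v = 0 → polar Q₀ Ui v = 0 → f (SSubfld.em v) Z = 0 := by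
    refine fun v h1 h3 => Orth.OSubfld.singular_induction hq hQn hy₀r hy₀i hy₀s hy₀
      (C := fun v => f (SSubfld.em v) Z = 0) (fun v hv h1 h3 => ?_) (fun a b ha hb => by
        show f _ _ = 0
        rw [em_add, hf.add_left, ha, hb, add_zero]) v h1 h3
    by_cases hvs : v ∈ Submodule.span F₀ {Ur, Ui}
    swap
    · exact S v hv h1 h3 hvs
    have hvy : polar Q₀ v y₀ = 0 := by
      obtain ⟨p, q, rfl⟩ := Submodule.mem_span_pair.1 hvs
      rw [polar_add_left, polar_smul_left, polar_smul_left, hy₀r, hy₀i]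
      simp
    have h5 := S (v + y₀) (by simp [Orth.OSubfld.map_add_eq, hv, hy₀, hvy])
      (by rw [polar_add_right, h1, hy₀r, add_zero]) (by rw [polar_add_right, h3, hy₀i, add_zero])
      (fun h => hy₀s (by simpa using Submodule.sub_mem _ h hvs))
    rw [em_add, hf.add_left, S y₀ hy₀ hy₀r hy₀i hy₀s, add_zero] at h5
    exact h5
  have hspan : ∀ v, polar Q₀ Ur v = 0 → polar Q₀ Ui v = 0 →
      polar Q₀ Zr v = 0 ∧ polar Q₀ Zi v = 0 := by
    intro v h1 h3
    have h := hperp v h1 h3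
    rw [hZ, f_em_left hf hfix hω hω0 hrat h2, mul_eq_zero] at h
    replace h := h.resolve_left (div_ne_zero hω0 h2)
    obtain ⟨e1, e2⟩ := coords_zero hfix hω hω0 h2 (polar Q₀ v Zr).2 (neg_mem (polar Q₀ v Zi).2)
      (by linear_combination h)
    exact ⟨Subtype.ext (by rw [polar_comm]; exact e1),
      Subtype.ext (by rw [polar_comm]; exact neg_eq_zero.1 e2)⟩
  have hin : Zr ∈ Submodule.span F₀ {Ur, Ui} ∧ Zi ∈ Submodule.span F₀ {Ur, Ui} := by
    constructor <;> by_contra hn' <;> obtain ⟨p, hp, hzp⟩ := Orth.exists_polar_sep hN hn' <;>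
      have h := hspan p (hp _ (Submodule.subset_span (by simp)))
        (hp _ (Submodule.subset_span (by simp)))
    · rw [h.1] at hzp; exact zero_ne_one hzp
    · rw [h.2] at hzp; exact zero_ne_one hzp
  obtain ⟨a, b, hab⟩ := Submodule.mem_span_pair.1 hin.1
  obtain ⟨c, e, hce⟩ := Submodule.mem_span_pair.1 hin.2
  set π : F := a + ω * c with hπ
  set ρ : F := b + ω * e with hρ
  have hZ' : Z = π • SSubfld.em Ur + ρ • SSubfld.em Ui := by
    rw [hZ, ← hab, ← hce, em_add, em_add, em_smul, em_smul, em_smul, em_smul, hπ, hρ]; module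
  have hD : ρ - ω * π ≠ 0 := by
    intro h
    have hk : Z = π • U := by
      rw [hZ', hU, show ρ = ω * π by linear_combination h]; module
    obtain ⟨x', z', -, -, -, h1, h3, h4, h5⟩ := P.exists_duals hq hQn
    have hk' : ap g (SSubfld.em z) = ap g (π • SSubfld.em x) := by rw [ap_smul]; exact hk
    have := congrArg (fun v => polar (qf ω f) v (SSubfld.em z')) (ap_injective g hk')
    simp [polar_smul_left, ← coe_polar₀ hq, h4, h5] at this
  have e1 : (ρ - ω * π) • SSubfld.em Ur = ρ • U - ω • Z := by rw [hZ', hU]; module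
  have e2 : (ρ - ω * π) • SSubfld.em Ui = Z - π • U := by rw [hZ', hU]; module
  have key : ∀ p q r s : F, f (p • U + q • Z) (r • U + s • Z) = 0 := fun p q r s => by
    simp [Unitary.add_right hf, hf.add_left, Unitary.smul_right hf, hf.smul_left, hUU, hUZ, hZU, hZZ]
  have k1 := key ρ (-ω) ρ (-ω)
  have k2 := key (-π) 1 (-π) 1
  have k3 := key ρ (-ω) (-π) 1
  rw [neg_smul, ← sub_eq_add_neg, ← e1] at k1 k3
  rw [one_smul, neg_smul, neg_add_eq_sub, ← e2] at k2 k3
  simp only [hf.smul_left, Unitary.smul_right hf, f_em hf hfix hω hω0 hrat h2, mul_eq_zero,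
    map_eq_zero, hD, div_eq_zero_iff, hω0, h2, false_or, or_false, polar_self_mul,
    ZeroMemClass.coe_eq_zero, mul_eq_zero, h20] at k1 k2 k3
  exact hP ⟨k1, k2, k3⟩

/-- Without transvections, singular vectors over the subfield go to lines over it. -/
lemma line_of_noT (hno : ¬ ∀ v : ι → F₀, Q₀ v = 0 → Unitary.InX hf M (SSubfld.em v))
    {g : GL ι F} (hg : g ∈ M) {x : ι → F₀} (hx : Q₀ x = 0) :
    ∃ (c : F) (y : ι → F₀), ap g (SSubfld.em x) = c • SSubfld.em y := by
  classical
  by_cases hx0 : x = 0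
  · exact ⟨0, 0, by rw [hx0, em_zero, ap_zero, zero_smul]⟩
  have hQn := nondeg_qf hf hfix hω hω0 hrat h2
  have hN := nondeg₀ hq hQn
  have h20 := two_ne_zero₀ (F₀ := F₀) h2
  have hgI := mem_isom_iff.mp (hMI hg)
  set U := ap g (SSubfld.em x) with hUdef
  obtain ⟨Ur, Ui, hU⟩ := exists_parts hf hfix hω hω0 h2 U
  have hUU : f U U = 0 := by rw [hgI]; exact isotropic_em hf hfix hω hω0 hrat h2 hx
  by_cases hi : Ind Ur Ui
  swap
  · rw [hU]; exact (dependent_parts hf hfix hω hω0 hrat h2 (by rw [← hU]; exact hUU) hi).2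
  by_contra hline
  push Not at hline
  obtain ⟨hUr, hUi, hUri⟩ := parts_ts hf hfix hω hω0 hrat h2 hn hMI hM hno hg hx hU
  set ν : F₀ := ⟨ω * ω, (hfix _).1 (by rw [map_mul, hω]; ring)⟩ with hν
  have key : ∀ z, Pair hq x z →
      ap g (SSubfld.em z) ∈ Submodule.span F {SSubfld.em Ur, SSubfld.em Ui} := by
    intro z P
    set Z := ap g (SSubfld.em z) with hZdef
    obtain ⟨Zr, Zi, hZ⟩ := exists_parts hf hfix hω hω0 h2 Z
    obtain ⟨hZr, hZi, hZri⟩ := parts_ts hf hfix hω hω0 hrat h2 hn hMI hM hno hg P.hz hZ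
    obtain ⟨s1, s2, s3⟩ := parts_ts hf hfix hω hω0 hrat h2 hn hMI hM hno hg (x := x + z)
      (Ur := Ur + Zr) (Ui := Ui + Zi)
      (by rw [Orth.OSubfld.map_add_eq, hx, P.hz, P.hxz, add_zero, add_zero])
      (by rw [em_add, ap_add, em_add, em_add, ← hUdef, ← hZdef, hU, hZ]; module)
    rw [Orth.OSubfld.map_add_eq, hUr, hZr, zero_add, zero_add] at s1
    rw [Orth.OSubfld.map_add_eq, hUi, hZi, zero_add, zero_add] at s2
    rw [polar_add_left, polar_add_right, polar_add_right, hUri, hZri, zero_add, add_zero,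
      polar_comm Q₀ Zr Ui] at s3
    have hUZ : f U Z = 0 := by
      rw [hgI, f_em hf hfix hω hω0 hrat h2, P.hxz]; simp
    have hZU : f Z U = 0 := (Unitary.eq_zero_comm hf).mp hUZ
    have hZZ : f Z Z = 0 := by rw [hgI]; exact isotropic_em hf hfix hω hω0 hrat h2 P.hz
    have h4 : polar Q₀ Ui Zr - polar Q₀ Ur Zi = 0 := by
      rw [hU, hZ, f_parts hf hfix hω hω0 hrat h2, s1, s2, mul_eq_zero] at hUZ
      have := hUZ.resolve_left (div_ne_zero hω0 h2)
      simp only [ZeroMemClass.coe_zero, mul_zero, sub_zero, zero_add, mul_eq_zero, hω0,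
        false_or] at this
      exact Subtype.ext (by simpa using this)
    have t1 : polar Q₀ Ui Zr = 0 :=
      (mul_eq_zero.1 (show (2 : F₀) * polar Q₀ Ui Zr = 0 by linear_combination s3 + h4)).resolve_left h20
    have t2 : polar Q₀ Ur Zi = 0 := by linear_combination s3 - t1
    have hli : ∀ k : F, Z ≠ k • U := by
      intro k hk
      obtain ⟨x', z', -, -, -, -, -, h4', h5⟩ := P.exists_duals hq hQn
      have hk' : ap g (SSubfld.em z) = ap g (k • SSubfld.em x) := by rw [ap_smul]; exact hk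
      have := congrArg (fun v => polar (qf ω f) v (SSubfld.em z')) (ap_injective g hk')
      simp [polar_smul_left, ← coe_polar₀ hq, h4', h5] at this
    -- four orthogonal singular vectors are dependent
    obtain ⟨c, hc, hc0⟩ : ∃ c : Fin 4 → F₀, ∑ i, c i • ![Ur, Ui, Zr, Zi] i = 0 ∧ ∃ i, c i ≠ 0 := by
      refine Fintype.not_linearIndependent_iff.1 fun hL => ?_
      have h := Orth.two_finrank_le_of_singular hN
        (W := Submodule.span F₀ (Set.range ![Ur, Ui, Zr, Zi])) fun w hw => by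
          obtain ⟨c, rfl⟩ := (Submodule.mem_span_range_iff_exists_fun _).1 hw
          simp [Fin.sum_univ_four, Orth.OSubfld.map_add_eq, QuadraticMap.map_smul,
            polar_add_left, polar_smul_left, polar_smul_right, hUr, hUi, hUri, hZr, hZi, hZri, s1,
            s2, t1, t2]
      rw [finrank_span_eq_card hL, Fintype.card_fin, hn] at h
      omega
    simp only [Fin.sum_univ_four, Matrix.cons_val_zero, Matrix.cons_val_one, Matrix.cons_val] at hc
    set a := c 1 • Ur + (ν * c 0) • Ui + c 3 • Zr + (ν * c 2) • Zi with ha'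
    set α : F := (c 1 : F) + ω * c 0 with hα
    set β : F := (c 3 : F) + ω * c 2 with hβ
    have hcomb : α • U + β • Z = SSubfld.em a := by
      have h1 : α • U + β • Z = SSubfld.em a +
          ω • SSubfld.em (c 0 • Ur + c 1 • Ui + c 2 • Zr + c 3 • Zi) := by
        simp only [hU, hZ, hα, hβ, ha', em_add, em_smul, Subfield.coe_mul, hν]
        module
      rw [h1, hc, em_zero, smul_zero, add_zero]
    have hβ0 : β ≠ 0 := by
      intro hb
      obtain ⟨b1, b2⟩ := coords_zero hfix hω hω0 h2 (c 3).2 (c 2).2 hb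
      by_cases ha : α = 0
      · obtain ⟨a1, a2⟩ := coords_zero hfix hω hω0 h2 (c 1).2 (c 0).2 ha
        obtain ⟨i, hi'⟩ := hc0
        fin_cases i <;> simp_all
      · exact hline α⁻¹ a (by rw [← hcomb, hb, zero_smul, add_zero, inv_smul_smul₀ ha])
    have ha0 : a ≠ 0 := fun e => hli (-(α / β)) (by
      rw [e, em_zero] at hcomb
      apply smul_right_injective (ι → F) hβ0
      show β • Z = β • _
      rw [smul_smul, mul_neg, mul_div_cancel₀ _ hβ0, neg_smul, eq_neg_iff_add_eq_zero, add_comm,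
        hcomb])
    have hZ' : Z = β⁻¹ • SSubfld.em a - (α / β) • U := by
      rw [← hcomb, smul_add, smul_smul, smul_smul, inv_mul_cancel₀ hβ0, one_smul, div_eq_inv_mul]
      module
    by_cases has : a ∈ Submodule.span F₀ {Ur, Ui}
    · obtain ⟨p, q, hpq⟩ := Submodule.mem_span_pair.1 has
      rw [hZ', ← hpq, hU, em_add, em_smul, em_smul]
      refine Submodule.mem_span_pair.2 ⟨β⁻¹ * p - α / β, β⁻¹ * q - α / β * ω, ?_⟩
      module
    exfalso
    have hkey' : f (SSubfld.em a) U = 0 ∧ f (SSubfld.em a) Z = 0 ∧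
        f (SSubfld.em a) (SSubfld.em a) = 0 := by
      rw [← hcomb]
      simp [Unitary.add_right hf, hf.add_left, Unitary.smul_right hf, hf.smul_left, hUU, hUZ, hZU,
        hZZ]
    obtain ⟨haU, haZ, haa⟩ := hkey'
    have hQa : Q₀ a = 0 := by
      rw [f_em hf hfix hω hω0 hrat h2, polar_self_mul] at haa
      simpa [hω0, h2, h20] using haa
    have hind : ∀ p q r : F₀, p • Ur + q • Ui + r • a = 0 → p = 0 ∧ q = 0 ∧ r = 0 := by
      intro p q r e
      have hr : r = 0 := by
        by_contra hr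
        exact has (Submodule.mem_span_pair.2 ⟨-(r⁻¹ * p), -(r⁻¹ * q), by
          rw [← sub_eq_zero]
          have := congrArg (fun v => (-r⁻¹) • v) e
          simp only [smul_add, smul_smul, smul_zero] at this
          rw [← this, neg_mul, neg_mul, neg_mul, inv_mul_cancel₀ hr]
          module⟩)
      subst hr
      obtain ⟨hp, hq'⟩ := hi p q (by simpa using e)
      exact ⟨hp, hq', rfl⟩
    have hs1 : Ur ∉ Submodule.span F₀ {Ui, a} := fun h => by
      obtain ⟨p, q, e⟩ := Submodule.mem_span_pair.1 h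
      exact neg_ne_zero.2 one_ne_zero (hind (-1) p q (by rw [← e]; module)).1
    have hs2 : Ui ∉ Submodule.span F₀ {Ur, a} := fun h => by
      obtain ⟨p, q, e⟩ := Submodule.mem_span_pair.1 h
      exact neg_ne_zero.2 one_ne_zero (hind p (-1) q (by rw [← e]; module)).2.1
    obtain ⟨x₁, hx₁, hUx₁⟩ := Orth.exists_polar_sep hN hs1
    obtain ⟨x₂, hx₂, hUx₂⟩ := Orth.exists_polar_sep hN hs2
    have hx₁i : polar Q₀ Ui x₁ = 0 := hx₁ _ (Submodule.subset_span (by simp))
    have hx₁a : polar Q₀ a x₁ = 0 := hx₁ _ (Submodule.subset_span (by simp))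
    have hx₂r : polar Q₀ Ur x₂ = 0 := hx₂ _ (Submodule.subset_span (by simp))
    have hx₂a : polar Q₀ a x₂ = 0 := hx₂ _ (Submodule.subset_span (by simp))
    set m := α / β - σ (α / β) with hm
    by_cases hm0 : m = 0
    · -- a vector of the pair goes to the line of `a`
      have hk : α / β ∈ F₀ := (hfix _).1 (sub_eq_zero.1 hm0).symm
      set a₁ := (⟨α / β, hk⟩ : F₀) • x + z with ha₁
      have hga₁ : ap g (SSubfld.em a₁) = β⁻¹ • SSubfld.em a := by
        rw [ha₁, em_add, em_smul, ap_add, ap_smul, ← hUdef, ← hZdef, hZ']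
        module
      obtain ⟨r₁, r₂, hr⟩ := exists_parts hf hfix hω hω0 h2 (σ β⁻¹ • ap g (SSubfld.em x))
      refine hno (exists_T hf hfix hω hω0 hrat h2 hn hMI hM (a₁ := a₁) ?_ hQa ha0 hg
        (inv_ne_zero hβ0) hga₁ ?_ hr fun hmem => ?_)
      · simp [ha₁, Orth.OSubfld.map_add_eq, QuadraticMap.map_smul, hx, P.hz, polar_smul_left, P.hxz]
      · simp [ha₁, polar_add_left, polar_smul_left, hx, P.swap.hxz]
      obtain ⟨k, hk'⟩ := Submodule.mem_span_singleton.1 hmem
      rw [← hUdef, hU, ← hk'] at hr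
      have e1 := congrArg (fun v => polar (qf ω f) v (SSubfld.em x₁)) hr
      have e2 := congrArg (fun v => polar (qf ω f) v (SSubfld.em x₂)) hr
      simp only [polar_smul_left, polar_parts hf hfix hω hω0 hrat h2, hUx₁, hx₁i, hx₂r, hUx₂,
        hx₁a, hx₂a, smul_eq_mul, OneMemClass.coe_one, ZeroMemClass.coe_zero, mul_zero, mul_one,
        add_zero, zero_add] at e1 e2
      have hB : σ (σ β⁻¹) = σ β⁻¹ := by
        rw [(hfix _).2 (e1 ▸ (polar Q₀ r₁ x₁).2)]
      have := coords_zero hfix hω hω0 h2 (neg_mem (polar Q₀ r₁ x₂).2) ((hfix _).1 hB)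
        (by linear_combination e2)
      exact (map_ne_zero σ).2 (inv_ne_zero hβ0) this.2
    · set R := g * rs (qf ω f) (SSubfld.em x) (SSubfld.em z) * g⁻¹ with hR
      have hRM : R ∈ M :=
        mul_mem (mul_mem hg (rs_mem hf hfix hω hω0 hrat h2 hn hMI hM x z P.hx P.hxz)) (inv_mem hg)
      have hRv : ∀ v, ap R v = v + (2 * ω⁻¹ * f v U) • Z - (2 * ω⁻¹ * f v Z) • U := fun v => by
        rw [hR, ap_conj hf hfix hω hω0 hrat h2 hMI hg P.hx P.hxz, P.hz]
        simp [hUdef, hZdef]
      have hRa : ap R (SSubfld.em a) = (1 : F) • SSubfld.em a := by rw [hRv, haU, haZ]; simp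
      have hfU : f (SSubfld.em x₂) U = -(ω / 2 * ω) := by
        rw [hU, f_em_left hf hfix hω hω0 hrat h2, polar_comm Q₀ x₂ Ur, polar_comm Q₀ x₂ Ui,
          hx₂r, hUx₂]
        simp
      have hfZ : f (SSubfld.em x₂) Z = σ (α / β) * (ω / 2 * ω) := by
        rw [hZ', Unitary.sub_right hf, Unitary.smul_right hf, Unitary.smul_right hf,
          f_em hf hfix hω hω0 hrat h2, polar_comm Q₀ x₂ a, hx₂a, hfU]
        simp
      obtain ⟨r₁, r₂, hr⟩ := exists_parts hf hfix hω hω0 h2 (σ 1 • ap R (SSubfld.em x₂))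
      refine hno (exists_T hf hfix hω hω0 hrat h2 hn hMI hM hQa hQa ha0 hRM one_ne_zero hRa hx₂a
        hr fun hmem => ?_)
      obtain ⟨k, hk'⟩ := Submodule.mem_span_singleton.1 hmem
      rw [map_one, one_smul, hRv, hfU, hfZ, ← hk', hZ'] at hr
      have e := congrArg (fun v => polar (qf ω f) v (SSubfld.em x₂)) hr
      simp only [polar_parts hf hfix hω hω0 hrat h2, polar_smul_left, hx₂a] at e
      simp only [polar_add_left, polar_sub_left, polar_smul_left, ← coe_polar₀ hq, hx₂a, hU,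
        polar_parts hf hfix hω hω0 hrat h2, hx₂r, hUx₂, smul_eq_mul, OneMemClass.coe_one,
        ZeroMemClass.coe_zero, mul_zero, mul_one, add_zero, zero_add, zero_sub] at e
      have hκω : (2 : F) * ω⁻¹ * (ω / 2 * ω) = ω := by field_simp
      have hE : ω * ω * m = ((polar Q₀ r₁ x₂ : F₀) : F) - ((polar Q₀ x₂ x₂ : F₀) : F) := by
        rw [hm]
        linear_combination e + (ω * (σ (α / β) - α / β)) * hκω
      have hE' := congrArg σ hE
      simp only [hm, map_mul, map_sub, hω, hf.involutive, (hfix _).2 (polar Q₀ r₁ x₂).2,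
        (hfix _).2 (polar Q₀ x₂ x₂).2] at hE'
      have h0 : (2 * (ω * ω)) * m = 0 := by rw [hm] at hE ⊢; linear_combination hE - hE'
      exact hm0 ((mul_eq_zero.1 h0).resolve_left (mul_ne_zero h2 (mul_ne_zero hω0 hω0)))
  -- three independent vectors in one plane
  obtain ⟨d, hd, hxd, -, -⟩ := exists_dual hq hQn (x := 0) (y := x) (z := 0)
    (by simpa using hx0) hx (by simp) (by simp)
  obtain ⟨z, P, hdz⟩ := exists_pair hf hfix hω hω0 hrat h2 hn hx hxd
  obtain ⟨x', z', -, -, -, -, -, h4, h5⟩ := P.exists_duals hq hQn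
  obtain ⟨t, ht0, ht, htp⟩ := sperp hf hfix hω hω0 hrat h2 hn (j := 3) le_rfl ![x, d, z']
  have hxt : polar Q₀ x t = 0 := htp 0
  have hdt : polar Q₀ d t = 0 := htp 1
  have hz't : polar Q₀ z' t = 0 := htp 2
  have P₂ : Pair hq x t := ⟨hx, ht, hxt, fun p q e => by
    have e' := congrArg (polar Q₀ d) e
    rw [polar_add_right, polar_smul_right, polar_smul_right, polar_comm Q₀ d x, hxd, hdt,
      polar_zero_right] at e'
    have hp0 : p = 0 := by simpa using e'
    subst hp0
    simp [ht0] at e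
    exact ⟨rfl, e⟩⟩
  have hts : t ∉ Submodule.span F₀ {x, z} := by
    intro h
    obtain ⟨p, q, e⟩ := Submodule.mem_span_pair.1 h
    have f1 := congrArg (polar Q₀ d) e
    have f2 := congrArg (polar Q₀ z') e
    simp only [polar_add_right, polar_smul_right, polar_comm Q₀ d x, hxd, hdz, hdt, hz't,
      polar_comm Q₀ z' x, h4, polar_comm Q₀ z' z, h5, smul_eq_mul, mul_one, mul_zero, add_zero,
      zero_add] at f1 f2
    exact ht0 (by rw [← e, f1, f2, zero_smul, zero_smul, add_zero])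
  obtain ⟨w, hw, htw⟩ := Orth.exists_polar_sep hN hts
  have hU' : U ∈ Submodule.span F {SSubfld.em Ur, SSubfld.em Ui} := by
    rw [hU]
    exact Submodule.mem_span_pair.2 ⟨1, ω, by rw [one_smul]⟩
  have hind3 : LinearIndependent F ![U, ap g (SSubfld.em z), ap g (SSubfld.em t)] := by
    rw [Fintype.linearIndependent_iff]
    intro c hc
    simp only [Fin.sum_univ_three, Matrix.cons_val_zero, Matrix.cons_val_one, Matrix.cons_val,
      hUdef] at hc
    have hc' : c 0 • SSubfld.em x + c 1 • SSubfld.em z + c 2 • SSubfld.em t = 0 :=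
      ap_injective g (by rw [ap_add, ap_add, ap_smul, ap_smul, ap_smul, ap_zero, hc])
    have f1 := congrArg (fun v => polar (qf ω f) v (SSubfld.em d)) hc'
    have f2 := congrArg (fun v => polar (qf ω f) v (SSubfld.em z')) hc'
    have f3 := congrArg (fun v => polar (qf ω f) v (SSubfld.em w)) hc'
    simp only [polar_add_left, polar_smul_left, polar_zero_left, ← coe_polar₀ hq, hxd,
      polar_comm Q₀ z d, hdz, polar_comm Q₀ t d, hdt, h4, h5, polar_comm Q₀ t z', hz't,
      hw x (Submodule.subset_span (by simp)), hw z (Submodule.subset_span (by simp)), htw,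
      smul_eq_mul, OneMemClass.coe_one, ZeroMemClass.coe_zero, mul_one, mul_zero, add_zero,
      zero_add] at f1 f2 f3
    intro i
    fin_cases i <;> assumption
  have h3 := Submodule.finrank_mono (R := F) (s := Submodule.span F
      (Set.range ![U, ap g (SSubfld.em z), ap g (SSubfld.em t)]))
    (t := Submodule.span F {SSubfld.em Ur, SSubfld.em Ui}) (Submodule.span_le.2 (by
      rintro _ ⟨i, rfl⟩
      fin_cases i
      exacts [hU', key z P, key t P₂]))
  rw [finrank_span_eq_card hind3, Fintype.card_fin] at h3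
  have h6 := finrank_range_le_card (R := F) ![SSubfld.em Ur, SSubfld.em Ui]
  rw [Set.finrank, Matrix.range_cons_cons_empty, Fintype.card_fin] at h6
  omega

omit hMI hM in
/-- The map lies in the subfield group. -/
lemma mem_subfield_of_lines {g : GL ι F}
    (hline : ∀ x : ι → F₀, Q₀ x = 0 → ∃ (c : F) (y : ι → F₀), ap g (SSubfld.em x) = c • SSubfld.em y) :
    g ∈ Cfsg.Geo.subfieldSubgroup F₀ (1 : GL ι F) := by
  have hQn := nondeg_qf hf hfix hω hω0 hrat h2
  -- the scalars of orthogonal singular vectors agree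
  have hpair : ∀ x y : ι → F₀, Q₀ x = 0 → Q₀ y = 0 →
      polar (Q₀) x y = 0 → ∀ (c : F) (s : ι → F₀), ap g (SSubfld.em x) = c • SSubfld.em s → x ≠ 0 →
      RatV F₀ (c⁻¹ • ap g (SSubfld.em y)) := by
    intro x y hxx hyy hxy c s hs hx0
    have hc0 : c ≠ 0 ∧ SSubfld.em s ≠ 0 := by
      have := ap_ne_zero g (em_ne_zero hx0); rw [hs] at this; exact smul_ne_zero_iff.1 this
    by_cases hyx : y ∈ Submodule.span F₀ {x}
    · obtain ⟨k, rfl⟩ := Submodule.mem_span_singleton.1 hyx
      rw [em_smul, ap_smul, hs, smul_smul, smul_smul,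
        show c⁻¹ * (k : F) * c = k by field_simp [hc0.1]]
      exact (ratV_em s).smul k.2
    obtain ⟨ν, t, ht⟩ := hline y hyy
    obtain ⟨ρ, w, hw⟩ := hline (x + y) (by
      rw [Orth.OSubfld.map_add_eq, hxx, hyy, hxy, add_zero, add_zero])
    rw [em_add, ap_add, hs, ht] at hw
    have hy0 : y ≠ 0 := fun h => hyx (h ▸ zero_mem _)
    have hν0 : ν ≠ 0 ∧ SSubfld.em t ≠ 0 := by
      have := ap_ne_zero g (em_ne_zero hy0); rw [ht] at this; exact smul_ne_zero_iff.1 this
    have hts : SSubfld.em t ∉ Submodule.span F {SSubfld.em s} := by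
      intro h
      obtain ⟨k, hk⟩ := Submodule.mem_span_singleton.1 h
      have hxy' : SSubfld.em y = (ν * k * c⁻¹) • SSubfld.em x := by
        apply ap_injective g
        rw [ap_smul, hs, ht, ← hk, smul_smul, smul_smul, inv_mul_cancel_right₀ hc0.1]
      apply hyx
      obtain ⟨i, hi⟩ := Function.ne_iff.1 hx0
      simp only [Pi.zero_apply] at hi
      refine Submodule.mem_span_singleton.2 ⟨y i / x i, em_injective ?_⟩
      rw [em_smul, hxy']
      congr 1
      have h2 := congrFun hxy' i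
      simp only [SSubfld.em, Pi.smul_apply, smul_eq_mul] at h2
      rw [Subfield.coe_div, h2, mul_div_cancel_right₀ _ (fun e => hi (Subtype.ext e))]
    have hst : SSubfld.em s ∉ Submodule.span F {SSubfld.em t} := by
      intro h
      obtain ⟨k, hk⟩ := Submodule.mem_span_singleton.1 h
      have hk0 : k ≠ 0 := fun e => hc0.2 (by rw [← hk, e, zero_smul])
      exact hts (Submodule.mem_span_singleton.2 ⟨k⁻¹, by
        rw [← hk, smul_smul, inv_mul_cancel₀ hk0, one_smul]⟩)
    obtain ⟨χ, hχ, h1, h2⟩ := LSubfld.exists_ratF_sep (ratV_em s) hc0.2 hts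
    obtain ⟨ξ, hξ, h3, h4⟩ := LSubfld.exists_ratF_sep (ratV_em t) hν0.2 hst
    have e1 := congrArg χ hw
    have e2 := congrArg ξ hw
    simp only [map_add, map_smul, h1, h3, smul_eq_mul, mul_zero, zero_add, add_zero] at e1 e2
    rw [ht, smul_smul]
    have hρ : ρ ≠ 0 := fun h => by
      rw [h, zero_mul] at e1; exact mul_ne_zero hν0.1 h2 e1
    have hwχ : ξ (SSubfld.em w) ≠ 0 := fun h => mul_ne_zero hc0.1 h4 (by rw [e2, h, mul_zero])
    refine (ratV_em t).smul ?_
    rw [show c⁻¹ * ν = (χ (SSubfld.em w) / χ (SSubfld.em t)) * (ξ (SSubfld.em s) / ξ (SSubfld.em w)) by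
      rw [div_mul_div_comm, eq_div_iff (mul_ne_zero h2 hwχ)]
      linear_combination c⁻¹ * (e1 * ξ (SSubfld.em w) - e2 * χ (SSubfld.em w)) +
        (χ (SSubfld.em w) * ξ (SSubfld.em s)) * inv_mul_cancel₀ hc0.1]
    exact mul_mem (div_mem (LSubfld.ratF_apply hχ (ratV_em w)) (LSubfld.ratF_apply hχ (ratV_em t)))
      (div_mem (LSubfld.ratF_apply hξ (ratV_em s)) (LSubfld.ratF_apply hξ (ratV_em w)))
  obtain ⟨e, he0, hee, -⟩ := sperp hf hfix hω hω0 hrat h2 hn (j := 0) (by omega) Fin.elim0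
  obtain ⟨c₀, s₀, hs₀⟩ := hline e hee
  have hc₀ : c₀ ≠ 0 := fun h => ap_ne_zero g (em_ne_zero he0) (by rw [hs₀, h, zero_smul])
  have hall : ∀ x : ι → F₀, RatV F₀ (c₀⁻¹ • ap g (SSubfld.em x)) := by
    refine fun x => Orth.OSubfld.singular_induction hq hQn (x := 0) (y := 0)
      (C := fun x => RatV F₀ (c₀⁻¹ • ap g (SSubfld.em x))) (by simp) (by simp)
      (t := e) (by simpa using he0) hee (fun y hyy _ _ => ?_) (fun x y hx hy => by
        show RatV F₀ _
        rw [em_add, ap_add, smul_add]; exact hx.add hy) x (by simp) (by simp)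
    by_cases hey : polar (Q₀) e y = 0
    · exact hpair e y hee hyy hey c₀ s₀ hs₀ he0
    obtain ⟨z, hz0, hzz, hzp⟩ := sperp hf hfix hω hω0 hrat h2 hn (j := 2) (by omega) ![e, y]
    have h1 := hpair e z hee hzz (hzp 0) c₀ s₀ hs₀ he0
    exact hpair z y hzz hyy (by rw [polar_comm]; exact hzp 1) c₀ (fun i => ⟨_, h1 i⟩)
      (funext fun i => by
        simp only [SSubfld.em, Pi.smul_apply, smul_eq_mul]
        rw [mul_inv_cancel_left₀ hc₀]) hz0
  refine Subfld.scalar_mul_mem (c := Units.mk0 c₀ hc₀) fun x hx k => ?_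
  have hx' : RatV F₀ x := fun j => by simpa using hx j
  simpa [show SSubfld.em (fun j => (⟨x j, hx' j⟩ : F₀)) = x from rfl] using
    hall (fun j => ⟨x j, hx' j⟩) k

omit hMI hM

/-- The orthogonal group over the fixed field is maximal. -/
theorem isMaximalIn : Cfsg.Geo.IsMaximalIn (Unitary.sisom hf)
    (Cfsg.Geo.subfieldSubgroup F₀ (1 : GL ι F) ⊓ Unitary.sisom hf) := by
  classical
  have hQn := nondeg_qf hf hfix hω hω0 hrat h2
  obtain ⟨u, hu0, hu, -⟩ := sperp hf hfix hω hω0 hrat h2 hn (j := 0) (by omega) Fin.elim0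
  obtain ⟨d, hd, hud, -, -⟩ := Orth.OSubfld.exists_dual hq hQn (x := 0) (y := u) (z := 0)
    (by simpa using hu0) hu (by simp) (by simp)
  refine ⟨lt_of_le_of_ne inf_le_right fun heq => ?_, fun M hHM hMS => ?_⟩
  · have hu' := isotropic_em hf hfix hω hω0 hrat h2 hu
    have hm : Unitary.T hf (SSubfld.em u) 1 hu' ∈
        Cfsg.Geo.subfieldSubgroup F₀ (1 : GL ι F) ⊓ Unitary.sisom hf := by
      rw [heq]; exact Unitary.T_mem hf hu' (map_one σ)
    obtain ⟨c, v, hv, hc⟩ := Subfld.lineRat_of_mem hm.1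
      (show Subfld.Rat F₀ (1 : GL ι F) (SSubfld.em d) from fun l => by simpa using ratV_em d l)
    have hv' : RatV F₀ v := fun l => by simpa using hv l
    have hdu' : ((polar Q₀ d u : F₀) : F) = 1 := by rw [polar_comm, hud]; rfl
    rw [Unitary.ap_T hf, one_mul, f_em hf hfix hω hω0 hrat h2, hdu', mul_one] at hc
    have e1 := congrArg (fun w => polar (qf ω f) w (SSubfld.em u)) hc
    have e2 := congrArg (fun w => polar (qf ω f) w (SSubfld.em d)) hc
    simp only [polar_add_left, polar_smul_left, (polar₀_eq_one hq).1 hud,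
      polar_comm (qf ω f) (SSubfld.em d) (SSubfld.em u), polar_self_mul, (form₀_eq_zero hq).1 hu,
      (form₀_eq_zero hq).1 hd, smul_eq_mul, mul_zero, mul_one, add_zero, zero_add] at e1 e2
    have h1 := Orth.OSubfld.polar_mem hq hv' (ratV_em u)
    have h1' := Orth.OSubfld.polar_mem hq hv' (ratV_em d)
    have hne : polar (qf ω f) v (SSubfld.em u) ≠ 0 := fun h => one_ne_zero (by rw [e1, h, mul_zero])
    have h3 : ω / 2 ∈ F₀ := by
      rw [show ω / 2 = polar (qf ω f) v (SSubfld.em d) / polar (qf ω f) v (SSubfld.em u) by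
        rw [eq_div_iff hne, e2]; linear_combination (-(polar (qf ω f) v (SSubfld.em d))) * e1]
      exact div_mem h1' h1
    have h4 := (hfix _).2 h3
    rw [map_div₀, map_ofNat, hω, neg_div] at h4
    exact mul_ne_zero h2 (div_ne_zero hω0 h2) (by linear_combination -h4)
  have hMI : M ≤ isom f := hMS.trans inf_le_left
  have hM : ∀ a w : ι → F₀, qf ω f (SSubfld.em a) = 0 →
      polar (qf ω f) (SSubfld.em a) (SSubfld.em w) = 0 →
      rs (qf ω f) (SSubfld.em a) (SSubfld.em w) ∈ M := by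
    intro a w ha' haw'
    have ha := (form₀_eq_zero hq).2 ha'
    have haw := (polar₀_eq_zero hq).2 haw'
    refine hHM ⟨Subfld.mem_of_rat fun v hv i => ?_,
      E_rat_mem_sisom hf hfix hω hω0 hrat h2 ha haw⟩
    have hv' : RatV F₀ v := fun j => by simpa using hv j
    simpa [ap_rs ((form₀_eq_zero hq).1 ha) ((polar₀_eq_zero hq).1 haw)] using
      sub_mem (add_mem (hv' i) (mul_mem (Orth.OSubfld.polar_mem hq hv' (ratV_em a)) (ratV_em w i)))
        (mul_mem (add_mem (Orth.OSubfld.polar_mem hq hv' (ratV_em w))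
          (mul_mem (hq _ (ratV_em w)) (Orth.OSubfld.polar_mem hq hv' (ratV_em a)))) (ratV_em a i))
  by_cases hX : ∀ v : ι → F₀, Q₀ v = 0 → Unitary.InX hf M (SSubfld.em v)
  · exact Or.inr (le_antisymm hMS (Unitary.le_of_hasT hf (by omega) (Unitary.hasT_of_inX hf
      fun z hz => inX_all hf hfix hω hω0 hrat h2 hn hMI hM hX hz)))
  left
  exact le_antisymm (le_inf (fun g hg => mem_subfield_of_lines hf hfix hω hω0 hrat h2 hn fun x hx =>
    line_of_noT hf hfix hω hω0 hrat h2 hn hMI hM hX hg hx) hMS) hHM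

omit hf hfix hω hω0 hrat h2 hn in
/-- The fixed field of the involution and the orthogonal group of a rational structure. -/
theorem isMaximalIn' (hn : Fintype.card ι = 6) {h : (ι → F) → (ι → F) → F}
    (hh : Cfsg.Geo.IsUnitaryForm σ h) (h2 : (2 : F) ≠ 0) (hfix : ∀ x, σ x = x ↔ x ∈ F₀) {P : GL ι F}
    (hP : Cfsg.Geo.IsFormRationalStructure h F₀ 1 P) :
    Cfsg.Geo.IsMaximalIn (isom h ⊓ Cfsg.Geo.specialLinear ι F)
      (Cfsg.Geo.subfieldSubgroup F₀ P ⊓ (isom h ⊓ Cfsg.Geo.specialLinear ι F)) := by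
  obtain ⟨a, ha⟩ : ∃ a, σ a ≠ a := by
    by_contra hc
    push Not at hc
    exact hh.ne_refl (RingEquiv.ext hc)
  set ω := a - σ a
  have hω0 : ω ≠ 0 := sub_ne_zero.2 (Ne.symm ha)
  have hω : σ ω = -ω := by simp [ω, hh.involutive]
  set f₁ : (ι → F) → (ι → F) → F := fun u v => ω * h (ap P u) (ap P v)
  have hf₁ : IsSkewForm σ f₁ := by
    refine ⟨hh.ne_refl, hh.involutive, fun x y v => ?_, fun c x v => ?_, fun v w => ?_,
      fun v hv => ?_⟩
    · simp only [f₁, ap_add, hh.add_left, mul_add]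
    · simp only [f₁, ap_smul, hh.smul_left]; ring
    · simp only [f₁]
      rw [map_mul, hω, hh.herm (ap P v) (ap P w)]
      ring
    · obtain ⟨⟨z, hz⟩, ⟨y, hy⟩⟩ := hh.nondegenerate _ (ap_ne_zero P hv)
      exact ⟨⟨ap P⁻¹ z, by simp [f₁, ap_ap_inv, hω0, hz]⟩,
        ⟨ap P⁻¹ y, by simp [f₁, ap_ap_inv, hω0, hy]⟩⟩
  have hSL : (Cfsg.Geo.specialLinear ι F).map (MulAut.conj P).toMonoidHom =
      Cfsg.Geo.specialLinear ι F := by
    have : (Cfsg.Geo.specialLinear ι F).Normal := by
      unfold Cfsg.Geo.specialLinear; infer_instance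
    ext g
    rw [Subgroup.mem_map_equiv, MulAut.conj_symm_apply]
    exact ⟨fun h => by simpa [mul_assoc] using this.conj_mem _ h P,
      fun h => by simpa [mul_assoc] using this.conj_mem _ h P⁻¹⟩
  have := isMaximalIn_map_equiv (isMaximalIn hf₁ hfix hω hω0
    (fun u v hu hv => by
      simpa [f₁, hω0, ← mul_assoc, ap_def] using hP u v hu hv) h2 hn) (MulAut.conj P)
  have hI : (Unitary.sisom hf₁).map (MulAut.conj P).toMonoidHom =
      isom h ⊓ Cfsg.Geo.specialLinear ι F := by
    rw [Subgroup.map_inf _ _ _ (MulAut.conj P).injective, map_conj_isom h hω0 P, hSL]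
  rw [hI, Subgroup.map_inf _ _ _ (MulAut.conj P).injective, hI] at this
  convert this using 2
  rw [Cfsg.Geo.subfieldSubgroup, Cfsg.Geo.subfieldSubgroup, map_one (MulAut.conj (G := GL ι F)),
    Subgroup.map_map]
  rfl

end CfsgLib.Geometric.SUSix.OSub

namespace CfsgLib.Geometric.SUSix

variable {F : Type*} [Field F] [Fintype F] {q : ℕ} (hF : Fintype.card F = q ^ 2)
include hF

/-- Orthogonal subfield subgroups of the six-dimensional special unitary group. -/
theorem subfieldOrth : (Odd q → ∀ (F₀ : Subfield F) (P : Matrix.GeneralLinearGroup (Fin 6) F), Fintype.card F = Nat.card F₀ ^ 2 → Cfsg.Geo.IsFormRationalStructure (Cfsg.hermForm 6 F q) F₀ 1 P → Cfsg.Geo.IsMaximalIn (Cfsg.GU 6 F q ⊓ Cfsg.Geo.specialLinear (Fin 6) F) (Cfsg.Geo.subfieldSubgroup F₀ P ⊓ (Cfsg.GU 6 F q ⊓ Cfsg.Geo.specialLinear (Fin 6) F))) := by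
  intro hodd F₀ P hcard hP
  classical
  obtain ⟨σ, hσ, hh⟩ := CfsgLib.Geometric.isUnitaryForm_hermForm (F := F) 6 q hF
  have hq : Nat.card F₀ = q :=
    (Nat.pow_left_injective two_ne_zero (hF ▸ hcard : q ^ 2 = Nat.card F₀ ^ 2)).symm
  have hq1 : 1 < q := hq ▸ Finite.one_lt_card
  have hsub : ∀ x ∈ F₀, x ^ q = x := fun x hx => by
    have : Fintype F₀ := Fintype.ofFinite F₀
    have hp := congrArg Subtype.val (FiniteField.pow_card (⟨x, hx⟩ : F₀))
    rw [← hq, Nat.card_eq_fintype_card]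
    simpa using hp
  have h0 : (Polynomial.X ^ q - Polynomial.X : Polynomial F) ≠ 0 :=
    FiniteField.X_pow_card_sub_X_ne_zero F hq1
  have hroots : (Finset.univ.filter fun x : F => x ^ q = x).card ≤ q := by
    calc _ ≤ (Polynomial.X ^ q - Polynomial.X : Polynomial F).roots.toFinset.card :=
          Finset.card_le_card fun x hx => by
            simp only [Finset.mem_filter, Finset.mem_univ, true_and] at hx
            rw [Multiset.mem_toFinset, Polynomial.mem_roots h0]
            simp [hx]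
      _ ≤ _ := le_trans (Multiset.toFinset_card_le _) (le_trans (Polynomial.card_roots' _)
          (le_of_eq (FiniteField.X_pow_card_sub_X_natDegree_eq F hq1)))
  have heq : (Finset.univ.filter fun x => x ∈ F₀) = (Finset.univ.filter fun x : F => x ^ q = x) :=
    Finset.eq_of_subset_of_card_le (fun x hx => by
      simp only [Finset.mem_filter, Finset.mem_univ, true_and] at hx ⊢
      exact hsub x hx) (le_trans hroots (le_of_eq (by
        rw [← hq, Nat.card_eq_fintype_card, Fintype.card_subtype])))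
  have h2 : (2 : F) ≠ 0 := by
    intro h
    have h' : ringChar F = 2 := CharP.ringChar_of_prime_eq_zero Nat.prime_two (by exact_mod_cast h)
    have := FiniteField.even_card_of_char_two h'
    rw [hF] at this
    exact Nat.not_even_iff_odd.2 (hodd.pow (n := 2)) (Nat.even_iff.2 this)
  refine CfsgLib.Geometric.SUSix.OSub.isMaximalIn' (σ := σ) (Fintype.card_fin 6) hh h2 (fun x => ?_) hP
  rw [hσ]
  have := Finset.ext_iff.1 heq x
  simp only [Finset.mem_filter, Finset.mem_univ, true_and] at this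
  exact this.symm

end CfsgLib.Geometric.SUSix
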