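import Cfsg.Prelude.Def_LieClassical
import Cfsg.Agent.Lib.Geometric.UnitaryTensor
import Cfsg.Agent.Lib.Geometric.SUSix.Tensor.Root
import Cfsg.Agent.Lib.Geometric.SUSix.Tensor.Even

/-!
The stabiliser of a tensor product of a unitary plane and a three-dimensional unitary space is
maximal in the special unitary group of dimension six over more than four elements.
-/

namespace CfsgLib.Geometric.SUSix

open Matrix Tensor CfsgLib.Geometric.Unitary

section Skew

variable {ι : Type} [Fintype ι] [DecidableEq ι] {F : Type*} [Field F] [Finite F]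
variable {σ : F ≃+* F} {f : (ι → F) → (ι → F) → F}
variable {e : ι ≃ Fin 2 × Fin 3} {P : GL ι F}
variable {f₁ : (Fin 2 → F) → (Fin 2 → F) → F} {f₂ : (Fin 3 → F) → (Fin 3 → F) → F} {c : F}
variable (hT : UTensor σ f e P f₁ f₂ c)
include hT

/-- An overgroup without pure roots lies in the stabiliser. -/
theorem Ctx.le_tensor {M : Subgroup (GL ι F)} (hC : Ctx hT M) :
    M ≤ Cfsg.Geo.tensorProductSubgroup 2 3 e P := by
  intro g hg
  obtain ⟨a, -, ha0, ha⟩ := exists_isotropic hT.form₁ (nondeg_perp_bot hT.form₁)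
    (by rw [finrank_perp_bot hT.form₁, Fintype.card_fin])
  obtain ⟨w, hw0, hw, -⟩ := exists_iso_perp hT.form₂ 0
  by_cases h2 : (2 : F) = 0
  · have hX := isotropic_ap hT.form (hC.isom_of_mem (inv_mem hg)) (hT.pt_iso a hw)
    rcases hC.exists_fixing h2 hX with ⟨z, hz0, hz, hzk⟩ |
      ⟨u₂, w₂, hu₂, hw₂, β, hu₂0, hw₂0, hσ, hβ, hfix⟩
    · exact hC.mem_of_kernel hg ha ha0 hw hw0 hz hz0 hzk
    have hpM := hC.pp_mem hu₂ hw₂ (map_one σ) hσ
    exact hC.mem_of_conj_invol hg hpM (pp_sq hT hu₂ hw₂ h2 1 β)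
      (fun h hh hc => hC.good_pp h2 hu₂ hw₂ hu₂0 hw₂0 hσ hβ hh hc)
      (hC.conj_fix hg hpM ha ha0 hw hw0 hfix)
  · obtain ⟨z, hz0, hk⟩ := exists_kernel hT (ap g⁻¹ (pt e P a w))
    by_cases hzz : f₂ z z = 0
    · exact hC.mem_of_kernel hg ha ha0 hw hw0 hzz hz0 hk
    obtain ⟨n, hnM, hsq, hn⟩ := hC.exists_reflection h2 hzz
    exact hC.mem_of_conj_invol hg hnM hsq (fun h hh hc => hC.good_reflection h2 hzz hn hh hc)
      (hC.conj_fix hg hnM ha ha0 hw hw0 (by rw [hn, hk, pt_zero_left, smul_zero, add_zero]))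

/-- The stabiliser of a tensor product of a plane and a three-dimensional space is maximal. -/
theorem skew_isMaximalIn (hk : ∃ k : F, σ k = k ∧ k ≠ 0 ∧ k ≠ 1) :
    Cfsg.Geo.IsMaximalIn (sisom hT.form)
      (Cfsg.Geo.tensorProductSubgroup 2 3 e P ⊓ sisom hT.form) := by
  refine ⟨tensor_lt hT, fun M hHM hMS => ?_⟩
  by_cases hN : NoRoot hT M
  · exact Or.inl (le_antisymm (le_inf (Ctx.le_tensor hT ⟨hk, hHM, hMS, hN⟩) hMS) hHM)
  · have hMI : M ≤ isom f := fun x hx => (hMS hx).1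
    exact Or.inr (le_antisymm hMS (le_of_inX hT (inX_all hT hHM hMI hN) hMI))

end Skew

variable {F : Type*} [Field F] [Fintype F] {q : ℕ}

/-- Stabilisers of tensor decompositions `2 × 3` in `SU 6 q`. -/
theorem tensor (hF : Fintype.card F = q ^ 2) :
    (3 ≤ q → ∀ (e : Fin 6 ≃ Fin 2 × Fin 3) (P : Matrix.GeneralLinearGroup (Fin 6) F) (f₁ : (Fin 2 → F) → (Fin 2 → F) → F) (f₂ : (Fin 3 → F) → (Fin 3 → F) → F), Cfsg.Geo.IsUnitaryFormPow q f₁ → Cfsg.Geo.IsUnitaryFormPow q f₂ → Cfsg.Geo.IsTensorFormStructure (fun x : F => x ^ q) (Cfsg.hermForm 6 F q) f₁ f₂ e P → Cfsg.Geo.IsMaximalIn (Cfsg.GU 6 F q ⊓ Cfsg.Geo.specialLinear (Fin 6) F) (Cfsg.Geo.tensorProductSubgroup 2 3 e P ⊓ (Cfsg.GU 6 F q ⊓ Cfsg.Geo.specialLinear (Fin 6) F))) := by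
  intro hq3 e P f₁ f₂ hf₁ hf₂ hT
  classical
  obtain ⟨σ, hσ, hh⟩ := CfsgLib.Geometric.isUnitaryForm_hermForm (F := F) 6 q hF
  obtain ⟨ζ, hζ, hf⟩ := CfsgLib.Geometric.exists_skewForm_of_unitary hh
  have hζσ : σ ζ = -ζ := by
    obtain ⟨⟨x, hx⟩, -⟩ := hh.nondegenerate (fun _ => 1) (fun h0 => by
      simpa using congrFun h0 (0 : Fin 6))
    have h := hf.skew x (fun _ => 1)
    rw [map_mul, hh.herm x (fun _ => 1)] at h
    have hne : σ (Cfsg.hermForm 6 F q (fun _ => 1) x) ≠ 0 := by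
      rw [← hh.herm]; exact hx
    exact mul_right_cancel₀ hne (by linear_combination h)
  have conv : ∀ {k : ℕ} {h : (Fin k → F) → (Fin k → F) → F}, Cfsg.Geo.IsUnitaryFormPow q h →
      Cfsg.Geo.IsUnitaryForm σ h ∧ CfsgLib.Geometric.IsSkewForm σ (fun u v => ζ * h u v) := by
    intro k h hk
    refine ⟨⟨hh.ne_refl, hh.involutive, hk.add_left, hk.smul_left,
      fun v w => by rw [hσ]; exact hk.herm v w, hk.nondegenerate⟩, hh.ne_refl, hh.involutive,
      fun x y v => by rw [hk.add_left]; ring, fun c x v => by rw [hk.smul_left]; ring,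
      fun v w => ?_, fun v hv => ?_⟩
    · rw [map_mul, hζσ, hσ (h w v), ← hk.herm v w]; ring
    · obtain ⟨⟨x, hx⟩, ⟨y, hy⟩⟩ := hk.nondegenerate v hv
      exact ⟨⟨x, mul_ne_zero hζ hx⟩, ⟨y, mul_ne_zero hζ hy⟩⟩
  have gram : ∀ {k : ℕ} {h : (Fin k → F) → (Fin k → F) → F}, Cfsg.Geo.IsUnitaryForm σ h →
      ∀ x y, h x y = Cfsg.Geo.formOfGram (σ : F →+* F) (Cfsg.Geo.gramMatrix h) x y := fun hu =>
    CfsgLib.Geometric.eq_formOfGram hu.add_left hu.smul_left
      (fun x y v => by rw [hu.herm, hu.add_left, map_add, ← hu.herm, ← hu.herm])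
      (fun c v x => by rw [hu.herm, hu.smul_left, map_mul, ← hu.herm]; rfl)
  rw [show (fun x : F => x ^ q) = ⇑(σ : F →+* F) from funext fun x => (hσ x).symm] at hT
  obtain ⟨c, hc, hform⟩ := CfsgLib.Geometric.Tensor.form_pt e P (gram (conv hf₁).1)
    (gram (conv hf₂).1) hT
  have hU : UTensor σ (fun u v => ζ * Cfsg.hermForm 6 F q u v) e P
      (fun u v => ζ * f₁ u v) (fun u v => ζ * f₂ u v) (c / ζ) :=
    ⟨hf, (conv hf₁).2, (conv hf₂).2, div_ne_zero hc hζ, fun x x' y y' => by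
      rw [hform]; field_simp⟩
  have hk : ∃ k : F, σ k = k ∧ k ≠ 0 ∧ k ≠ 1 := by
    by_contra hc'
    push Not at hc'
    have hall : ∀ x : Fˣ, x ^ (q + 1) = 1 := fun x => Units.ext (by
      have h0 : (x : F) * σ x ≠ 0 := mul_ne_zero x.ne_zero (by simp)
      have := hc' ((x : F) * σ x) (by rw [map_mul, hh.involutive, mul_comm]) h0
      rw [hσ] at this
      rw [Units.val_pow_eq_pow_val, Units.val_one, pow_succ']
      exact this)
    have hdvd := (FiniteField.forall_pow_eq_one_iff F (q + 1)).mp hall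
    rw [hF] at hdvd
    have hle := Nat.le_of_dvd (Nat.succ_pos q) hdvd
    have : 3 * q ≤ q ^ 2 := by rw [sq]; exact Nat.mul_le_mul_right q hq3
    omega
  have hiso : CfsgLib.Geometric.isom (fun u v => ζ * Cfsg.hermForm 6 F q u v) = Cfsg.GU 6 F q :=
    CfsgLib.Geometric.isom_mul_const hζ _
  have := skew_isMaximalIn hU hk
  simp only [sisom, hiso] at this
  exact this

end CfsgLib.Geometric.SUSix
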